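import Mathlib
import Cfsg.Agent.Helper5.OmegaCharK
import Cfsg.Agent.Helper2.SLGen
import Cfsg.Agent.Helper13.PSL2Sylow
import Cfsg.Agent.S0286

/-!
The adjoint representation of `SL₂(F)` on the trace-zero matrices, as isometries of the
quadratic form `x² + yz`, and the resulting isomorphism `PΩ₃(q) ≃ PSL₂(q)` for `q` odd.
-/

set_option autoImplicit false

namespace Cfsg.Agent.Helper5

open scoped Matrix

section

variable {F : Type*} [Field F]

/-- Two surjections out of the same group, one of whose kernels is the preimage of the centre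
of the target of the other. -/
theorem center_quot_iso {G H P : Type*} [Group G] [Group H] [Group P] (f : G →* H)
    (hf : Function.Surjective f) (p : G →* P) (hp : Function.Surjective p)
    (h : ∀ g, f g ∈ Subgroup.center H ↔ p g = 1) :
    Nonempty (H ⧸ Subgroup.center H ≃* P) := by
  have hker : ((QuotientGroup.mk' (Subgroup.center H)).comp f).ker = p.ker := by
    ext g
    rw [MonoidHom.mem_ker, MonoidHom.mem_ker, MonoidHom.comp_apply, QuotientGroup.mk'_apply,
      QuotientGroup.eq_one_iff]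
    exact h g
  have hsurj : Function.Surjective ((QuotientGroup.mk' (Subgroup.center H)).comp f) :=
    (QuotientGroup.mk'_surjective _).comp hf
  exact ⟨(QuotientGroup.quotientKerEquivOfSurjective _ hsurj).symm.trans
    ((QuotientGroup.quotientMulEquivOfEq hker).trans
      (QuotientGroup.quotientKerEquivOfSurjective p hp))⟩

/-- The matrix of `M ↦ g M adj(g)` on the trace-zero matrices `[[x, y], [z, -x]]`. -/
def adjMat (g : Matrix (Fin 2) (Fin 2) F) :
    Matrix (Unit ⊕ (Fin 1 ⊕ Fin 1)) (Unit ⊕ (Fin 1 ⊕ Fin 1)) F :=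
  Matrix.of fun i j =>
    match i, j with
    | Sum.inl _, Sum.inl _ => g 0 0 * g 1 1 + g 0 1 * g 1 0
    | Sum.inl _, Sum.inr (Sum.inl _) => -(g 0 0 * g 1 0)
    | Sum.inl _, Sum.inr (Sum.inr _) => g 0 1 * g 1 1
    | Sum.inr (Sum.inl _), Sum.inl _ => -(2 * g 0 0 * g 0 1)
    | Sum.inr (Sum.inl _), Sum.inr (Sum.inl _) => g 0 0 ^ 2
    | Sum.inr (Sum.inl _), Sum.inr (Sum.inr _) => -(g 0 1 ^ 2)
    | Sum.inr (Sum.inr _), Sum.inl _ => 2 * g 1 0 * g 1 1
    | Sum.inr (Sum.inr _), Sum.inr (Sum.inl _) => -(g 1 0 ^ 2)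
    | Sum.inr (Sum.inr _), Sum.inr (Sum.inr _) => g 1 1 ^ 2

theorem adjMat_mul (g h : Matrix (Fin 2) (Fin 2) F) : adjMat (g * h) = adjMat g * adjMat h := by
  ext i j
  rcases i with ⟨⟩ | i | i <;> rcases j with ⟨⟩ | j | j <;>
    simp [adjMat, Matrix.mul_apply, Fin.sum_univ_two] <;> ring

theorem adjMat_one : adjMat (1 : Matrix (Fin 2) (Fin 2) F) = 1 := by
  ext i j
  rcases i with ⟨⟩ | i | i <;> rcases j with ⟨⟩ | j | j <;>
    simp [adjMat, Matrix.one_apply] <;> exact Subsingleton.elim _ _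

theorem adjMat_isom (g : Matrix (Fin 2) (Fin 2) F) (hg : g.det = 1)
    (v : Unit ⊕ (Fin 1 ⊕ Fin 1) → F) :
    Cfsg.quadFormOdd 1 F (adjMat g *ᵥ v) = Cfsg.quadFormOdd 1 F v := by
  rw [Matrix.det_fin_two] at hg
  simp [Cfsg.quadFormOdd, Matrix.mulVec, dotProduct, adjMat]
  linear_combination ((g 0 0 * g 1 1 - g 0 1 * g 1 0 + 1) * (v (Sum.inl ()) ^ 2
    + v (Sum.inr (Sum.inl 0)) * v (Sum.inr (Sum.inr 0)))) * hg

theorem adjMat_yy (g : Matrix (Fin 2) (Fin 2) F) :
    adjMat g (Sum.inr (Sum.inl 0)) (Sum.inr (Sum.inl 0)) = g 0 0 ^ 2 := rfl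

theorem adjMat_yz (g : Matrix (Fin 2) (Fin 2) F) :
    adjMat g (Sum.inr (Sum.inl 0)) (Sum.inr (Sum.inr 0)) = -(g 0 1 ^ 2) := rfl

theorem adjMat_zy (g : Matrix (Fin 2) (Fin 2) F) :
    adjMat g (Sum.inr (Sum.inr 0)) (Sum.inr (Sum.inl 0)) = -(g 1 0 ^ 2) := rfl

/-- The kernel of the adjoint representation consists of central elements. -/
theorem adjMat_eq_one (g : Matrix.SpecialLinearGroup (Fin 2) F) (h : adjMat g.1 = 1) :
    g ∈ Subgroup.center (Matrix.SpecialLinearGroup (Fin 2) F) := by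
  have hdet := g.2
  rw [Matrix.det_fin_two] at hdet
  have h1 := congrFun (congrFun h (Sum.inr (Sum.inl 0))) (Sum.inr (Sum.inl 0))
  have h3 := congrFun (congrFun h (Sum.inr (Sum.inl 0))) (Sum.inr (Sum.inr 0))
  have h4 := congrFun (congrFun h (Sum.inr (Sum.inr 0))) (Sum.inr (Sum.inl 0))
  rw [adjMat_yy, Matrix.one_apply_eq] at h1
  rw [adjMat_yz, Matrix.one_apply_ne (by simp), neg_eq_zero] at h3
  rw [adjMat_zy, Matrix.one_apply_ne (by simp), neg_eq_zero] at h4
  have h3' : g.1 0 1 = 0 := (pow_eq_zero_iff (two_ne_zero)).1 h3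
  have h4' : g.1 1 0 = 0 := (pow_eq_zero_iff (two_ne_zero)).1 h4
  have h5 : g.1 1 1 = g.1 0 0 := by
    linear_combination (-(g.1 1 1)) * h1 + (g.1 0 0) * hdet + (g.1 0 0 * g.1 1 0) * h3'
  exact Cfsg.Agent.Helper13.mem_center_SL2_of_entries g (g.1 0 0)
    (mul_self_eq_one_iff.1 (by rw [← pow_two]; exact h1)) rfl h3' h4' h5

theorem adjMat_of_center (g : Matrix.SpecialLinearGroup (Fin 2) F)
    (hg : g ∈ Subgroup.center (Matrix.SpecialLinearGroup (Fin 2) F)) : adjMat g.1 = 1 := by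
  obtain ⟨ε, hε, e00, e01, e10, e11⟩ := Cfsg.Agent.Helper13.entries_of_mem_center_SL2 hg
  have hεε : ε * ε = 1 := mul_self_eq_one_iff.2 hε
  have hε2 : ε ^ 2 = 1 := by rw [pow_two]; exact hεε
  ext i j
  rcases i with ⟨⟩ | i | i <;> rcases j with ⟨⟩ | j | j <;>
    simp [adjMat, Matrix.one_apply, e00, e01, e10, e11, hεε, hε2] <;>
    exact Subsingleton.elim _ _

/-- An element of `SL₂` commuting with everything up to the centre is central. -/
theorem sl2_second_center (h2 : (2 : F) ≠ 0) (g : Matrix.SpecialLinearGroup (Fin 2) F)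
    (hg : ∀ h : Matrix.SpecialLinearGroup (Fin 2) F,
      g * h * (h * g)⁻¹ ∈ Subgroup.center (Matrix.SpecialLinearGroup (Fin 2) F)) :
    g ∈ Subgroup.center (Matrix.SpecialLinearGroup (Fin 2) F) := by
  have hdet := g.2
  rw [Matrix.det_fin_two] at hdet
  have key : ∀ (T : Matrix.SpecialLinearGroup (Fin 2) F), ∃ ε : F,
      (ε = 1 ∨ ε = -1) ∧ ∀ i j : Fin 2, (g.1 * T.1) i j = ε * (T.1 * g.1) i j := by
    intro T
    obtain ⟨ε, hε, e00, e01, e10, e11⟩ := Cfsg.Agent.Helper13.entries_of_mem_center_SL2 (hg T)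
    have hz : g * T = g * T * (T * g)⁻¹ * (T * g) := by rw [inv_mul_cancel_right]
    have hm : g.1 * T.1 = (g * T * (T * g)⁻¹).1 * (T.1 * g.1) :=
      congrArg (fun x : Matrix.SpecialLinearGroup (Fin 2) F => x.1) hz
    refine ⟨ε, hε, fun i j => ?_⟩
    rw [hm, Matrix.mul_apply, Fin.sum_univ_two]
    fin_cases i
    · simp only [Fin.zero_eta, e00, e01]
      ring
    · simp only [Fin.mk_one, e10, e11]
      ring
  obtain ⟨T, hT00, hT01, hT10, hT11⟩ : ∃ T : Matrix.SpecialLinearGroup (Fin 2) F,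
      T.1 0 0 = 1 ∧ T.1 0 1 = 1 ∧ T.1 1 0 = 0 ∧ T.1 1 1 = 1 :=
    ⟨⟨!![1, 1; 0, 1], by simp [Matrix.det_fin_two]⟩, rfl, rfl, rfl, rfl⟩
  obtain ⟨S, hS00, hS01, hS10, hS11⟩ : ∃ S : Matrix.SpecialLinearGroup (Fin 2) F,
      S.1 0 0 = 1 ∧ S.1 0 1 = 0 ∧ S.1 1 0 = 1 ∧ S.1 1 1 = 1 :=
    ⟨⟨!![1, 0; 1, 1], by simp [Matrix.det_fin_two]⟩, rfl, rfl, rfl, rfl⟩
  have hcT : g.1 1 0 = 0 ∧ g.1 0 0 = g.1 1 1 := by
    obtain ⟨ε, hε, hk⟩ := key T
    have h00 := hk 0 0
    have h10 := hk 1 0
    have h01 := hk 0 1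
    simp only [Matrix.mul_apply, Fin.sum_univ_two, hT00, hT01, hT10, hT11] at h00 h10 h01
    rcases hε with h | h
    · rw [h] at h00 h01
      exact ⟨by linear_combination (-1 : F) * h00, by linear_combination h01⟩
    · rw [h] at h00 h10
      have h5 : 2 * g.1 1 0 = 0 := by linear_combination h10
      have hc : g.1 1 0 = 0 := by
        rcases mul_eq_zero.1 h5 with h6 | h6
        · exact absurd h6 h2
        · exact h6
      have h7 : 2 * g.1 0 0 = 0 := by linear_combination h00 - hc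
      have ha : g.1 0 0 = 0 := by
        rcases mul_eq_zero.1 h7 with h6 | h6
        · exact absurd h6 h2
        · exact h6
      have h8 : (0 : F) = 1 := by linear_combination hdet - g.1 1 1 * ha + g.1 0 1 * hc
      exact absurd h8 zero_ne_one
  obtain ⟨hc, had⟩ := hcT
  have hb : g.1 0 1 = 0 := by
    obtain ⟨ε, hε, hk⟩ := key S
    have h00 := hk 0 0
    have h01 := hk 0 1
    simp only [Matrix.mul_apply, Fin.sum_univ_two, hS00, hS01, hS10, hS11] at h00 h01
    rcases hε with h | h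
    · rw [h] at h00
      linear_combination h00
    · rw [h] at h00 h01
      have h5 : 2 * g.1 0 1 = 0 := by linear_combination h01
      have hb : g.1 0 1 = 0 := by
        rcases mul_eq_zero.1 h5 with h6 | h6
        · exact absurd h6 h2
        · exact h6
      have h7 : 2 * g.1 0 0 = 0 := by linear_combination h00 - hb
      have ha : g.1 0 0 = 0 := by
        rcases mul_eq_zero.1 h7 with h6 | h6
        · exact absurd h6 h2
        · exact h6
      have h8 : (0 : F) = 1 := by linear_combination hdet - g.1 1 1 * ha + g.1 0 1 * hc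
      exact absurd h8 zero_ne_one
  have haa : g.1 0 0 * g.1 0 0 = 1 := by
    linear_combination hdet + g.1 0 0 * had + g.1 0 1 * hc
  exact Cfsg.Agent.Helper13.mem_center_SL2_of_entries g (g.1 0 0) (mul_self_eq_one_iff.1 haa)
    rfl hb hc had.symm

/-- The adjoint representation as a homomorphism into the isometry group. -/
noncomputable def adjHom (Q : QuadraticForm F (Unit ⊕ (Fin 1 ⊕ Fin 1) → F))
    (hQ : ∀ v, Q v = Cfsg.quadFormOdd 1 F v) :
    Matrix.SpecialLinearGroup (Fin 2) F →* ↥(Cfsg.isometryGroup F ⇑Q) where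
  toFun g := ⟨⟨adjMat g.1, adjMat (g⁻¹).1,
      by rw [← adjMat_mul, ← Matrix.SpecialLinearGroup.coe_mul, mul_inv_cancel,
        Matrix.SpecialLinearGroup.coe_one, adjMat_one],
      by rw [← adjMat_mul, ← Matrix.SpecialLinearGroup.coe_mul, inv_mul_cancel,
        Matrix.SpecialLinearGroup.coe_one, adjMat_one]⟩,
    by
      rw [Cfsg.Agent.Helper6.isometry_mem_iff]
      intro v
      rw [hQ, hQ]
      exact adjMat_isom g.1 g.2 v⟩
  map_one' := by
    apply Subtype.ext
    apply Units.ext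
    exact adjMat_one
  map_mul' g h := by
    apply Subtype.ext
    apply Units.ext
    exact adjMat_mul g.1 h.1

theorem adjHom_coe (Q : QuadraticForm F (Unit ⊕ (Fin 1 ⊕ Fin 1) → F))
    (hQ : ∀ v, Q v = Cfsg.quadFormOdd 1 F v) (g : Matrix.SpecialLinearGroup (Fin 2) F) :
    (((adjHom Q hQ g : ↥(Cfsg.isometryGroup F ⇑Q)) :
      Matrix.GeneralLinearGroup (Unit ⊕ (Fin 1 ⊕ Fin 1)) F) :
      Matrix (Unit ⊕ (Fin 1 ⊕ Fin 1)) (Unit ⊕ (Fin 1 ⊕ Fin 1)) F) = adjMat g.1 := rfl

/-- `PΩ₃(q) ≃ PSL₂(q)` for `q` odd. -/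
theorem pomega3_iso [Fintype F] (hodd : Odd (Fintype.card F))
    (Q : QuadraticForm F (Unit ⊕ (Fin 1 ⊕ Fin 1) → F))
    (hQ : ∀ v, Q v = Cfsg.quadFormOdd 1 F v)
    (hnd : (QuadraticMap.polarBilin Q).Nondegenerate) :
    Nonempty (Cfsg.POmega F ⇑Q ≃* Matrix.ProjectiveSpecialLinearGroup (Fin 2) F) := by
  have h2 : (2 : F) ≠ 0 := two_ne_zero_of_odd hodd
  obtain ⟨Ψ, hΨs, hΨk⟩ := omega_charK h2 (Sum.inl () : Unit ⊕ (Fin 1 ⊕ Fin 1))
    (Sum.inr (Sum.inl 0)) (by simp) Q hnd
  have himg : ∀ g, adjHom Q hQ g ∈ commutator ↥(Cfsg.isometryGroup F ⇑Q) := by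
    intro g
    rw [← hΨk, MonoidHom.mem_ker]
    refine Cfsg.Agent.Helper2.transvection_induction (fun g => Ψ (adjHom Q hQ g) = 1) ?_ ?_ g
    · intro i j hij c
      have hc : Matrix.SpecialLinearGroup.transvection hij c
          = Matrix.SpecialLinearGroup.transvection hij (c * 2⁻¹)
            * Matrix.SpecialLinearGroup.transvection hij (c * 2⁻¹) := by
        apply Subtype.ext
        change Matrix.transvection i j c
          = Matrix.transvection i j (c * 2⁻¹) * Matrix.transvection i j (c * 2⁻¹)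
        rw [Matrix.transvection_mul_transvection_same i j hij]
        congr 1
        linear_combination (-c) * (mul_inv_cancel₀ h2)
      change Ψ (adjHom Q hQ (Matrix.SpecialLinearGroup.transvection hij c)) = 1
      rw [hc, map_mul, map_mul]
      exact Prod.ext (Int.units_mul_self _) (Int.units_mul_self _)
    · intro A B hA hB
      rw [map_mul, map_mul, hA, hB, mul_one]
  obtain ⟨f, hf⟩ : ∃ f : Matrix.SpecialLinearGroup (Fin 2) F →*
      ↥(commutator ↥(Cfsg.isometryGroup F ⇑Q)),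
      ∀ g, (f g : ↥(Cfsg.isometryGroup F ⇑Q)) = adjHom Q hQ g :=
    ⟨(adjHom Q hQ).codRestrict _ himg, fun g => rfl⟩
  have hker : f.ker = Subgroup.center (Matrix.SpecialLinearGroup (Fin 2) F) := by
    ext g
    rw [MonoidHom.mem_ker]
    constructor
    · intro hg
      apply adjMat_eq_one
      rw [← adjHom_coe Q hQ, ← hf, hg]
      rfl
    · intro hg
      apply Subtype.ext
      rw [hf]
      apply Subtype.ext
      apply Units.ext
      rw [adjHom_coe]
      exact adjMat_of_center g hg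
  have hidx : (commutator ↥(Cfsg.isometryGroup F ⇑Q)).index = 4 := by
    rw [← hΨk, Subgroup.index_ker, MonoidHom.range_eq_top.2 hΨs, Subgroup.card_top,
      Nat.card_prod, Nat.card_eq_fintype_card, Fintype.card_units_int]
  have hO := Cfsg.Agent.S0286.result (F := F) rfl hodd 1
  have hQeq : Cfsg.quadFormOdd 1 F = ⇑Q := funext (fun v => (hQ v).symm)
  rw [hQeq] at hO
  have h1 := Subgroup.card_mul_index (commutator ↥(Cfsg.isometryGroup F ⇑Q))
  rw [hidx, hO] at h1
  have h3 := Subgroup.card_eq_card_quotient_mul_card_subgroup f.ker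
  have h4 : Nat.card ↥f.ker = 2 := by
    rw [hker]
    exact Cfsg.Agent.Helper13.card_center_SL2_of_odd hodd
  have h5 := Nat.card_congr (QuotientGroup.quotientKerEquivRange f).toEquiv
  rw [h4, h5, Cfsg.Agent.S2301.card_SL2] at h3
  have hrange : f.range = ⊤ := by
    apply Subgroup.eq_top_of_card_eq
    simp only [one_pow, pow_one, Finset.prod_range_one, zero_add, mul_one] at h1
    rw [mul_assoc] at h1
    generalize Fintype.card F * (Fintype.card F ^ 2 - 1) = W at h1 h3
    omega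
  have hsurj : Function.Surjective f := MonoidHom.range_eq_top.1 hrange
  apply center_quot_iso f hsurj (QuotientGroup.mk' (Subgroup.center
    (Matrix.SpecialLinearGroup (Fin 2) F))) (QuotientGroup.mk'_surjective _)
  intro g
  rw [QuotientGroup.mk'_apply, QuotientGroup.eq_one_iff]
  constructor
  · intro hg
    apply sl2_second_center h2
    intro h
    rw [← hker, MonoidHom.mem_ker, map_mul, map_inv, map_mul, map_mul,
      Subgroup.mem_center_iff.1 hg (f h), mul_inv_cancel]
  · intro hg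
    have h6 : f g = 1 := by
      rw [← MonoidHom.mem_ker, hker]
      exact hg
    rw [h6]
    exact one_mem _

end

end Cfsg.Agent.Helper5
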