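import Mathlib
import Cfsg.Agent.Helper15.QuadClass2
import Cfsg.Agent.Helper15.Gram
import Cfsg.Agent.Helper15.Witt

set_option autoImplicit false

namespace Cfsg.Agent.Helper5

open scoped TensorProduct

/-- The square class of `s * disc` does not depend on the basis. -/
theorem disc_basis_change {F V : Type*} [Field F] [AddCommGroup V] [Module F V]
    {ι ι' : Type*} [Fintype ι] [DecidableEq ι] [Fintype ι'] [DecidableEq ι']
    (B : LinearMap.BilinForm F V) (b : Module.Basis ι F V) (b' : Module.Basis ι' F V) (s : F)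
    (h : IsSquare (s * (LinearMap.BilinForm.toMatrix b B).det)) :
    IsSquare (s * (LinearMap.BilinForm.toMatrix b' B).det) := by
  classical
  have hcard : Fintype.card ι = Fintype.card ι' := by
    rw [← Module.finrank_eq_card_basis b, ← Module.finrank_eq_card_basis b']
  obtain ⟨e⟩ : Nonempty (ι ≃ ι') := ⟨Fintype.equivOfCardEq hcard⟩
  have h1 := LinearMap.BilinForm.toMatrix_mul_basis_toMatrix (b := b.reindex e) b' B
  have h2 := congrArg Matrix.det h1
  rw [Matrix.det_mul, Matrix.det_mul, Matrix.det_transpose,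
    Cfsg.Agent.Helper15.det_toMatrix_reindex] at h2
  obtain ⟨r, hr⟩ := h
  refine ⟨r * ((b.reindex e).toMatrix b').det, ?_⟩
  rw [← h2]
  linear_combination ((b.reindex e).toMatrix b').det ^ 2 * hr

/-- A totally isotropic subspace of half the dimension forces `(-1)^n * disc` to be a square. -/
theorem disc_of_isotropic {F V : Type*} [Field F] [AddCommGroup V] [Module F V]
    [FiniteDimensional F V] (B : LinearMap.BilinForm F V) (hS : ∀ x y, B x y = B y x) (n : ℕ)
    (hV : Module.finrank F V = 2 * n) (X : Submodule F V) (hX : Module.finrank F X = n)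
    (hiso : ∀ x ∈ X, ∀ y ∈ X, B x y = 0) {ι : Type*} [Fintype ι] [DecidableEq ι]
    (b : Module.Basis ι F V) :
    IsSquare ((-1) ^ n * (LinearMap.BilinForm.toMatrix b B).det) := by
  classical
  obtain ⟨Y, hXY⟩ := Submodule.exists_isCompl X
  have hY : Module.finrank F Y = n := by
    have := Submodule.finrank_add_eq_of_isCompl hXY
    omega
  obtain ⟨bX⟩ : Nonempty (Module.Basis (Fin n) F X) := ⟨Module.finBasisOfFinrankEq F X hX⟩
  obtain ⟨bY⟩ : Nonempty (Module.Basis (Fin n) F Y) := ⟨Module.finBasisOfFinrankEq F Y hY⟩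
  obtain ⟨c, hcl, hcr⟩ : ∃ c : Module.Basis (Fin n ⊕ Fin n) F V,
      (∀ i, c (Sum.inl i) = (bX i : V)) ∧ (∀ i, c (Sum.inr i) = (bY i : V)) :=
    ⟨(bX.prod bY).map (Submodule.prodEquivOfIsCompl X Y hXY), fun i => by simp,
      fun i => by simp⟩
  obtain ⟨A, hA⟩ : ∃ A : Matrix (Fin n) (Fin n) F,
      A = Matrix.of fun i j => B (bX i : V) (bY j : V) := ⟨_, rfl⟩
  obtain ⟨D, hD⟩ : ∃ D : Matrix (Fin n) (Fin n) F,
      D = Matrix.of fun i j => B (bY i : V) (bY j : V) := ⟨_, rfl⟩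
  have hG : LinearMap.BilinForm.toMatrix c B = Matrix.fromBlocks 0 A A.transpose D := by
    ext (i | i) (j | j)
    · simp [LinearMap.BilinForm.toMatrix_apply, hcl, hiso _ (bX i).2 _ (bX j).2]
    · simp [LinearMap.BilinForm.toMatrix_apply, hcl, hcr, hA]
    · simp [LinearMap.BilinForm.toMatrix_apply, hcl, hcr, hA, hS (bY i : V)]
    · simp [LinearMap.BilinForm.toMatrix_apply, hcr, hD]
  have hmul : Matrix.fromBlocks 0 A A.transpose D * Matrix.fromBlocks 0 1 1 0
      = Matrix.fromBlocks A 0 D A.transpose := by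
    rw [Matrix.fromBlocks_multiply]
    simp
  have hdet := congrArg Matrix.det hmul
  rw [Matrix.det_mul, Cfsg.Agent.Helper15.det_swapBlocks, Matrix.det_fromBlocks_zero₁₂,
    Matrix.det_transpose] at hdet
  have hc : IsSquare ((-1) ^ n * (LinearMap.BilinForm.toMatrix c B).det) := by
    rw [hG]
    exact ⟨A.det, by rw [← hdet]; ring⟩
  exact disc_basis_change B c b _ hc

/-- Over a finite field of odd characteristic, a nondegenerate symmetric form on a space of
dimension `2n` with `(-1)^n * disc` a square has a totally isotropic subspace of dimension `n`. -/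
theorem isotropic_of_disc {F V : Type*} [Field F] [Fintype F] [AddCommGroup V] [Module F V]
    (h2 : (2 : F) ≠ 0) (B : LinearMap.BilinForm F V) (hS : B.IsSymm) (hB : B.Nondegenerate)
    (n : ℕ) {ι : Type*} [Fintype ι] [DecidableEq ι] (b : Module.Basis ι F V)
    (hcard : Fintype.card ι = 2 * n)
    (hsq : IsSquare ((-1) ^ n * (LinearMap.BilinForm.toMatrix b B).det)) :
    ∃ X : Submodule F V, Module.finrank F X = n ∧ ∀ x ∈ X, ∀ y ∈ X, B x y = 0 := by
  classical
  obtain ⟨B₂, hB₂⟩ : ∃ B₂ : LinearMap.BilinForm F (Fin n ⊕ Fin n → F),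
      B₂ = Matrix.toBilin' (Matrix.fromBlocks 0 1 1 0 :
        Matrix (Fin n ⊕ Fin n) (Fin n ⊕ Fin n) F) := ⟨_, rfl⟩
  have happly : ∀ u v, B₂ u v = QuadraticMap.polar (Cfsg.quadFormPlus n F) u v := by
    intro u v
    rw [Cfsg.Agent.Helper15.polar_quadFormPlus, hB₂, Matrix.toBilin'_apply']
  have hS₂ : B₂.IsSymm := ⟨fun u v => by rw [happly, happly, QuadraticMap.polar_comm]⟩
  have hdet : (LinearMap.BilinForm.toMatrix (Pi.basisFun F (Fin n ⊕ Fin n)) B₂).det
      = (-1) ^ n := by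
    rw [LinearMap.BilinForm.toMatrix_basisFun, hB₂, LinearMap.BilinForm.toMatrix'_toBilin',
      Cfsg.Agent.Helper15.det_swapBlocks]
  have hN₂ : B₂.Nondegenerate := by
    refine (LinearMap.BilinForm.nondegenerate_iff_det_ne_zero
      (Pi.basisFun F (Fin n ⊕ Fin n))).2 ?_
    rw [hdet]
    exact pow_ne_zero _ (neg_ne_zero.2 one_ne_zero)
  obtain ⟨g, hg⟩ := Cfsg.Agent.Helper15.bilin_isometric h2
    (by rw [hcard, Fintype.card_sum, Fintype.card_fin]; omega) b
    (Pi.basisFun F (Fin n ⊕ Fin n)) B B₂ hS hS₂ hB hN₂ (by rw [hdet, mul_comm]; exact hsq)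
  obtain ⟨X₂, hX₂, hdim⟩ := Cfsg.Agent.Helper15.plus_singular_exists (F := F) n
  refine ⟨X₂.map (g.symm : (Fin n ⊕ Fin n → F) →ₗ[F] V), ?_, ?_⟩
  · rw [LinearEquiv.finrank_map_eq, hdim]
  · rintro _ ⟨u, hu, rfl⟩ _ ⟨v, hv, rfl⟩
    have h1 := hg (g.symm u) (g.symm v)
    rw [LinearEquiv.apply_symm_apply, LinearEquiv.apply_symm_apply, happly] at h1
    have h3 : QuadraticMap.polar (Cfsg.quadFormPlus n F) u v = 0 := by
      unfold QuadraticMap.polar
      rw [hX₂ _ (X₂.add_mem hu hv), hX₂ _ hu, hX₂ _ hv]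
      simp
    rw [h3] at h1
    exact h1.symm

theorem tmul_symm {F U W : Type*} [Field F] [AddCommGroup U] [Module F U] [AddCommGroup W]
    [Module F W] (B₁ : LinearMap.BilinForm F U) (B₂ : LinearMap.BilinForm F W)
    (hS₁ : ∀ x y, B₁ x y = B₁ y x) (hS₂ : ∀ x y, B₂ x y = B₂ y x)
    (x y : TensorProduct F U W) : (B₁.tmul B₂) x y = (B₁.tmul B₂) y x := by
  induction x using TensorProduct.induction_on with
  | zero => simp
  | tmul x₁ x₂ =>
    induction y using TensorProduct.induction_on with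
    | zero => simp
    | tmul y₁ y₂ =>
      have e1 : (B₁.tmul B₂) (x₁ ⊗ₜ[F] x₂) (y₁ ⊗ₜ[F] y₂) = B₂ x₂ y₂ * B₁ x₁ y₁ := rfl
      have e2 : (B₁.tmul B₂) (y₁ ⊗ₜ[F] y₂) (x₁ ⊗ₜ[F] x₂) = B₂ y₂ x₂ * B₁ y₁ x₁ := rfl
      rw [e1, e2, hS₁ x₁ y₁, hS₂ x₂ y₂]
    | add y y' hy hy' => rw [map_add, hy, hy', map_add, LinearMap.add_apply]
  | add x x' hx hx' => rw [map_add, LinearMap.add_apply, hx, hx', map_add]

theorem tmul_gram_det {F U W : Type*} [Field F] [AddCommGroup U] [Module F U] [AddCommGroup W]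
    [Module F W] (B₁ : LinearMap.BilinForm F U) (B₂ : LinearMap.BilinForm F W)
    {ι₁ ι₂ : Type*} [Fintype ι₁] [DecidableEq ι₁] [Fintype ι₂] [DecidableEq ι₂]
    (b₁ : Module.Basis ι₁ F U) (b₂ : Module.Basis ι₂ F W) :
    (LinearMap.BilinForm.toMatrix (b₁.tensorProduct b₂) (B₁.tmul B₂)).det
      = (LinearMap.BilinForm.toMatrix b₁ B₁).det ^ Fintype.card ι₂
        * (LinearMap.BilinForm.toMatrix b₂ B₂).det ^ Fintype.card ι₁ := by
  have hM : LinearMap.BilinForm.toMatrix (b₁.tensorProduct b₂) (B₁.tmul B₂)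
      = Matrix.kroneckerMap (fun x1 x2 => x1 * x2) (LinearMap.BilinForm.toMatrix b₁ B₁)
        (LinearMap.BilinForm.toMatrix b₂ B₂) := by
    ext ⟨i, j⟩ ⟨i', j'⟩
    have e1 : (B₁.tmul B₂) (b₁ i ⊗ₜ[F] b₂ j) (b₁ i' ⊗ₜ[F] b₂ j')
        = B₂ (b₂ j) (b₂ j') * B₁ (b₁ i) (b₁ i') := rfl
    rw [LinearMap.BilinForm.toMatrix_apply, Module.Basis.tensorProduct_apply,
      Module.Basis.tensorProduct_apply, e1, Matrix.kroneckerMap_apply,
      LinearMap.BilinForm.toMatrix_apply, LinearMap.BilinForm.toMatrix_apply, mul_comm]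
  rw [hM, Matrix.det_kronecker]

end Cfsg.Agent.Helper5
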