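import Mathlib
import Cfsg.Prelude.Def_Classical

set_option autoImplicit false

namespace Cfsg.Agent.Helper5

open scoped Matrix

/-- Transfer of isometries along a ring isomorphism of the coefficient fields. -/
theorem iso_transfer {ι : Type} [Fintype ι] [DecidableEq ι] {K : Type*} {F : Type*} [Field K]
    [Field F] (φ : K ≃+* F) (Q : (ι → K) → K) (Q' : (ι → F) → F)
    (hQ : ∀ v : ι → K, Q' (fun i => φ (v i)) = φ (Q v)) :
    ∃ Φ : ↥(Cfsg.isometryGroup K Q) →* ↥(Cfsg.isometryGroup F Q'), Function.Injective Φ := by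
  have hmem : ∀ g : ↥(Cfsg.isometryGroup K Q),
      Matrix.GeneralLinearGroup.map (φ : K →+* F) (g : Matrix.GeneralLinearGroup ι K)
        ∈ Cfsg.isometryGroup F Q' := by
    intro g u v
    show Q' ((((g : Matrix.GeneralLinearGroup ι K) : Matrix ι ι K).map (φ : K →+* F)) *ᵥ u)
      = Q' u
    obtain ⟨u₀, rfl⟩ : ∃ u₀ : ι → K, u = fun i => φ (u₀ i) :=
      ⟨fun i => φ.symm (u i), by
        funext i
        simp⟩
    have h1 : ((((g : Matrix.GeneralLinearGroup ι K) : Matrix ι ι K).map (φ : K →+* F))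
        *ᵥ fun i => φ (u₀ i))
        = fun i => φ ((((g : Matrix.GeneralLinearGroup ι K) : Matrix ι ι K) *ᵥ u₀) i) := by
      funext i
      exact (RingHom.map_mulVec (φ : K →+* F) _ u₀ i).symm
    rw [h1, hQ, hQ]
    congr 1
    exact g.2 u₀ (0 : ι → K)
  refine ⟨((Matrix.GeneralLinearGroup.map (φ : K →+* F)).comp
    (Subgroup.subtype _)).codRestrict _ hmem, ?_⟩
  intro g g' h
  have h1 : Matrix.GeneralLinearGroup.map (φ : K →+* F) (g : Matrix.GeneralLinearGroup ι K)
      = Matrix.GeneralLinearGroup.map (φ : K →+* F) (g' : Matrix.GeneralLinearGroup ι K) :=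
    congrArg Subtype.val h
  apply Subtype.ext
  apply Units.ext
  ext i j
  have h2 : (φ : K →+* F) ((g : Matrix.GeneralLinearGroup ι K) i j)
      = (φ : K →+* F) ((g' : Matrix.GeneralLinearGroup ι K) i j) :=
    congrArg (fun x : Matrix.GeneralLinearGroup ι F => (x : Matrix ι ι F) i j) h1
  exact φ.injective h2

/-- An injective homomorphism between finite groups of the same order gives an isomorphism. -/
theorem mulEquiv_of_injective_of_card {G H : Type*} [Group G] [Group H] [Finite H]
    (f : G →* H) (hf : Function.Injective f) (hc : Nat.card H ≤ Nat.card G) :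
    Nonempty (H ≃* G) :=
  ⟨(MulEquiv.ofBijective f (hf.bijective_of_nat_card_le hc)).symm⟩

end Cfsg.Agent.Helper5
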