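import Mathlib
import Cfsg.Agent.Helper5.Frame2c

/-!
# Decompositions into four-dimensional spaces of plus type over the field with two elements

Each member contains exactly six vectors of norm one, forming two anisotropic planes.  The
stabiliser of the decomposition in the commutator subgroup preserves the set of all vectors of
norm one of the members, and so does a Siegel element exchanging an anisotropic plane of one
member with one of another member; hence the stabiliser is not maximal.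
-/

set_option autoImplicit false

namespace Cfsg.Agent.Helper5

open scoped Matrix

section Frame4

variable {F : Type*} [Field F] {κ : Type} [Fintype κ] [DecidableEq κ]

theorem fc_add_cancel (h2 : (2 : F) = 0) (p q : κ → F) : p + (p + q) = q := by
  rw [← add_assoc, fc_dbl h2, zero_add]

theorem fc_add_cancel' (h2 : (2 : F) = 0) (p q : κ → F) : p + (q + p) = q := by
  rw [add_comm q p, ← add_assoc, fc_dbl h2, zero_add]

/-- A hyperbolic basis of a non-degenerate four-dimensional space of plus type, given through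
the coordinate formulas for the form and its polar form. -/
theorem fc_plus4_basis (Q : QuadraticForm F (κ → F)) (W : Submodule F (κ → F))
    (hdim : Module.finrank F W = 4)
    (hW : Cfsg.Geo.IsNondegenerateOn (QuadraticMap.polar ⇑Q) W)
    (hplus : Cfsg.Geo.IsPlusTypeOn ⇑Q W) :
    ∃ e₁ f₁ e₂ f₂ : κ → F, e₁ ∈ W ∧ f₁ ∈ W ∧ e₂ ∈ W ∧ f₂ ∈ W ∧
      (∀ x₁ y₁ x₂ y₂ : F, Q (x₁ • e₁ + y₁ • f₁ + x₂ • e₂ + y₂ • f₂) = x₁ * y₁ + x₂ * y₂) ∧
      (∀ c₁ d₁ c₂ d₂ x₁ y₁ x₂ y₂ : F,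
        QuadraticMap.polar (⇑Q) (c₁ • e₁ + d₁ • f₁ + c₂ • e₂ + d₂ • f₂)
          (x₁ • e₁ + y₁ • f₁ + x₂ • e₂ + y₂ • f₂) = c₁ * y₁ + d₁ * x₁ + c₂ * y₂ + d₂ * x₂) ∧
      ∀ v ∈ W, ∃ x₁ y₁ x₂ y₂ : F, v = x₁ • e₁ + y₁ • f₁ + x₂ • e₂ + y₂ • f₂ := by
  obtain ⟨U, hUW, hUts, hUdim⟩ := hplus
  have hU2 : Module.finrank F U = 2 := by omega
  have hUbot : U ≠ ⊥ := by
    intro h0
    rw [h0, finrank_bot] at hU2
    exact absurd hU2 (by omega)
  obtain ⟨u₁, hu₁U, hu₁0⟩ := Submodule.exists_mem_ne_zero_of_ne_bot hUbot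
  obtain ⟨u₂, hu₂U, hu₂⟩ : ∃ u₂ ∈ U, u₂ ∉ Submodule.span F {u₁} := by
    by_contra hcon
    have hle : U ≤ Submodule.span F {u₁} := by
      intro x hx
      by_contra hx'
      exact hcon ⟨x, hx, hx'⟩
    have h1 := Submodule.finrank_mono hle
    rw [hU2, finrank_span_singleton hu₁0] at h1
    omega
  have hUp : ∀ u ∈ U, ∀ u' ∈ U, QuadraticMap.polar (⇑Q) u u' = 0 := by
    intro u hu u' hu'
    have h1 : Q u = 0 := hUts u hu
    have h2 : Q u' = 0 := hUts u' hu'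
    have h3 : Q (u + u') = 0 := hUts _ (U.add_mem hu hu')
    rw [kit_polar_def, h1, h2, h3, sub_zero, sub_zero]
  have hu₁W : u₁ ∈ W := hUW hu₁U
  have q1 : Q u₁ = 0 := hUts u₁ hu₁U
  have t11 : QuadraticMap.polar (⇑Q) u₁ u₁ = 0 := hUp u₁ hu₁U u₁ hu₁U
  obtain ⟨g₁, hg₁W, hug₁⟩ : ∃ g₁ ∈ W, QuadraticMap.polar (⇑Q) u₁ g₁ = 1 := by
    obtain ⟨-, y₁, hy₁W, hp⟩ := hW u₁ hu₁W hu₁0
    refine ⟨(QuadraticMap.polar (⇑Q) u₁ y₁)⁻¹ • y₁, W.smul_mem _ hy₁W, ?_⟩
    rw [QuadraticMap.polar_smul_right, smul_eq_mul, inv_mul_cancel₀ hp]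
  obtain ⟨e₂, he₂U, he₂0, he₂g⟩ : ∃ e₂ ∈ U, e₂ ≠ 0 ∧ QuadraticMap.polar (⇑Q) e₂ g₁ = 0 := by
    refine ⟨u₂ + (-QuadraticMap.polar (⇑Q) u₂ g₁) • u₁, U.add_mem hu₂U (U.smul_mem _ hu₁U),
      ?_, ?_⟩
    · intro h0
      rw [neg_smul, ← sub_eq_add_neg, sub_eq_zero] at h0
      exact hu₂ (Submodule.mem_span_singleton.2 ⟨_, h0.symm⟩)
    · rw [QuadraticMap.polar_add_left, QuadraticMap.polar_smul_left, hug₁, smul_eq_mul, mul_one,
        add_neg_cancel]
  have he₂W : e₂ ∈ W := hUW he₂U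
  have q3 : Q e₂ = 0 := hUts e₂ he₂U
  have t13 : QuadraticMap.polar (⇑Q) u₁ e₂ = 0 := hUp u₁ hu₁U e₂ he₂U
  have t31 : QuadraticMap.polar (⇑Q) e₂ u₁ = 0 := hUp e₂ he₂U u₁ hu₁U
  have t33 : QuadraticMap.polar (⇑Q) e₂ e₂ = 0 := hUp e₂ he₂U e₂ he₂U
  obtain ⟨g₂', hg₂'W, heg₂'⟩ : ∃ g ∈ W, QuadraticMap.polar (⇑Q) e₂ g = 1 := by
    obtain ⟨-, y₂, hy₂W, hp₂⟩ := hW e₂ he₂W he₂0
    refine ⟨(QuadraticMap.polar (⇑Q) e₂ y₂)⁻¹ • y₂, W.smul_mem _ hy₂W, ?_⟩
    rw [QuadraticMap.polar_smul_right, smul_eq_mul, inv_mul_cancel₀ hp₂]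
  obtain ⟨g₂, hg₂W, hug₂, heg₂⟩ : ∃ g₂ ∈ W, QuadraticMap.polar (⇑Q) u₁ g₂ = 0 ∧
      QuadraticMap.polar (⇑Q) e₂ g₂ = 1 := by
    refine ⟨g₂' + (-QuadraticMap.polar (⇑Q) u₁ g₂') • g₁,
      W.add_mem hg₂'W (W.smul_mem _ hg₁W), ?_, ?_⟩
    · rw [QuadraticMap.polar_add_right, QuadraticMap.polar_smul_right, hug₁, smul_eq_mul,
        mul_one, add_neg_cancel]
    · rw [QuadraticMap.polar_add_right, QuadraticMap.polar_smul_right, he₂g, smul_zero,
        add_zero, heg₂']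
  obtain ⟨f₁, hf₁W, qf₁, huf₁, he₂f₁⟩ : ∃ f₁ ∈ W, Q f₁ = 0 ∧
      QuadraticMap.polar (⇑Q) u₁ f₁ = 1 ∧ QuadraticMap.polar (⇑Q) e₂ f₁ = 0 := by
    refine ⟨g₁ + (-Q g₁) • u₁, W.add_mem hg₁W (W.smul_mem _ hu₁W), ?_, ?_, ?_⟩
    · rw [kit_add, QuadraticMap.map_smul, QuadraticMap.polar_smul_right,
        QuadraticMap.polar_comm (⇑Q) g₁ u₁, hug₁, q1]
      simp only [smul_eq_mul]
      ring
    · rw [QuadraticMap.polar_add_right, QuadraticMap.polar_smul_right, t11, hug₁, smul_zero,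
        add_zero]
    · rw [QuadraticMap.polar_add_right, QuadraticMap.polar_smul_right, t31, he₂g, smul_zero,
        add_zero]
  have t21 : QuadraticMap.polar (⇑Q) f₁ u₁ = 1 := by
    rw [QuadraticMap.polar_comm]; exact huf₁
  have t22 : QuadraticMap.polar (⇑Q) f₁ f₁ = 0 := by rw [kit_polar_self, qf₁, mul_zero]
  have t23 : QuadraticMap.polar (⇑Q) f₁ e₂ = 0 := by
    rw [QuadraticMap.polar_comm]; exact he₂f₁
  obtain ⟨h₂, hh₂W, hfh₂, huh₂, heh₂⟩ : ∃ h₂ ∈ W, QuadraticMap.polar (⇑Q) f₁ h₂ = 0 ∧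
      QuadraticMap.polar (⇑Q) u₁ h₂ = 0 ∧ QuadraticMap.polar (⇑Q) e₂ h₂ = 1 := by
    refine ⟨g₂ + (-QuadraticMap.polar (⇑Q) f₁ g₂) • u₁,
      W.add_mem hg₂W (W.smul_mem _ hu₁W), ?_, ?_, ?_⟩
    · rw [QuadraticMap.polar_add_right, QuadraticMap.polar_smul_right, t21, smul_eq_mul,
        mul_one, add_neg_cancel]
    · rw [QuadraticMap.polar_add_right, QuadraticMap.polar_smul_right, t11, hug₂, smul_zero,
        add_zero]
    · rw [QuadraticMap.polar_add_right, QuadraticMap.polar_smul_right, t31, heg₂, smul_zero,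
        add_zero]
  obtain ⟨f₂, hf₂W, qf₂, hef₂, huf₂, hff₂⟩ : ∃ f₂ ∈ W, Q f₂ = 0 ∧
      QuadraticMap.polar (⇑Q) e₂ f₂ = 1 ∧ QuadraticMap.polar (⇑Q) u₁ f₂ = 0 ∧
      QuadraticMap.polar (⇑Q) f₁ f₂ = 0 := by
    refine ⟨h₂ + (-Q h₂) • e₂, W.add_mem hh₂W (W.smul_mem _ he₂W), ?_, ?_, ?_, ?_⟩
    · rw [kit_add, QuadraticMap.map_smul, QuadraticMap.polar_smul_right,
        QuadraticMap.polar_comm (⇑Q) h₂ e₂, heh₂, q3]
      simp only [smul_eq_mul]
      ring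
    · rw [QuadraticMap.polar_add_right, QuadraticMap.polar_smul_right, t33, heh₂, smul_zero,
        add_zero]
    · rw [QuadraticMap.polar_add_right, QuadraticMap.polar_smul_right, t13, huh₂, smul_zero,
        add_zero]
    · rw [QuadraticMap.polar_add_right, QuadraticMap.polar_smul_right, t23, hfh₂, smul_zero,
        add_zero]
  have t41 : QuadraticMap.polar (⇑Q) f₂ u₁ = 0 := by
    rw [QuadraticMap.polar_comm]; exact huf₂
  have t42 : QuadraticMap.polar (⇑Q) f₂ f₁ = 0 := by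
    rw [QuadraticMap.polar_comm]; exact hff₂
  have t43 : QuadraticMap.polar (⇑Q) f₂ e₂ = 1 := by
    rw [QuadraticMap.polar_comm]; exact hef₂
  have t44 : QuadraticMap.polar (⇑Q) f₂ f₂ = 0 := by rw [kit_polar_self, qf₂, mul_zero]
  have hform : ∀ x₁ y₁ x₂ y₂ : F,
      Q (x₁ • u₁ + y₁ • f₁ + x₂ • e₂ + y₂ • f₂) = x₁ * y₁ + x₂ * y₂ := by
    intro x₁ y₁ x₂ y₂
    rw [kit_add, kit_add, kit_add]
    simp only [QuadraticMap.map_smul, QuadraticMap.polar_add_left, QuadraticMap.polar_smul_left,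
      QuadraticMap.polar_smul_right, smul_eq_mul, q1, qf₁, q3, qf₂, huf₁, t13, huf₂, t23, hff₂,
      hef₂]
    ring
  have hpol : ∀ c₁ d₁ c₂ d₂ x₁ y₁ x₂ y₂ : F,
      QuadraticMap.polar (⇑Q) (c₁ • u₁ + d₁ • f₁ + c₂ • e₂ + d₂ • f₂)
        (x₁ • u₁ + y₁ • f₁ + x₂ • e₂ + y₂ • f₂) = c₁ * y₁ + d₁ * x₁ + c₂ * y₂ + d₂ * x₂ := by
    intro c₁ d₁ c₂ d₂ x₁ y₁ x₂ y₂
    simp only [QuadraticMap.polar_add_left, QuadraticMap.polar_add_right,
      QuadraticMap.polar_smul_left, QuadraticMap.polar_smul_right, smul_eq_mul, t11, huf₁, t13,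
      huf₂, t21, t22, t23, hff₂, t31, he₂f₁, t33, hef₂, t41, t42, t43, t44]
    ring
  have hind : LinearIndependent F ![u₁, f₁, e₂, f₂] := by
    rw [Fintype.linearIndependent_iff]
    intro c hc
    rw [Fin.sum_univ_four] at hc
    have hc' : c 0 • u₁ + c 1 • f₁ + c 2 • e₂ + c 3 • f₂ = 0 := hc
    have k1 : c 0 = 0 := by
      have e := congrArg (fun x => QuadraticMap.polar (⇑Q) x f₁) hc'
      simp only [QuadraticMap.polar_add_left, QuadraticMap.polar_smul_left, smul_eq_mul,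
        QuadraticMap.polar_zero_left, huf₁, t22, he₂f₁, t42, mul_one, mul_zero, add_zero,
        zero_add] at e
      exact e
    have k2 : c 1 = 0 := by
      have e := congrArg (fun x => QuadraticMap.polar (⇑Q) x u₁) hc'
      simp only [QuadraticMap.polar_add_left, QuadraticMap.polar_smul_left, smul_eq_mul,
        QuadraticMap.polar_zero_left, t11, t21, t31, t41, mul_one, mul_zero, add_zero,
        zero_add] at e
      exact e
    have k3 : c 2 = 0 := by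
      have e := congrArg (fun x => QuadraticMap.polar (⇑Q) x f₂) hc'
      simp only [QuadraticMap.polar_add_left, QuadraticMap.polar_smul_left, smul_eq_mul,
        QuadraticMap.polar_zero_left, huf₂, hff₂, hef₂, t44, mul_one, mul_zero, add_zero,
        zero_add] at e
      exact e
    have k4 : c 3 = 0 := by
      have e := congrArg (fun x => QuadraticMap.polar (⇑Q) x e₂) hc'
      simp only [QuadraticMap.polar_add_left, QuadraticMap.polar_smul_left, smul_eq_mul,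
        QuadraticMap.polar_zero_left, t13, t23, t33, t43, mul_one, mul_zero, add_zero,
        zero_add] at e
      exact e
    intro i
    fin_cases i
    · exact k1
    · exact k2
    · exact k3
    · exact k4
  have hspan : Submodule.span F (Set.range ![u₁, f₁, e₂, f₂]) = W := by
    apply Submodule.eq_of_le_of_finrank_eq
    · rw [Submodule.span_le]
      rintro _ ⟨i, rfl⟩
      fin_cases i
      · exact hu₁W
      · exact hf₁W
      · exact he₂W
      · exact hf₂W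
    · rw [finrank_span_eq_card hind, hdim, Fintype.card_fin]
  have hWspan : ∀ v ∈ W, ∃ x₁ y₁ x₂ y₂ : F, v = x₁ • u₁ + y₁ • f₁ + x₂ • e₂ + y₂ • f₂ := by
    intro v hv
    rw [← hspan, Submodule.mem_span_range_iff_exists_fun] at hv
    obtain ⟨c, hc⟩ := hv
    rw [Fin.sum_univ_four] at hc
    exact ⟨c 0, c 1, c 2, c 3, hc.symm⟩
  exact ⟨u₁, f₁, e₂, f₂, hu₁W, hf₁W, he₂W, hf₂W, hform, hpol, hWspan⟩

/-- The six vectors of norm one of a four-dimensional space of plus type over the field with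
two elements: `a`, `b`, `a + b` and three vectors orthogonal to `a` and `b`. -/
theorem fc_42_block [Fintype F] (hq : Fintype.card F = 2) (Q : QuadraticForm F (κ → F))
    (W : Submodule F (κ → F)) (hdim : Module.finrank F W = 4)
    (hW : Cfsg.Geo.IsNondegenerateOn (QuadraticMap.polar ⇑Q) W)
    (hplus : Cfsg.Geo.IsPlusTypeOn ⇑Q W) :
    ∃ a b y : κ → F, a ∈ W ∧ b ∈ W ∧ Q a = 1 ∧ Q b = 1 ∧
      QuadraticMap.polar (⇑Q) a b = 1 ∧
      (∀ v ∈ W, Q v = 1 → v = a ∨ v = b ∨ v = a + b ∨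
        (QuadraticMap.polar (⇑Q) a v = 0 ∧ QuadraticMap.polar (⇑Q) b v = 0)) ∧
      y ∈ W ∧ y ≠ 0 ∧ QuadraticMap.polar (⇑Q) a y = 0 ∧ QuadraticMap.polar (⇑Q) b y = 0 := by
  have h2 := fc_two_of_card2 hq
  obtain ⟨e₁, f₁, e₂, f₂, he₁W, hf₁W, he₂W, hf₂W, hform, hpol, hspan⟩ :=
    fc_plus4_basis Q W hdim hW hplus
  have hmem : ∀ x₁ y₁ x₂ y₂ : F, x₁ • e₁ + y₁ • f₁ + x₂ • e₂ + y₂ • f₂ ∈ W :=
    fun x₁ y₁ x₂ y₂ =>
      W.add_mem (W.add_mem (W.add_mem (W.smul_mem _ he₁W) (W.smul_mem _ hf₁W))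
        (W.smul_mem _ he₂W)) (W.smul_mem _ hf₂W)
  have hab' : (1 : F) • e₁ + (1 : F) • f₁ + (0 : F) • e₂ + (0 : F) • f₂
      + ((1 : F) • e₁ + (0 : F) • f₁ + (1 : F) • e₂ + (1 : F) • f₂)
      = (0 : F) • e₁ + (1 : F) • f₁ + (1 : F) • e₂ + (1 : F) • f₂ := by
    have h : (1 : F) • e₁ + (1 : F) • f₁ + (0 : F) • e₂ + (0 : F) • f₂
        + ((1 : F) • e₁ + (0 : F) • f₁ + (1 : F) • e₂ + (1 : F) • f₂)
        = (2 : F) • e₁ + (1 : F) • f₁ + (1 : F) • e₂ + (1 : F) • f₂ := by module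
    rw [h, h2]
  refine ⟨(1 : F) • e₁ + (1 : F) • f₁ + (0 : F) • e₂ + (0 : F) • f₂,
    (1 : F) • e₁ + (0 : F) • f₁ + (1 : F) • e₂ + (1 : F) • f₂,
    (0 : F) • e₁ + (0 : F) • f₁ + (1 : F) • e₂ + (1 : F) • f₂,
    hmem _ _ _ _, hmem _ _ _ _, ?_, ?_, ?_, ?_, hmem _ _ _ _, ?_, ?_, ?_⟩
  · rw [hform]; ring
  · rw [hform]; ring
  · rw [hpol]; ring
  · intro v hv hqv
    obtain ⟨x₁, y₁, x₂, y₂, rfl⟩ := hspan v hv
    rw [hform] at hqv
    rcases fc_2_cases hq x₁ with rfl | rfl <;> rcases fc_2_cases hq y₁ with rfl | rfl <;>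
      rcases fc_2_cases hq x₂ with rfl | rfl <;> rcases fc_2_cases hq y₂ with rfl | rfl <;>
      first
        | exact absurd (show (1 : F) = 0 by linear_combination -hqv) one_ne_zero
        | exact absurd (show (1 : F) = 0 by linear_combination h2 - hqv) one_ne_zero
        | exact Or.inl rfl
        | exact Or.inr (Or.inl rfl)
        | exact Or.inr (Or.inr (Or.inl hab'.symm))
        | exact Or.inr (Or.inr (Or.inr
            ⟨(by rw [hpol]; first | ring1 | linear_combination h2),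
              (by rw [hpol]; first | ring1 | linear_combination h2)⟩))
  · intro hy0
    have h := hpol 0 0 1 0 0 0 1 1
    rw [hy0, QuadraticMap.polar_zero_right] at h
    exact (zero_ne_one : (0 : F) ≠ 1) (by linear_combination h)
  · rw [hpol]; ring
  · rw [hpol]; linear_combination h2

/-- The product of the reflections in `z` and `z + u` (`z` of norm one, `u` singular and
orthogonal to `z`), in characteristic two. -/
theorem fc_siegel (h2 : (2 : F) = 0) (Q : QuadraticForm F (κ → F)) (z u : κ → F)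
    (hz : Q z = 1) (hu : Q u = 0) (hzu : QuadraticMap.polar (⇑Q) z u = 0)
    (hz0 : Q z ≠ 0) (hzu0 : Q (z + u) ≠ 0) (x : κ → F) :
    isoActF ⇑Q (reflEl Q z hz0 * reflEl Q (z + u) hzu0) x
      = x + QuadraticMap.polar (⇑Q) u x • z
        + (QuadraticMap.polar (⇑Q) z x + QuadraticMap.polar (⇑Q) u x) • u := by
  have hq : Q (z + u) = 1 := by
    rw [kit_add, hz, hu, hzu, add_zero, add_zero]
  have hzz : QuadraticMap.polar (⇑Q) z z = 0 := by
    rw [kit_polar_self, hz, mul_one]; exact h2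
  rw [fq_mul_act, fc_refl h2 Q (z + u) hzu0 x, hq, inv_one, one_mul, fc_refl h2 Q z hz0, hz,
    inv_one, one_mul]
  have hp : QuadraticMap.polar (⇑Q) z (x + QuadraticMap.polar (⇑Q) (z + u) x • (z + u))
      = QuadraticMap.polar (⇑Q) z x := by
    simp only [QuadraticMap.polar_add_right, QuadraticMap.polar_smul_right, hzz, hzu, add_zero,
      smul_zero]
  have key : ∀ α β : F, x + (α + β) • (z + u) + α • z
      = x + β • z + (α + β) • u + (2 * α) • z := by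
    intro α β
    module
  rw [hp, QuadraticMap.polar_add_left, key, h2, zero_mul, zero_smul, add_zero]

/-- A Siegel element in the commutator subgroup, characteristic two. -/
theorem fc_tau [Fintype F] (h2 : (2 : F) = 0) (Q : QuadraticForm F (κ → F))
    (hQ : (QuadraticMap.polarBilin Q).Nondegenerate)
    (hc : Fintype.card F ≠ 2 ∨ Fintype.card κ ≠ 4) (z u w : κ → F)
    (hz : Q z = 1) (hu : Q u = 0) (hw : Q w = 0)
    (hzu : QuadraticMap.polar (⇑Q) z u = 0) (hzw : QuadraticMap.polar (⇑Q) z w = 0)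
    (huw : QuadraticMap.polar (⇑Q) u w = 0) :
    ∃ τ : ↥(Cfsg.isometryGroup F ⇑Q), τ ∈ commutator ↥(Cfsg.isometryGroup F ⇑Q) ∧
      ∀ x, isoActF ⇑Q τ x
        = x + QuadraticMap.polar (⇑Q) u x • w + QuadraticMap.polar (⇑Q) w x • u := by
  have hz0 : Q z ≠ 0 := by rw [hz]; exact one_ne_zero
  have hq1 : Q (z + u) = 1 := by rw [kit_add, hz, hu, hzu, add_zero, add_zero]
  have hzu0 : Q (z + u) ≠ 0 := by rw [hq1]; exact one_ne_zero
  have hq2 : Q (z + w) = 1 := by rw [kit_add, hz, hw, hzw, add_zero, add_zero]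
  have hzw0 : Q (z + w) ≠ 0 := by rw [hq2]; exact one_ne_zero
  have hwu : QuadraticMap.polar (⇑Q) w u = 0 := by
    rw [QuadraticMap.polar_comm]; exact huw
  have hp3 : QuadraticMap.polar (⇑Q) (z + w) u = 0 := by
    rw [QuadraticMap.polar_add_left, hzu, hwu, add_zero]
  have hq3 : Q (z + w + u) = 1 := by rw [kit_add, hq2, hu, hp3, add_zero, add_zero]
  have hzwu0 : Q (z + w + u) ≠ 0 := by rw [hq3]; exact one_ne_zero
  have huu : QuadraticMap.polar (⇑Q) u u = 0 := by rw [kit_polar_self, hu, mul_zero]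
  have hzz : QuadraticMap.polar (⇑Q) z z = 0 := by
    rw [kit_polar_self, hz, mul_one]; exact h2
  have huz : QuadraticMap.polar (⇑Q) u z = 0 := by
    rw [QuadraticMap.polar_comm]; exact hzu
  refine ⟨(reflEl Q z hz0 * reflEl Q (z + u) hzu0)
      * (reflEl Q (z + w) hzw0 * reflEl Q (z + w + u) hzwu0), ?_, ?_⟩
  · exact Subgroup.mul_mem _
      (refl_pair_comm2 h2 Q hQ hc _ _ hz0 hzu0 _ _ (actsRefl_reflEl Q _ hz0)
        (actsRefl_reflEl Q _ hzu0))
      (refl_pair_comm2 h2 Q hQ hc _ _ hzw0 hzwu0 _ _ (actsRefl_reflEl Q _ hzw0)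
        (actsRefl_reflEl Q _ hzwu0))
  · intro x
    have e1 : ∀ c d : F, QuadraticMap.polar (⇑Q) u (x + c • (z + w) + d • u)
        = QuadraticMap.polar (⇑Q) u x := by
      intro c d
      simp only [QuadraticMap.polar_add_right, QuadraticMap.polar_smul_right, huz, huw, huu,
        add_zero, smul_zero]
    have e2 : ∀ c d : F, QuadraticMap.polar (⇑Q) z (x + c • (z + w) + d • u)
        = QuadraticMap.polar (⇑Q) z x := by
      intro c d
      simp only [QuadraticMap.polar_add_right, QuadraticMap.polar_smul_right, hzz, hzw, hzu,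
        add_zero, smul_zero]
    have key : ∀ α β γ : F, x + β • (z + w) + (α + γ + β) • u + β • z + (α + β) • u
        = x + β • w + γ • u + (2 * β) • z + (2 * (α + β)) • u := by
      intro α β γ
      module
    rw [fq_mul_act, fc_siegel h2 Q (z + w) u hq2 hu hp3 hzw0 hzwu0 x,
      fc_siegel h2 Q z u hz hu hzu hz0 hzu0, e1, e2, QuadraticMap.polar_add_left, key, h2,
      zero_mul, zero_mul, zero_smul, zero_smul, add_zero, add_zero]

set_option maxHeartbeats 4000000 in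
theorem fc_four_not_max [Fintype F] (hq : Fintype.card F = 2)
    (Q : QuadraticForm F (κ → F)) (hQ : (QuadraticMap.polarBilin Q).Nondegenerate)
    (hκ : Fintype.card κ ≠ 4) {t : ℕ} (ht : 3 ≤ t) (D : Fin t → Submodule F (κ → F))
    (hD : Cfsg.Geo.IsOrthogonalMDecomposition (⇑Q) 4 D)
    (hpl : ∀ i, Cfsg.Geo.IsPlusTypeOn (⇑Q) (D i)) :
    ∃ K : Subgroup (Matrix.GeneralLinearGroup κ F),
      Cfsg.Geo.decompositionStabilizer D ⊓ Cfsg.Geo.omegaGL (⇑Q) < K ∧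
        K < Cfsg.Geo.omegaGL (⇑Q) := by
  have h2 : (2 : F) = 0 := fc_two_of_card2 hq
  have hc : Fintype.card F ≠ 2 ∨ Fintype.card κ ≠ 4 := Or.inr hκ
  have horth : ∀ i j, i ≠ j → ∀ u ∈ D i, ∀ v ∈ D j, QuadraticMap.polar (⇑Q) u v = 0 :=
    fun i j hij => hD.decomp.orthogonal i j hij
  have hdim : ∀ i, Module.finrank F (D i) = 4 := hD.decomp.decomp.finrank_eq
  have hblk : ∀ i, ∃ a b y : κ → F, a ∈ D i ∧ b ∈ D i ∧ Q a = 1 ∧ Q b = 1 ∧
      QuadraticMap.polar (⇑Q) a b = 1 ∧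
      (∀ v ∈ D i, Q v = 1 → v = a ∨ v = b ∨ v = a + b ∨
        (QuadraticMap.polar (⇑Q) a v = 0 ∧ QuadraticMap.polar (⇑Q) b v = 0)) ∧
      y ∈ D i ∧ y ≠ 0 ∧ QuadraticMap.polar (⇑Q) a y = 0 ∧ QuadraticMap.polar (⇑Q) b y = 0 :=
    fun i => fc_42_block hq Q (D i) (hdim i) (hD.decomp.nondegenerate i) (hpl i)
  choose a b y haD hbD hqa hqb hab htri hyD hy0 hay hby using hblk
  obtain ⟨j₁, hj₁⟩ : ∃ j : Fin t, j.1 = 0 := ⟨⟨0, by omega⟩, rfl⟩
  obtain ⟨j₂, hj₂⟩ : ∃ j : Fin t, j.1 = 1 := ⟨⟨1, by omega⟩, rfl⟩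
  obtain ⟨j₃, hj₃⟩ : ∃ j : Fin t, j.1 = 2 := ⟨⟨2, by omega⟩, rfl⟩
  have hne : ∀ p q : Fin t, (p : ℕ) ≠ q → p ≠ q := fun p q h h' => h (by rw [h'])
  have n12 : j₁ ≠ j₂ := hne _ _ (by omega)
  have n13 : j₁ ≠ j₃ := hne _ _ (by omega)
  have n23 : j₂ ≠ j₃ := hne _ _ (by omega)
  have haa : ∀ i, QuadraticMap.polar (⇑Q) (a i) (a i) = 0 := fun i => by
    rw [kit_polar_self, hqa, mul_one]; exact h2
  have hbb : ∀ i, QuadraticMap.polar (⇑Q) (b i) (b i) = 0 := fun i => by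
    rw [kit_polar_self, hqb, mul_one]; exact h2
  have hba : ∀ i, QuadraticMap.polar (⇑Q) (b i) (a i) = 1 := fun i => by
    rw [QuadraticMap.polar_comm]; exact hab i
  have xaa : ∀ i j, i ≠ j → QuadraticMap.polar (⇑Q) (a i) (a j) = 0 :=
    fun i j h => horth i j h _ (haD i) _ (haD j)
  have xab : ∀ i j, i ≠ j → QuadraticMap.polar (⇑Q) (a i) (b j) = 0 :=
    fun i j h => horth i j h _ (haD i) _ (hbD j)
  have xba : ∀ i j, i ≠ j → QuadraticMap.polar (⇑Q) (b i) (a j) = 0 :=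
    fun i j h => horth i j h _ (hbD i) _ (haD j)
  have xbb : ∀ i j, i ≠ j → QuadraticMap.polar (⇑Q) (b i) (b j) = 0 :=
    fun i j h => horth i j h _ (hbD i) _ (hbD j)
  have hN : ∀ i v, v ∈ D i → Q v = 1 → v ∈ fq_blockNorm Q D 1 := fun i v hv hqv =>
    (fq_mem_blockNorm Q D 1 v).2 ⟨i, hv, hqv⟩
  have qab : ∀ i, Q (a i + b i) = 1 := fun i => by
    rw [kit_add, hqa, hqb, hab]
    linear_combination h2
  have hu : Q (a j₁ + a j₂) = 0 := by
    rw [kit_add, hqa, hqa, xaa j₁ j₂ n12]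
    linear_combination h2
  have hw : Q (b j₁ + b j₂) = 0 := by
    rw [kit_add, hqb, hqb, xbb j₁ j₂ n12]
    linear_combination h2
  have hzu : QuadraticMap.polar (⇑Q) (a j₃) (a j₁ + a j₂) = 0 := by
    simp only [QuadraticMap.polar_add_right, xaa j₃ j₁ n13.symm, xaa j₃ j₂ n23.symm, add_zero]
  have hzw : QuadraticMap.polar (⇑Q) (a j₃) (b j₁ + b j₂) = 0 := by
    simp only [QuadraticMap.polar_add_right, xab j₃ j₁ n13.symm, xab j₃ j₂ n23.symm, add_zero]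
  have huw : QuadraticMap.polar (⇑Q) (a j₁ + a j₂) (b j₁ + b j₂) = 0 := by
    simp only [QuadraticMap.polar_add_left, QuadraticMap.polar_add_right, hab,
      xab j₁ j₂ n12, xab j₂ j₁ n12.symm]
    linear_combination h2
  obtain ⟨τ, hτΩ, hτ⟩ := fc_tau h2 Q hQ hc (a j₃) (a j₁ + a j₂) (b j₁ + b j₂) (hqa j₃) hu hw
    hzu hzw huw
  have τfix : ∀ x, QuadraticMap.polar (⇑Q) (a j₁) x = 0 →
      QuadraticMap.polar (⇑Q) (b j₁) x = 0 → QuadraticMap.polar (⇑Q) (a j₂) x = 0 →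
      QuadraticMap.polar (⇑Q) (b j₂) x = 0 → isoActF ⇑Q τ x = x := by
    intro x g1 g2 g3 g4
    rw [hτ]
    simp only [QuadraticMap.polar_add_left, g1, g2, g3, g4, add_zero, zero_smul]
  have τa1 : isoActF ⇑Q τ (a j₁) = a j₂ := by
    rw [hτ]
    simp only [QuadraticMap.polar_add_left, haa, xaa j₂ j₁ n12.symm, hba, xba j₂ j₁ n12.symm,
      add_zero, zero_smul, one_smul]
    exact fc_add_cancel h2 _ _
  have τa2 : isoActF ⇑Q τ (a j₂) = a j₁ := by
    rw [hτ]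
    simp only [QuadraticMap.polar_add_left, haa, xaa j₁ j₂ n12, hba, xba j₁ j₂ n12,
      add_zero, zero_add, zero_smul, one_smul]
    exact fc_add_cancel' h2 _ _
  have τb1 : isoActF ⇑Q τ (b j₁) = b j₂ := by
    rw [hτ]
    simp only [QuadraticMap.polar_add_left, hab, xab j₂ j₁ n12.symm, hbb, xbb j₂ j₁ n12.symm,
      add_zero, zero_smul, one_smul]
    exact fc_add_cancel h2 _ _
  have τb2 : isoActF ⇑Q τ (b j₂) = b j₁ := by
    rw [hτ]
    simp only [QuadraticMap.polar_add_left, hab, xab j₁ j₂ n12, hbb, xbb j₁ j₂ n12,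
      add_zero, zero_add, zero_smul, one_smul]
    exact fc_add_cancel' h2 _ _
  have hτN : ((τ : ↥(Cfsg.isometryGroup F ⇑Q)) : Matrix.GeneralLinearGroup κ F)
      ∈ fr3_stabSet (fq_blockNorm Q D 1) := by
    apply fq_stab_of_act Q
    intro v hv
    obtain ⟨i, hvi, hvq⟩ := (fq_mem_blockNorm Q D 1 v).1 hv
    by_cases c1 : i = j₁
    · rw [c1] at hvi
      rcases htri j₁ v hvi hvq with h | h | h | ⟨h, h'⟩
      · rw [h, τa1]; exact hN j₂ _ (haD j₂) (hqa j₂)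
      · rw [h, τb1]; exact hN j₂ _ (hbD j₂) (hqb j₂)
      · rw [h, map_add, τa1, τb1]
        exact hN j₂ _ ((D j₂).add_mem (haD j₂) (hbD j₂)) (qab j₂)
      · rw [τfix v h h' (horth j₂ j₁ n12.symm _ (haD j₂) v hvi)
          (horth j₂ j₁ n12.symm _ (hbD j₂) v hvi)]
        exact hv
    · by_cases c2 : i = j₂
      · rw [c2] at hvi
        rcases htri j₂ v hvi hvq with h | h | h | ⟨h, h'⟩
        · rw [h, τa2]; exact hN j₁ _ (haD j₁) (hqa j₁)
        · rw [h, τb2]; exact hN j₁ _ (hbD j₁) (hqb j₁)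
        · rw [h, map_add, τa2, τb2]
          exact hN j₁ _ ((D j₁).add_mem (haD j₁) (hbD j₁)) (qab j₁)
        · rw [τfix v (horth j₁ j₂ n12 _ (haD j₁) v hvi) (horth j₁ j₂ n12 _ (hbD j₁) v hvi)
            h h']
          exact hv
      · rw [τfix v (horth j₁ i (Ne.symm c1) _ (haD j₁) v hvi)
          (horth j₁ i (Ne.symm c1) _ (hbD j₁) v hvi)
          (horth j₂ i (Ne.symm c2) _ (haD j₂) v hvi)
          (horth j₂ i (Ne.symm c2) _ (hbD j₂) v hvi)]
        exact hv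
  have hτS : ((τ : ↥(Cfsg.isometryGroup F ⇑Q)) : Matrix.GeneralLinearGroup κ F)
      ∉ Cfsg.Geo.decompositionStabilizer D := by
    intro hmem
    obtain ⟨σ, hmap⟩ := fq_stabD_map Q D τ hmem
    have m1 : a j₂ ∈ D (σ j₁) := by
      have h := hmap j₁ (a j₁) (haD j₁)
      rw [τa1] at h
      exact h
    have m2 : y j₁ ∈ D (σ j₁) := by
      have h := hmap j₁ (y j₁) (hyD j₁)
      rw [τfix (y j₁) (hay j₁) (hby j₁) (horth j₂ j₁ n12.symm _ (haD j₂) _ (hyD j₁))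
        (horth j₂ j₁ n12.symm _ (hbD j₂) _ (hyD j₁))] at h
      exact h
    have hσ : σ j₁ = j₂ := by
      by_contra hne'
      have h0 := horth (σ j₁) j₂ hne' _ m1 _ (hbD j₂)
      rw [hab] at h0
      exact one_ne_zero h0
    rw [hσ] at m2
    obtain ⟨-, z', hz', hzne⟩ := hD.decomp.nondegenerate j₁ (y j₁) (hyD j₁) (hy0 j₁)
    exact hzne (horth j₂ j₁ n12.symm _ m2 z' hz')
  have qc : Q (a j₁ + a j₂ + a j₃) = 1 := by
    rw [kit_add, kit_add, QuadraticMap.polar_add_left, hqa, hqa, hqa, xaa j₁ j₂ n12,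
      xaa j₁ j₃ n13, xaa j₂ j₃ n23]
    linear_combination h2
  have hcne : Q (a j₁ + a j₂ + a j₃) ≠ 0 := by rw [qc]; exact one_ne_zero
  have ha3ne : Q (a j₃) ≠ 0 := by rw [hqa]; exact one_ne_zero
  have hωΩ : reflEl Q _ hcne * reflEl Q _ ha3ne ∈ commutator ↥(Cfsg.isometryGroup F ⇑Q) :=
    refl_pair_comm2 h2 Q hQ hc _ _ hcne ha3ne _ _ (actsRefl_reflEl Q _ hcne)
      (actsRefl_reflEl Q _ ha3ne)
  have ωb : isoActF ⇑Q (reflEl Q _ hcne * reflEl Q _ ha3ne) (b j₁)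
      = b j₁ + (a j₁ + a j₂ + a j₃) := by
    rw [fq_mul_act, fc_refl h2 Q _ ha3ne (b j₁), xab j₃ j₁ n13.symm, mul_zero, zero_smul,
      add_zero, fc_refl h2 Q _ hcne (b j₁), qc, inv_one, one_mul]
    simp only [QuadraticMap.polar_add_left, hab, xab j₂ j₁ n12.symm, xab j₃ j₁ n13.symm,
      add_zero, one_smul]
  refine fq_between _ _ (fr3_stabSet (fq_blockNorm Q D 1)) (fq_stabD_le Q D 1) _
    (fq_omega Q _ hτΩ) hτN hτS
    ((reflEl Q _ hcne * reflEl Q _ ha3ne : ↥(Cfsg.isometryGroup F ⇑Q)) :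
      Matrix.GeneralLinearGroup κ F) (fq_omega Q _ hωΩ) ?_
  apply fq_not_stab Q _ _ (b j₁) (hN j₁ _ (hbD j₁) (hqb j₁))
  rw [ωb]
  intro h1
  obtain ⟨i, hmi, -⟩ := (fq_mem_blockNorm Q D 1 _).1 h1
  by_cases c1 : i = j₁
  · rw [c1] at hmi
    have h0 := horth j₁ j₂ n12 _ hmi _ (hbD j₂)
    simp only [QuadraticMap.polar_add_left, xbb j₁ j₂ n12, xab j₁ j₂ n12, hab,
      xab j₃ j₂ n23.symm, zero_add, add_zero] at h0
    exact one_ne_zero h0
  · have h0 := horth i j₁ c1 _ hmi _ (haD j₁)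
    simp only [QuadraticMap.polar_add_left, hba, haa, xaa j₂ j₁ n12.symm, xaa j₃ j₁ n13.symm,
      add_zero] at h0
    exact one_ne_zero h0

end Frame4

end Cfsg.Agent.Helper5
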