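import Mathlib

namespace Cfsg.Agent.Helper5

open Equiv

section
variable {α : Type*} [Fintype α] [DecidableEq α] (G : Subgroup (Perm α)) {k : ℕ}

set_option linter.unusedSectionVars false

/-- In a generously `k`-transitive group any two points of a `(k+1)`-set are swapped by an
element fixing the other points of the set. -/
theorem gen_swap
    (hgen : ∀ s : Finset α, s.card = k + 1 → ∀ σ : Perm ↥s, ∃ g ∈ G, ∀ x : ↥s, g (x : α) = σ x)
    (s : Finset α) (hs : s.card = k + 1) (x y : α) (hx : x ∈ s) (hy : y ∈ s) :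
    ∃ g ∈ G, g x = y ∧ g y = x ∧ ∀ z ∈ s, z ≠ x → z ≠ y → g z = z := by
  obtain ⟨g, hg, h⟩ := hgen s hs (Equiv.swap ⟨x, hx⟩ ⟨y, hy⟩)
  refine ⟨g, hg, ?_, ?_, ?_⟩
  · have := h ⟨x, hx⟩
    rw [Equiv.swap_apply_left] at this
    exact this
  · have := h ⟨y, hy⟩
    rw [Equiv.swap_apply_right] at this
    exact this
  · intro z hz hzx hzy
    have := h ⟨z, hz⟩
    rw [Equiv.swap_apply_of_ne_of_ne (fun e => hzx (congrArg Subtype.val e))
      (fun e => hzy (congrArg Subtype.val e))] at this
    exact this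

/-- A generously `k`-transitive group of degree `> k` is `k`-transitive (elementary form). -/
theorem gen_trans (hk : k < Fintype.card α)
    (hgen : ∀ s : Finset α, s.card = k + 1 → ∀ σ : Perm ↥s, ∃ g ∈ G, ∀ x : ↥s, g (x : α) = σ x)
    (e e' : Fin k ↪ α) : ∃ g ∈ G, ∀ i, g (e i) = e' i := by
  suffices H : ∀ d : ℕ, ∀ e : Fin k ↪ α,
      (Finset.univ.filter (fun i => e i ≠ e' i)).card ≤ d → ∃ g ∈ G, ∀ i, g (e i) = e' i from
    H _ e le_rfl
  intro d
  induction d with
  | zero =>
    intro e hd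
    refine ⟨1, G.one_mem, fun i => ?_⟩
    have h0 : (Finset.univ.filter (fun i => e i ≠ e' i)) = ∅ :=
      Finset.card_eq_zero.1 (Nat.le_zero.1 hd)
    by_contra hne
    have : i ∈ (Finset.univ.filter (fun i => e i ≠ e' i)) := by
      simp only [Finset.mem_filter, Finset.mem_univ, true_and]
      exact hne
    rw [h0] at this
    exact absurd this (Finset.notMem_empty i)
  | succ d ih =>
    intro e hd
    by_cases hall : ∀ i, e i = e' i
    · exact ⟨1, G.one_mem, fun i => hall i⟩
    push Not at hall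
    obtain ⟨i, hi⟩ := hall
    have hmemS : ∀ j, e j ∈ Finset.univ.map e := fun j =>
      Finset.mem_map_of_mem e (Finset.mem_univ j)
    have hScard : (Finset.univ.map e).card = k := by simp
    obtain ⟨c, hcS, hc⟩ : ∃ c, c ∉ Finset.univ.map e ∧ (e' i ∉ Finset.univ.map e → c = e' i) := by
      by_cases h : e' i ∈ Finset.univ.map e
      · obtain ⟨c, hc⟩ : ∃ c, c ∉ Finset.univ.map e := by
          by_contra hcon
          push Not at hcon
          have : Finset.univ.map e = Finset.univ := Finset.eq_univ_iff_forall.2 hcon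
          rw [this, Finset.card_univ] at hScard
          omega
        exact ⟨c, hc, fun h' => absurd h h'⟩
      · exact ⟨e' i, h, fun _ => rfl⟩
    have hT : (insert c (Finset.univ.map e)).card = k + 1 := by
      rw [Finset.card_insert_of_notMem hcS, hScard]
    have hei : e i ∈ insert c (Finset.univ.map e) := Finset.mem_insert_of_mem (hmemS i)
    have hy : e' i ∈ insert c (Finset.univ.map e) := by
      by_cases h : e' i ∈ Finset.univ.map e
      · exact Finset.mem_insert_of_mem h
      · rw [← hc h]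
        exact Finset.mem_insert_self _ _
    obtain ⟨g₁, hg₁, hg₁x, -, hg₁z⟩ := gen_swap G hgen _ hT (e i) (e' i) hei hy
    have hsub : (Finset.univ.filter (fun j => (e.trans g₁.toEmbedding) j ≠ e' j)) ⊆
        (Finset.univ.filter (fun j => e j ≠ e' j)).erase i := by
      intro j hj
      simp only [Finset.mem_filter, Finset.mem_univ, true_and, Function.Embedding.trans_apply,
        Equiv.coe_toEmbedding] at hj
      rw [Finset.mem_erase]
      simp only [Finset.mem_filter, Finset.mem_univ, true_and]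
      refine ⟨?_, ?_⟩
      · rintro rfl
        exact hj hg₁x
      · intro hje
        apply hj
        have hji : j ≠ i := by
          rintro rfl
          exact hi hje
        rw [hg₁z (e j) (Finset.mem_insert_of_mem (hmemS j)) (fun h => hji (e.injective h))
          (fun h => hji (e'.injective (hje.symm.trans h)))]
        exact hje
    have h1 := Finset.card_le_card hsub
    rw [Finset.card_erase_of_mem (by
      simp only [Finset.mem_filter, Finset.mem_univ, true_and]
      exact hi)] at h1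
    obtain ⟨g₂, hg₂, h2⟩ := ih (e.trans g₁.toEmbedding) (by omega)
    exact ⟨g₂ * g₁, G.mul_mem hg₂ hg₁, fun j => h2 j⟩

/-- Transitivity on `k`-sets. -/
theorem gen_set_trans (hk : k < Fintype.card α)
    (hgen : ∀ s : Finset α, s.card = k + 1 → ∀ σ : Perm ↥s, ∃ g ∈ G, ∀ x : ↥s, g (x : α) = σ x)
    (Γ Λ : Finset α) (hΓ : Γ.card = k) (hΛ : Λ.card = k) : ∃ g ∈ G, ∀ x ∈ Γ, g x ∈ Λ := by
  let e : Fin k ↪ α :=
    (Finset.equivFinOfCardEq hΓ).symm.toEmbedding.trans (Function.Embedding.subtype _)
  let e' : Fin k ↪ α :=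
    (Finset.equivFinOfCardEq hΛ).symm.toEmbedding.trans (Function.Embedding.subtype _)
  obtain ⟨g, hg, h⟩ := gen_trans G hk hgen e e'
  refine ⟨g, hg, fun x hx => ?_⟩
  have h1 := h (Finset.equivFinOfCardEq hΓ ⟨x, hx⟩)
  have h2 : e (Finset.equivFinOfCardEq hΓ ⟨x, hx⟩) = x := by
    simp [e]
  rw [h2] at h1
  rw [h1]
  exact ((Finset.equivFinOfCardEq hΛ).symm _).2

/-- In a generously `k`-transitive group the setwise and pointwise stabilisers of a `k`-set
have the same orbits outside it. -/
theorem gen_fix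
    (hgen : ∀ s : Finset α, s.card = k + 1 → ∀ σ : Perm ↥s, ∃ g ∈ G, ∀ x : ↥s, g (x : α) = σ x)
    (s : Finset α) (hs : s.card = k) (a b : α) (hb : b ∉ s) (g : Perm α) (hg : g ∈ G)
    (hgs : ∀ x ∈ s, g x ∈ s) (hgs' : ∀ x ∈ s, g⁻¹ x ∈ s) (hgab : g a = b) :
    ∃ g' ∈ G, (∀ x ∈ s, g' x = x) ∧ g' a = b := by
  have hiff : ∀ x, g⁻¹ x ∈ s ↔ x ∈ s := by
    intro x
    refine ⟨fun h => ?_, fun h => hgs' x h⟩
    have := hgs _ h
    rwa [show g (g⁻¹ x) = x from g.apply_symm_apply x] at this
  let τ : Perm α := Perm.ofSubtype (g⁻¹.subtypePerm hiff)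
  have hτs : ∀ x ∈ s, τ x = g⁻¹ x := by
    intro x hx
    simp only [τ]
    rw [Perm.ofSubtype_apply_of_mem _ hx]
    rfl
  have hτn : ∀ x, x ∉ s → τ x = x := by
    intro x hx
    simp only [τ]
    exact Perm.ofSubtype_apply_of_not_mem _ hx
  have hτT : ∀ x, τ x ∈ insert b s ↔ x ∈ insert b s := by
    intro x
    by_cases hx : x ∈ s
    · rw [hτs x hx]
      constructor
      · intro _
        exact Finset.mem_insert_of_mem hx
      · intro _
        exact Finset.mem_insert_of_mem (hgs' x hx)
    · rw [hτn x hx]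
  obtain ⟨h, hh, hσ⟩ := hgen (insert b s) (by rw [Finset.card_insert_of_notMem hb, hs])
    (τ.subtypePerm hτT)
  refine ⟨h * g, G.mul_mem hh hg, ?_, ?_⟩
  · intro x hx
    have h1 := hσ ⟨g x, Finset.mem_insert_of_mem (hgs x hx)⟩
    rw [Perm.subtypePerm_apply] at h1
    simp only at h1
    rw [Perm.mul_apply, h1, hτs _ (hgs x hx)]
    exact g.symm_apply_apply x
  · have h1 := hσ ⟨b, Finset.mem_insert_self b s⟩
    rw [Perm.subtypePerm_apply] at h1
    simp only at h1
    rw [Perm.mul_apply, hgab, h1, hτn b hb]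

end

end Cfsg.Agent.Helper5
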