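import Mathlib

/-!
Part [P4] of the S2583 sprint: if all the sums `∑ i, (d i - k)` with `k` odd are even, then
every positive even value is taken an even number of times by `d`.
-/

set_option autoImplicit false

namespace Cfsg.Agent.Helper5

theorem count_even_of_rank_even {t : ℕ} (d : Fin t → ℕ)
    (h : ∀ k, Odd k → Even (∑ i, (d i - k))) (j : ℕ) (hj : Even j) (hj0 : 0 < j) :
    Even (Finset.univ.filter (fun i : Fin t => d i = j)).card := by
  have hpt : ∀ i : Fin t, (if d i = j then 1 else 0) + 2 * (d i - j)
      = (d i - (j - 1)) + (d i - (j + 1)) := by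
    intro i
    split_ifs with hij
    · omega
    · omega
  have hsum : (Finset.univ.filter (fun i : Fin t => d i = j)).card + 2 * ∑ i, (d i - j)
      = ∑ i, (d i - (j - 1)) + ∑ i, (d i - (j + 1)) := by
    rw [Finset.card_filter, Finset.mul_sum, ← Finset.sum_add_distrib,
      ← Finset.sum_add_distrib]
    exact Finset.sum_congr rfl (fun i _ => hpt i)
  have h1 : Odd (j - 1) := by
    obtain ⟨m, hm⟩ := hj
    exact ⟨m - 1, by omega⟩
  have h2 : Odd (j + 1) := hj.add_one
  have e1 := h (j - 1) h1
  have e2 := h (j + 1) h2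
  have e3 : Even ((Finset.univ.filter (fun i : Fin t => d i = j)).card
      + 2 * ∑ i, (d i - j)) := by
    rw [hsum]
    exact e1.add e2
  have e4 : Even (2 * ∑ i, (d i - j)) := even_two_mul _
  exact (Nat.even_add.mp e3).mpr e4

end Cfsg.Agent.Helper5
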