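import Mathlib

/-!
Part [P6b] of the S2583 sprint: a unipotent isometry of the hyperbolic symmetric form on
`Fin d ⊕ Fin d` with two Jordan blocks of size `d`.  Also: the rank of the powers of the
subdiagonal shift matrix (`shift_pow_rank`).
-/

set_option autoImplicit false

namespace Cfsg.Agent.Helper5

open Matrix

variable {F : Type*} [Field F]

/-- the `k`-th power of the subdiagonal shift: entry `1` at the places `(b + k, b)`. -/
def jo5E (d : ℕ) (F : Type*) [Field F] (k : ℕ) : Matrix (Fin d) (Fin d) F :=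
  Matrix.of fun a b => if (a : ℕ) = (b : ℕ) + k then 1 else 0

theorem jo5E_apply (d k : ℕ) (a b : Fin d) :
    jo5E d F k a b = if (a : ℕ) = (b : ℕ) + k then 1 else 0 := rfl

theorem jo5E_mul (d j k : ℕ) : jo5E d F j * jo5E d F k = jo5E d F (j + k) := by
  ext a b
  rw [Matrix.mul_apply, jo5E_apply d (j + k) a b]
  by_cases h : (a : ℕ) = (b : ℕ) + (j + k)
  · rw [if_pos h]
    have hc : (b : ℕ) + k < d := by
      have := a.isLt
      omega
    rw [Finset.sum_eq_single (⟨(b : ℕ) + k, hc⟩ : Fin d)]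
    · have e1 : jo5E d F j a ⟨(b : ℕ) + k, hc⟩ = 1 := by
        rw [jo5E_apply]
        exact if_pos (by show (a : ℕ) = (b : ℕ) + k + j; omega)
      have e2 : jo5E d F k ⟨(b : ℕ) + k, hc⟩ b = 1 := by
        rw [jo5E_apply]
        exact if_pos rfl
      rw [e1, e2, mul_one]
    · intro c _ hcne
      have hne : ¬ (c : ℕ) = (b : ℕ) + k := fun hh => hcne (Fin.ext hh)
      have e : jo5E d F k c b = 0 := by
        rw [jo5E_apply]
        exact if_neg hne
      rw [e, mul_zero]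
    · intro hh
      exact absurd (Finset.mem_univ _) hh
  · rw [if_neg h]
    apply Finset.sum_eq_zero
    intro c _
    by_cases hc : (c : ℕ) = (b : ℕ) + k
    · have e : jo5E d F j a c = 0 := by
        rw [jo5E_apply]
        exact if_neg (by omega)
      rw [e, zero_mul]
    · have e : jo5E d F k c b = 0 := by
        rw [jo5E_apply]
        exact if_neg hc
      rw [e, mul_zero]

theorem jo5E_zero (d : ℕ) : jo5E d F 0 = 1 := by
  ext a b
  rw [jo5E_apply, Matrix.one_apply]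
  by_cases h : a = b
  · have h' : (a : ℕ) = (b : ℕ) + 0 := by
      have := congrArg Fin.val h
      omega
    rw [if_pos h', if_pos h]
  · have h' : ¬ (a : ℕ) = (b : ℕ) + 0 := fun hh => h (Fin.ext (by omega))
    rw [if_neg h', if_neg h]

theorem jo5E_eq_zero (d k : ℕ) (hk : d ≤ k) : jo5E d F k = 0 := by
  ext a b
  rw [jo5E_apply, Matrix.zero_apply]
  exact if_neg (by have := a.isLt; omega)

theorem jo5E_pow (d k : ℕ) : jo5E d F 1 ^ k = jo5E d F k := by
  induction k with
  | zero => rw [pow_zero, jo5E_zero]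
  | succ k ih => rw [pow_succ, ih, jo5E_mul]

/-- a matrix factoring through `r` with one-sided inverses has rank `card r`. -/
theorem jo5_rank_factor {m n r : Type*} [Fintype m] [Fintype n] [Fintype r]
    [DecidableEq m] [DecidableEq n] [DecidableEq r]
    (U : Matrix m r F) (V : Matrix r n F) (U' : Matrix r m F) (V' : Matrix n r F)
    (hU : U' * U = 1) (hV : V * V' = 1) : (U * V).rank = Fintype.card r := by
  apply le_antisymm
  · exact (Matrix.rank_mul_le_left U V).trans (Matrix.rank_le_card_width U)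
  · have h1 : U' * (U * V) * V' = 1 := by
      rw [← Matrix.mul_assoc, hU, Matrix.one_mul, hV]
    calc Fintype.card r = (1 : Matrix r r F).rank := Matrix.rank_one.symm
      _ = (U' * (U * V) * V').rank := by rw [h1]
      _ ≤ (U' * (U * V)).rank := Matrix.rank_mul_le_left _ _
      _ ≤ (U * V).rank := Matrix.rank_mul_le_right _ _

/-- the embedding `c ↦ c + k` -/
def jo5f (d k : ℕ) (c : Fin (d - k)) : Fin d :=
  ⟨(c : ℕ) + k, by have := c.isLt; omega⟩

/-- the embedding `c ↦ c` -/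
def jo5g (d k : ℕ) (c : Fin (d - k)) : Fin d :=
  ⟨(c : ℕ), by have := c.isLt; omega⟩

theorem jo5f_inj (d k : ℕ) : Function.Injective (jo5f d k) := by
  intro c c' h
  have h2 : (c : ℕ) + k = (c' : ℕ) + k := congrArg Fin.val h
  exact Fin.ext (by omega)

theorem jo5g_inj (d k : ℕ) : Function.Injective (jo5g d k) := by
  intro c c' h
  have h2 : ((jo5g d k c : Fin d) : ℕ) = ((jo5g d k c' : Fin d) : ℕ) := congrArg Fin.val h
  exact Fin.ext h2

/-- the columns `k, …, d - 1` of the identity -/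
def jo5U (d : ℕ) (F : Type*) [Field F] (k : ℕ) : Matrix (Fin d) (Fin (d - k)) F :=
  (1 : Matrix (Fin d) (Fin d) F).submatrix id (jo5f d k)

/-- the rows `0, …, d - k - 1` of the identity -/
def jo5V (d : ℕ) (F : Type*) [Field F] (k : ℕ) : Matrix (Fin (d - k)) (Fin d) F :=
  (1 : Matrix (Fin d) (Fin d) F).submatrix (jo5g d k) id

theorem jo5U_left (d k : ℕ) : (jo5U d F k)ᵀ * jo5U d F k = 1 := by
  have h := Matrix.submatrix_mul (1 : Matrix (Fin d) (Fin d) F) (1 : Matrix (Fin d) (Fin d) F)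
    (jo5f d k) id (jo5f d k) Function.bijective_id
  rw [Matrix.mul_one, Matrix.submatrix_one _ (jo5f_inj d k)] at h
  unfold jo5U
  rw [Matrix.transpose_submatrix, Matrix.transpose_one]
  exact h.symm

theorem jo5V_right (d k : ℕ) : jo5V d F k * (jo5V d F k)ᵀ = 1 := by
  have h := Matrix.submatrix_mul (1 : Matrix (Fin d) (Fin d) F) (1 : Matrix (Fin d) (Fin d) F)
    (jo5g d k) id (jo5g d k) Function.bijective_id
  rw [Matrix.mul_one, Matrix.submatrix_one _ (jo5g_inj d k)] at h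
  unfold jo5V
  rw [Matrix.transpose_submatrix, Matrix.transpose_one]
  exact h.symm

theorem jo5UV (d k : ℕ) : jo5U d F k * jo5V d F k = jo5E d F k := by
  ext a b
  rw [Matrix.mul_apply, jo5E_apply d k a b]
  have hU : ∀ c : Fin (d - k), jo5U d F k a c = if (a : ℕ) = (c : ℕ) + k then 1 else 0 := by
    intro c
    show (1 : Matrix (Fin d) (Fin d) F) a (jo5f d k c) = _
    rw [Matrix.one_apply]
    by_cases h : (a : ℕ) = (c : ℕ) + k
    · have h' : a = jo5f d k c := Fin.ext h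
      rw [if_pos h, if_pos h']
    · have h' : ¬ a = jo5f d k c := fun hh => h (congrArg Fin.val hh)
      rw [if_neg h, if_neg h']
  have hV : ∀ c : Fin (d - k), jo5V d F k c b = if (c : ℕ) = (b : ℕ) then 1 else 0 := by
    intro c
    show (1 : Matrix (Fin d) (Fin d) F) (jo5g d k c) b = _
    rw [Matrix.one_apply]
    by_cases h : (c : ℕ) = (b : ℕ)
    · have h' : jo5g d k c = b := Fin.ext h
      rw [if_pos h, if_pos h']
    · have h' : ¬ jo5g d k c = b := fun hh => h (congrArg Fin.val hh)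
      rw [if_neg h, if_neg h']
  by_cases h : (a : ℕ) = (b : ℕ) + k
  · rw [if_pos h]
    have hb : (b : ℕ) < d - k := by
      have := a.isLt
      omega
    rw [Finset.sum_eq_single (⟨(b : ℕ), hb⟩ : Fin (d - k))]
    · have e1 : jo5U d F k a ⟨(b : ℕ), hb⟩ = 1 := by
        rw [hU]
        exact if_pos h
      have e2 : jo5V d F k ⟨(b : ℕ), hb⟩ b = 1 := by
        rw [hV]
        exact if_pos rfl
      rw [e1, e2, mul_one]
    · intro c _ hcne
      have hne : ¬ (c : ℕ) = (b : ℕ) := fun hh => hcne (Fin.ext hh)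
      rw [hV, if_neg hne, mul_zero]
    · intro hh
      exact absurd (Finset.mem_univ _) hh
  · rw [if_neg h]
    apply Finset.sum_eq_zero
    intro c _
    rw [hU, hV]
    by_cases hc : (c : ℕ) = (b : ℕ)
    · have h' : ¬ (a : ℕ) = (c : ℕ) + k := by omega
      rw [if_neg h', zero_mul]
    · rw [if_neg hc, mul_zero]

theorem jo5E_rank (d k : ℕ) : (jo5E d F k).rank = d - k := by
  rw [← jo5UV d k, jo5_rank_factor (jo5U d F k) (jo5V d F k) (jo5U d F k)ᵀ (jo5V d F k)ᵀ
    (jo5U_left d k) (jo5V_right d k), Fintype.card_fin]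

/-- the subdiagonal shift as an explicit matrix -/
theorem jo5E_one_eq (d : ℕ) :
    jo5E d F 1 = Matrix.of fun a b : Fin d => if (a : ℕ) = (b : ℕ) + 1 then (1 : F) else 0 :=
  rfl

/-- rank of the powers of the subdiagonal shift `N` (`N a b = 1` iff `a = b + 1`). -/
theorem shift_pow_rank (d k : ℕ) : ((jo5E d F 1) ^ k).rank = d - k := by
  rw [jo5E_pow, jo5E_rank]

/-- the unipotent Jordan block `1 + N` -/
def jo5J (d : ℕ) (F : Type*) [Field F] : Matrix (Fin d) (Fin d) F := 1 + jo5E d F 1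

/-- its inverse, the alternating geometric sum -/
def jo5Ji (d : ℕ) (F : Type*) [Field F] : Matrix (Fin d) (Fin d) F :=
  ∑ i ∈ Finset.range d, (-(jo5E d F 1)) ^ i

theorem jo5_neg_pow_zero (d : ℕ) : (-(jo5E d F 1)) ^ d = 0 := by
  rw [neg_pow, jo5E_pow, jo5E_eq_zero d d le_rfl, mul_zero]

theorem jo5J_mul_Ji (d : ℕ) : jo5J d F * jo5Ji d F = 1 := by
  have h := mul_neg_geom_sum (-(jo5E d F 1)) d
  rw [jo5_neg_pow_zero d, sub_neg_eq_add, sub_zero] at h
  exact h

theorem jo5Ji_mul_J (d : ℕ) : jo5Ji d F * jo5J d F = 1 := by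
  have h := geom_sum_mul_neg (-(jo5E d F 1)) d
  rw [jo5_neg_pow_zero d, sub_neg_eq_add, sub_zero] at h
  exact h

theorem jo5Ji_sub_one (d : ℕ) : jo5Ji d F - 1 = (-(jo5Ji d F)) * jo5E d F 1 := by
  have h := jo5Ji_mul_J (F := F) d
  unfold jo5J at h
  rw [mul_add, mul_one] at h
  calc jo5Ji d F - 1 = jo5Ji d F - (jo5Ji d F + jo5Ji d F * jo5E d F 1) := by rw [h]
    _ = (-(jo5Ji d F)) * jo5E d F 1 := by
        rw [neg_mul]
        abel

theorem jo5_comm (d : ℕ) : Commute (jo5Ji d F) (jo5E d F 1) := by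
  have h1 := jo5Ji_mul_J (F := F) d
  have h2 := jo5J_mul_Ji (F := F) d
  unfold jo5J at h1 h2
  rw [mul_add, mul_one] at h1
  rw [add_mul, one_mul] at h2
  show jo5Ji d F * jo5E d F 1 = jo5E d F 1 * jo5Ji d F
  exact add_left_cancel (h1.trans h2.symm)

theorem jo5Ji_sub_one_pow (d k : ℕ) :
    (jo5Ji d F - 1) ^ k = (-(jo5Ji d F)) ^ k * jo5E d F k := by
  rw [jo5Ji_sub_one, (jo5_comm (F := F) d).neg_left.mul_pow, jo5E_pow]

theorem jo5_unit_pow (d k : ℕ) : (-(jo5J d F)) ^ k * (-(jo5Ji d F)) ^ k = 1 := by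
  have hc : Commute (-(jo5J d F)) (-(jo5Ji d F)) := by
    show -(jo5J d F) * -(jo5Ji d F) = -(jo5Ji d F) * -(jo5J d F)
    rw [neg_mul_neg, neg_mul_neg, jo5J_mul_Ji, jo5Ji_mul_J]
  rw [← hc.mul_pow, neg_mul_neg, jo5J_mul_Ji, one_pow]

/-- [P6b] the pair of Jordan blocks `J ⊕ J⁻ᵀ` preserves the hyperbolic form. -/
theorem pair_block_form {F : Type*} [Field F] (d : ℕ) :
    ∃ A M : Matrix (Fin d ⊕ Fin d) (Fin d ⊕ Fin d) F, Mᵀ = M ∧ M.det ≠ 0 ∧ Aᵀ * M * A = M ∧
      ∀ k, ((A - 1) ^ k).rank = (d - k) + (d - k) := by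
  have h1 : jo5Ji d F * jo5J d F = 1 := jo5Ji_mul_J d
  have h2 : (jo5J d F)ᵀ * (jo5Ji d F)ᵀ = 1 := by
    rw [← Matrix.transpose_mul, h1, Matrix.transpose_one]
  refine ⟨Matrix.fromBlocks (jo5J d F) 0 0 (jo5Ji d F)ᵀ,
    Matrix.fromBlocks (0 : Matrix (Fin d) (Fin d) F) (1 : Matrix (Fin d) (Fin d) F)
      (1 : Matrix (Fin d) (Fin d) F) (0 : Matrix (Fin d) (Fin d) F), ?_, ?_, ?_, ?_⟩
  · rw [Matrix.fromBlocks_transpose, Matrix.transpose_zero, Matrix.transpose_one]
  · have hMM : (Matrix.fromBlocks (0 : Matrix (Fin d) (Fin d) F) (1 : Matrix (Fin d) (Fin d) F)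
          (1 : Matrix (Fin d) (Fin d) F) (0 : Matrix (Fin d) (Fin d) F)) *
        Matrix.fromBlocks (0 : Matrix (Fin d) (Fin d) F) (1 : Matrix (Fin d) (Fin d) F)
          (1 : Matrix (Fin d) (Fin d) F) (0 : Matrix (Fin d) (Fin d) F) = 1 := by
      rw [Matrix.fromBlocks_multiply]
      simp only [mul_zero, mul_one, add_zero, zero_add]
      exact Matrix.fromBlocks_one
    intro h0
    have h3 := congrArg Matrix.det hMM
    rw [Matrix.det_mul, h0, mul_zero, Matrix.det_one] at h3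
    exact zero_ne_one h3
  · rw [Matrix.fromBlocks_transpose, Matrix.fromBlocks_multiply, Matrix.fromBlocks_multiply]
    simp only [Matrix.transpose_zero, Matrix.transpose_transpose, mul_zero, zero_mul, mul_one,
      add_zero, zero_add, h1, h2]
  · intro k
    have hA1 : Matrix.fromBlocks (jo5J d F) 0 0 (jo5Ji d F)ᵀ - 1
        = Matrix.fromBlocks (jo5E d F 1) 0 0 ((jo5Ji d F - 1)ᵀ) := by
      have e1 : (1 : Matrix (Fin d ⊕ Fin d) (Fin d ⊕ Fin d) F)
          = Matrix.fromBlocks (1 : Matrix (Fin d) (Fin d) F) 0 0 1 :=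
        Matrix.fromBlocks_one.symm
      have b1 : jo5J d F + -1 = jo5E d F 1 := by
        unfold jo5J
        abel
      have b2 : (0 : Matrix (Fin d) (Fin d) F) + -0 = 0 := by simp
      have b4 : (jo5Ji d F)ᵀ + -1 = (jo5Ji d F - 1)ᵀ := by
        rw [Matrix.transpose_sub, Matrix.transpose_one, sub_eq_add_neg]
      rw [e1, sub_eq_add_neg, Matrix.fromBlocks_neg, Matrix.fromBlocks_add, b1, b2, b4]
    rw [hA1, Matrix.fromBlocks_diagonal_pow, jo5E_pow, ← Matrix.transpose_pow,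
      jo5Ji_sub_one_pow]
    have hfac : Matrix.fromBlocks (jo5E d F k) 0 0 (((-(jo5Ji d F)) ^ k * jo5E d F k)ᵀ)
        = Matrix.fromBlocks (jo5U d F k) 0 0 (jo5V d F k)ᵀ
          * Matrix.fromBlocks (jo5V d F k) 0 0
              ((jo5U d F k)ᵀ * ((-(jo5Ji d F)) ^ k)ᵀ) := by
      rw [Matrix.fromBlocks_multiply]
      simp only [Matrix.mul_zero, Matrix.zero_mul, add_zero, zero_add]
      rw [jo5UV, ← Matrix.mul_assoc, ← Matrix.transpose_mul, jo5UV, ← Matrix.transpose_mul]
    have hU2 : Matrix.fromBlocks (jo5U d F k)ᵀ 0 0 (jo5V d F k)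
        * Matrix.fromBlocks (jo5U d F k) 0 0 (jo5V d F k)ᵀ = 1 := by
      rw [Matrix.fromBlocks_multiply]
      simp only [Matrix.mul_zero, Matrix.zero_mul, add_zero, zero_add]
      rw [jo5U_left, jo5V_right]
      exact Matrix.fromBlocks_one
    have hV2 : Matrix.fromBlocks (jo5V d F k) 0 0 ((jo5U d F k)ᵀ * ((-(jo5Ji d F)) ^ k)ᵀ)
        * Matrix.fromBlocks (jo5V d F k)ᵀ 0 0 (((-(jo5J d F)) ^ k)ᵀ * jo5U d F k) = 1 := by
      have e : (jo5U d F k)ᵀ * ((-(jo5Ji d F)) ^ k)ᵀ * (((-(jo5J d F)) ^ k)ᵀ * jo5U d F k)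
          = 1 := by
        rw [Matrix.mul_assoc, ← Matrix.mul_assoc (((-(jo5Ji d F)) ^ k)ᵀ),
          ← Matrix.transpose_mul, jo5_unit_pow, Matrix.transpose_one, Matrix.one_mul,
          jo5U_left]
      rw [Matrix.fromBlocks_multiply]
      simp only [Matrix.mul_zero, Matrix.zero_mul, add_zero, zero_add]
      rw [jo5V_right, e]
      exact Matrix.fromBlocks_one
    rw [hfac, jo5_rank_factor _ _ _ _ hU2 hV2, Fintype.card_sum, Fintype.card_fin]

end Cfsg.Agent.Helper5
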