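import Mathlib
import Cfsg.Agent.Helper5.JordOrthB

/-!
Part [R6b] of the S2582 sprint: the pair of Jordan blocks `J ⊕ J⁻ᵀ` preserves the standard
alternating form `fromBlocks 0 1 (-1) 0` on `Fin d ⊕ Fin d` (any characteristic).
-/

set_option autoImplicit false

namespace Cfsg.Agent.Helper5

open Matrix

variable {F : Type*} [Field F]

/-- the ranks of the powers of `J ⊕ J⁻ᵀ - 1`. -/
theorem jo5_pair_rank (d k : ℕ) :
    ((Matrix.fromBlocks (jo5J d F) 0 0 (jo5Ji d F)ᵀ - 1) ^ k).rank = (d - k) + (d - k) := by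
  have hA1 : Matrix.fromBlocks (jo5J d F) 0 0 (jo5Ji d F)ᵀ - 1
      = Matrix.fromBlocks (jo5E d F 1) 0 0 ((jo5Ji d F - 1)ᵀ) := by
    have e1 : (1 : Matrix (Fin d ⊕ Fin d) (Fin d ⊕ Fin d) F)
        = Matrix.fromBlocks (1 : Matrix (Fin d) (Fin d) F) 0 0 1 :=
      Matrix.fromBlocks_one.symm
    have b1 : jo5J d F + -1 = jo5E d F 1 := by
      unfold jo5J
      abel
    have b2 : (0 : Matrix (Fin d) (Fin d) F) + -0 = 0 := by simp
    have b4 : (jo5Ji d F)ᵀ + -1 = (jo5Ji d F - 1)ᵀ := by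
      rw [Matrix.transpose_sub, Matrix.transpose_one, sub_eq_add_neg]
    rw [e1, sub_eq_add_neg, Matrix.fromBlocks_neg, Matrix.fromBlocks_add, b1, b2, b4]
  rw [hA1, Matrix.fromBlocks_diagonal_pow, jo5E_pow, ← Matrix.transpose_pow,
    jo5Ji_sub_one_pow]
  have hfac : Matrix.fromBlocks (jo5E d F k) 0 0 (((-(jo5Ji d F)) ^ k * jo5E d F k)ᵀ)
      = Matrix.fromBlocks (jo5U d F k) 0 0 (jo5V d F k)ᵀ
        * Matrix.fromBlocks (jo5V d F k) 0 0
            ((jo5U d F k)ᵀ * ((-(jo5Ji d F)) ^ k)ᵀ) := by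
    rw [Matrix.fromBlocks_multiply]
    simp only [Matrix.mul_zero, Matrix.zero_mul, add_zero, zero_add]
    rw [jo5UV, ← Matrix.mul_assoc, ← Matrix.transpose_mul, jo5UV, ← Matrix.transpose_mul]
  have hU2 : Matrix.fromBlocks (jo5U d F k)ᵀ 0 0 (jo5V d F k)
      * Matrix.fromBlocks (jo5U d F k) 0 0 (jo5V d F k)ᵀ = 1 := by
    rw [Matrix.fromBlocks_multiply]
    simp only [Matrix.mul_zero, Matrix.zero_mul, add_zero, zero_add]
    rw [jo5U_left, jo5V_right]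
    exact Matrix.fromBlocks_one
  have hV2 : Matrix.fromBlocks (jo5V d F k) 0 0 ((jo5U d F k)ᵀ * ((-(jo5Ji d F)) ^ k)ᵀ)
      * Matrix.fromBlocks (jo5V d F k)ᵀ 0 0 (((-(jo5J d F)) ^ k)ᵀ * jo5U d F k) = 1 := by
    have e : (jo5U d F k)ᵀ * ((-(jo5Ji d F)) ^ k)ᵀ * (((-(jo5J d F)) ^ k)ᵀ * jo5U d F k)
        = 1 := by
      rw [Matrix.mul_assoc, ← Matrix.mul_assoc (((-(jo5Ji d F)) ^ k)ᵀ),
        ← Matrix.transpose_mul, jo5_unit_pow, Matrix.transpose_one, Matrix.one_mul,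
        jo5U_left]
    rw [Matrix.fromBlocks_multiply]
    simp only [Matrix.mul_zero, Matrix.zero_mul, add_zero, zero_add]
    rw [jo5V_right, e]
    exact Matrix.fromBlocks_one
  rw [hfac, jo5_rank_factor _ _ _ _ hU2 hV2, Fintype.card_sum, Fintype.card_fin]

/-- [R6b] the pair of Jordan blocks `J ⊕ J⁻ᵀ` preserves the standard alternating form. -/
theorem pair_block_form_alt {F : Type*} [Field F] (d : ℕ) :
    ∃ A M : Matrix (Fin d ⊕ Fin d) (Fin d ⊕ Fin d) F, (∀ v, v ⬝ᵥ M *ᵥ v = 0) ∧ M.det ≠ 0 ∧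
      Aᵀ * M * A = M ∧ ∀ k, ((A - 1) ^ k).rank = (d - k) + (d - k) := by
  have h1 : jo5Ji d F * jo5J d F = 1 := jo5Ji_mul_J d
  have h2 : (jo5J d F)ᵀ * (jo5Ji d F)ᵀ = 1 := by
    rw [← Matrix.transpose_mul, h1, Matrix.transpose_one]
  refine ⟨Matrix.fromBlocks (jo5J d F) 0 0 (jo5Ji d F)ᵀ,
    Matrix.fromBlocks (0 : Matrix (Fin d) (Fin d) F) (1 : Matrix (Fin d) (Fin d) F)
      (-1 : Matrix (Fin d) (Fin d) F) (0 : Matrix (Fin d) (Fin d) F), ?_, ?_, ?_, ?_⟩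
  · intro v
    obtain ⟨x, y, rfl⟩ : ∃ x y : Fin d → F, v = Sum.elim x y :=
      ⟨v ∘ Sum.inl, v ∘ Sum.inr, by funext i; cases i <;> rfl⟩
    rw [Matrix.fromBlocks_mulVec, Sum.elim_comp_inl, Sum.elim_comp_inr,
      sumElim_dotProduct_sumElim]
    simp only [Matrix.zero_mulVec, Matrix.one_mulVec, Matrix.neg_mulVec, zero_add, add_zero,
      dotProduct_neg]
    rw [dotProduct_comm y x]
    ring
  · have hMM : (Matrix.fromBlocks (0 : Matrix (Fin d) (Fin d) F) (1 : Matrix (Fin d) (Fin d) F)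
          (-1 : Matrix (Fin d) (Fin d) F) (0 : Matrix (Fin d) (Fin d) F)) *
        Matrix.fromBlocks (0 : Matrix (Fin d) (Fin d) F) (-1 : Matrix (Fin d) (Fin d) F)
          (1 : Matrix (Fin d) (Fin d) F) (0 : Matrix (Fin d) (Fin d) F) = 1 := by
      rw [Matrix.fromBlocks_multiply]
      simp only [mul_zero, zero_mul, mul_one, add_zero, zero_add, neg_mul_neg]
      exact Matrix.fromBlocks_one
    intro h0
    have h3 := congrArg Matrix.det hMM
    rw [Matrix.det_mul, h0, zero_mul, Matrix.det_one] at h3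
    exact zero_ne_one h3
  · rw [Matrix.fromBlocks_transpose, Matrix.fromBlocks_multiply, Matrix.fromBlocks_multiply]
    simp only [Matrix.transpose_zero, Matrix.transpose_transpose, mul_zero, zero_mul, mul_one,
      add_zero, zero_add, mul_neg, neg_mul, neg_zero, h1, h2]
  · intro k
    exact jo5_pair_rank d k

end Cfsg.Agent.Helper5
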