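import Mathlib
import Cfsg.Prelude.Def_Classical

/-!
The Klein correspondence: the exterior square of a `4 × 4` matrix, in coordinates in which the
Klein quadric is the form `x₀y₀ + x₁y₁ + x₂y₂`.
-/

set_option autoImplicit false

namespace Cfsg.Agent.Helper5

open scoped Matrix

section

variable {F : Type*} [Field F]

/-- The pairs of indices labelling the Plücker coordinates. -/
def kp : Fin 3 ⊕ Fin 3 → Fin 4 × Fin 4 :=
  Sum.elim ![(0, 1), (0, 2), (0, 3)] ![(2, 3), (1, 3), (1, 2)]

/-- The signs of the Plücker coordinates. -/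
def ks (F : Type*) [Field F] : Fin 3 ⊕ Fin 3 → F :=
  Sum.elim ![1, 1, 1] ![1, -1, 1]

theorem kp_l0 : kp (Sum.inl 0) = (0, 1) := rfl
theorem kp_l1 : kp (Sum.inl 1) = (0, 2) := rfl
theorem kp_l2 : kp (Sum.inl 2) = (0, 3) := rfl
theorem kp_r0 : kp (Sum.inr 0) = (2, 3) := rfl
theorem kp_r1 : kp (Sum.inr 1) = (1, 3) := rfl
theorem kp_r2 : kp (Sum.inr 2) = (1, 2) := rfl
theorem ks_l0 : ks F (Sum.inl 0) = 1 := rfl
theorem ks_l1 : ks F (Sum.inl 1) = 1 := rfl
theorem ks_l2 : ks F (Sum.inl 2) = 1 := rfl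
theorem ks_r0 : ks F (Sum.inr 0) = 1 := rfl
theorem ks_r1 : ks F (Sum.inr 1) = -1 := rfl
theorem ks_r2 : ks F (Sum.inr 2) = 1 := rfl

/-- The exterior square of a `4 × 4` matrix in signed Plücker coordinates. -/
def kleinMat (A : Matrix (Fin 4) (Fin 4) F) : Matrix (Fin 3 ⊕ Fin 3) (Fin 3 ⊕ Fin 3) F :=
  Matrix.of fun I J => ks F I * ks F J *
    (A (kp I).1 (kp J).1 * A (kp I).2 (kp J).2 - A (kp I).1 (kp J).2 * A (kp I).2 (kp J).1)

theorem kleinMat_apply (A : Matrix (Fin 4) (Fin 4) F) (I J : Fin 3 ⊕ Fin 3) :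
    kleinMat A I J = ks F I * ks F J *
    (A (kp I).1 (kp J).1 * A (kp I).2 (kp J).2 - A (kp I).1 (kp J).2 * A (kp I).2 (kp J).1) :=
  rfl

theorem kleinMat_mul (A B : Matrix (Fin 4) (Fin 4) F) :
    kleinMat (A * B) = kleinMat A * kleinMat B := by
  ext I J
  simp only [kleinMat_apply, Matrix.mul_apply, Fintype.sum_sum_type, Fin.sum_univ_three,
    Fin.sum_univ_four, kp_l0, kp_l1, kp_l2, kp_r0, kp_r1, kp_r2, ks_l0, ks_l1, ks_l2, ks_r0,
    ks_r1, ks_r2]
  generalize (kp I).1 = a
  generalize (kp I).2 = b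
  generalize (kp J).1 = c
  generalize (kp J).2 = d
  generalize ks F I = s
  generalize ks F J = t
  ring

theorem kleinMat_one : kleinMat (1 : Matrix (Fin 4) (Fin 4) F) = 1 := by
  ext I J
  rcases I with I | I <;> rcases J with J | J <;> fin_cases I <;> fin_cases J <;>
    simp [kleinMat_apply, kp, ks, Matrix.one_apply]

theorem kleinMat_smul (ε : F) (A : Matrix (Fin 4) (Fin 4) F) :
    kleinMat (ε • A) = (ε * ε) • kleinMat A := by
  ext I J
  simp only [kleinMat_apply, Matrix.smul_apply, smul_eq_mul]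
  ring

set_option maxHeartbeats 1000000 in
/-- The exterior square multiplies the Klein form by the determinant. -/
theorem kleinMat_isom (A : Matrix (Fin 4) (Fin 4) F) (v : Fin 3 ⊕ Fin 3 → F) :
    Cfsg.quadFormPlus 3 F (kleinMat A *ᵥ v) = A.det * Cfsg.quadFormPlus 3 F v := by
  simp only [Cfsg.quadFormPlus, Matrix.mulVec, dotProduct, kleinMat_apply, Fintype.sum_sum_type,
    Fin.sum_univ_three, kp_l0, kp_l1, kp_l2, kp_r0, kp_r1, kp_r2, ks_l0, ks_l1, ks_l2, ks_r0,
    ks_r1, ks_r2]
  rw [Matrix.det_succ_row_zero]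
  simp [Fin.sum_univ_succ, Matrix.det_fin_three, Fin.succAbove]
  ring

theorem ks_mul_self (I : Fin 3 ⊕ Fin 3) : ks F I * ks F I = 1 := by
  rcases I with I | I <;> fin_cases I <;> simp [ks]

theorem kp_surj : ∀ a b : Fin 4, a < b → ∃ I, kp I = (a, b) := by decide

theorem kp_inj : ∀ I J : Fin 3 ⊕ Fin 3, kp I = kp J → I = J := by decide

/-- A matrix whose exterior square is the identity is a scalar of square one. -/
theorem kleinMat_eq_one (g : Matrix (Fin 4) (Fin 4) F) (hK : kleinMat g = 1) :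
    ∃ ε : F, ε * ε = 1 ∧ g = ε • (1 : Matrix (Fin 4) (Fin 4) F) := by
  have H0 : ∀ I J : Fin 3 ⊕ Fin 3,
      g (kp I).1 (kp J).1 * g (kp I).2 (kp J).2 - g (kp I).1 (kp J).2 * g (kp I).2 (kp J).1
        = if I = J then 1 else 0 := by
    intro I J
    have h1 : kleinMat g I J = (1 : Matrix (Fin 3 ⊕ Fin 3) (Fin 3 ⊕ Fin 3) F) I J := by rw [hK]
    rw [kleinMat_apply, Matrix.one_apply] at h1
    have hI := ks_mul_self (F := F) I
    have hJ := ks_mul_self (F := F) J
    by_cases hIJ : I = J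
    · rw [if_pos hIJ] at h1 ⊢
      subst hIJ
      linear_combination h1 - (g (kp I).1 (kp I).1 * g (kp I).2 (kp I).2
        - g (kp I).1 (kp I).2 * g (kp I).2 (kp I).1) * hI
    · rw [if_neg hIJ] at h1 ⊢
      linear_combination (ks F I * ks F J) * h1 - (g (kp I).1 (kp J).1 * g (kp I).2 (kp J).2
        - g (kp I).1 (kp J).2 * g (kp I).2 (kp J).1) * (ks F J * ks F J) * hI
        - (g (kp I).1 (kp J).1 * g (kp I).2 (kp J).2
        - g (kp I).1 (kp J).2 * g (kp I).2 (kp J).1) * hJ
  have H1 : ∀ a b c d : Fin 4, a < b → c < d →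
      g a c * g b d - g a d * g b c = if a = c ∧ b = d then 1 else 0 := by
    intro a b c d hab hcd
    obtain ⟨I, hI⟩ := kp_surj a b hab
    obtain ⟨J, hJ⟩ := kp_surj c d hcd
    have h1 := H0 I J
    rw [hI, hJ] at h1
    rw [h1]
    by_cases hIJ : I = J
    · rw [if_pos hIJ, if_pos]
      rw [hIJ, hJ] at hI
      exact ⟨(congrArg Prod.fst hI).symm, (congrArg Prod.snd hI).symm⟩
    · rw [if_neg hIJ, if_neg]
      rintro ⟨h3, h4⟩
      apply hIJ
      apply kp_inj
      rw [hI, hJ, h3, h4]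
  -- unordered versions
  have H3 : ∀ a b : Fin 4, a ≠ b → g a a * g b b - g a b * g b a = 1 := by
    intro a b hab
    rcases lt_or_gt_of_ne hab with h | h
    · have := H1 a b a b h h
      rw [if_pos ⟨rfl, rfl⟩] at this
      exact this
    · have := H1 b a b a h h
      rw [if_pos ⟨rfl, rfl⟩] at this
      linear_combination this
  have H2 : ∀ a b c d : Fin 4, a ≠ b → c ≠ d → ¬ (a = c ∧ b = d) → ¬ (a = d ∧ b = c) →
      g a c * g b d - g a d * g b c = 0 := by
    intro a b c d hab hcd h1 h2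
    rcases lt_or_gt_of_ne hab with h | h
    · rcases lt_or_gt_of_ne hcd with h' | h'
      · have := H1 a b c d h h'
        rw [if_neg h1] at this
        exact this
      · have := H1 a b d c h h'
        rw [if_neg h2] at this
        linear_combination (-1 : F) * this
    · rcases lt_or_gt_of_ne hcd with h' | h'
      · have := H1 b a c d h h'
        rw [if_neg (fun hh => h2 ⟨hh.2, hh.1⟩)] at this
        linear_combination (-1 : F) * this
      · have := H1 b a d c h h'
        rw [if_neg (fun hh => h1 ⟨hh.2, hh.1⟩)] at this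
        linear_combination this
  have hthird : ∀ i k : Fin 4, ∃ j : Fin 4, j ≠ i ∧ j ≠ k := by decide
  have hoff : ∀ k i : Fin 4, k ≠ i → g k i = 0 := by
    intro k i hki
    obtain ⟨j, hji, hjk⟩ := hthird i k
    have e1 := H3 i j (Ne.symm hji)
    have e2 := H2 k j i j (Ne.symm hjk) (Ne.symm hji) (fun hh => hki hh.1) (fun hh => hjk hh.1.symm)
    have e3 := H2 k i i j hki (Ne.symm hji) (fun hh => hki hh.1) (fun hh => hjk hh.1.symm)
    linear_combination (-(g k i)) * e1 + (g i i) * e2 - (g j i) * e3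
  have hdiag : ∀ i j : Fin 4, i ≠ j → g i i * g j j = 1 := by
    intro i j hij
    have e1 := H3 i j hij
    rw [hoff i j hij] at e1
    linear_combination e1
  have heq : ∀ i j : Fin 4, g i i = g j j := by
    intro i j
    by_cases hij : i = j
    · rw [hij]
    · obtain ⟨k, hki, hkj⟩ := hthird i j
      have e1 := hdiag i k (Ne.symm hki)
      have e2 := hdiag j k (Ne.symm hkj)
      have hk0 : g k k ≠ 0 := by
        intro h0
        rw [h0, mul_zero] at e1
        exact zero_ne_one e1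
      have e3 : (g i i - g j j) * g k k = 0 := by linear_combination e1 - e2
      rcases mul_eq_zero.1 e3 with h | h
      · linear_combination h
      · exact absurd h hk0
  refine ⟨g 0 0, ?_, ?_⟩
  · have e1 := hdiag 0 1 (by decide)
    rw [← heq 0 1] at e1
    exact e1
  · ext a b
    rw [Matrix.smul_apply, Matrix.one_apply, smul_eq_mul]
    by_cases hab : a = b
    · rw [if_pos hab, mul_one, hab]
      exact heq b 0
    · rw [if_neg hab, mul_zero]
      exact hoff a b hab

end

end Cfsg.Agent.Helper5
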