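import Mathlib
import Cfsg.Agent.Helper5.AdjSL2
import Cfsg.Agent.Helper13.SL2Comm
import Cfsg.Agent.S0287

/-!
The action of `SL₂(F) × SL₂(F)` on the `2 × 2` matrices by `M ↦ g M adj(h)`, as isometries of
the determinant form `x₀y₀ + x₁y₁`, and the resulting isomorphism
`PΩ₄⁺(q) ≃ PSL₂(q) × PSL₂(q)` for `q ≥ 3`.
-/

set_option autoImplicit false

namespace Cfsg.Agent.Helper5

open scoped Matrix

section

variable {F : Type*} [Field F]

/-- The matrix of `M ↦ g M adj(h)` on the matrices `[[x₀, -x₁], [y₁, y₀]]`. -/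
def tensMat (g h : Matrix (Fin 2) (Fin 2) F) : Matrix (Fin 2 ⊕ Fin 2) (Fin 2 ⊕ Fin 2) F :=
  Matrix.fromBlocks
    !![g 0 0 * h 1 1, g 0 0 * h 1 0; g 0 0 * h 0 1, g 0 0 * h 0 0]
    !![-(g 0 1 * h 1 0), g 0 1 * h 1 1; -(g 0 1 * h 0 0), g 0 1 * h 0 1]
    !![-(g 1 0 * h 0 1), -(g 1 0 * h 0 0); g 1 0 * h 1 1, g 1 0 * h 1 0]
    !![g 1 1 * h 0 0, -(g 1 1 * h 0 1); -(g 1 1 * h 1 0), g 1 1 * h 1 1]

theorem tensMat_mul (g g' h h' : Matrix (Fin 2) (Fin 2) F) :
    tensMat (g * g') (h * h') = tensMat g h * tensMat g' h' := by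
  unfold tensMat
  rw [Matrix.fromBlocks_multiply]
  congr 1 <;>
  · ext i j
    fin_cases i <;> fin_cases j <;> simp [Matrix.mul_apply, Fin.sum_univ_two] <;> ring

theorem tensMat_one : tensMat (1 : Matrix (Fin 2) (Fin 2) F) 1 = 1 := by
  unfold tensMat
  rw [← Matrix.fromBlocks_one]
  congr 1 <;>
  · ext i j
    fin_cases i <;> fin_cases j <;> simp

theorem tensMat_isom (g h : Matrix (Fin 2) (Fin 2) F) (hg : g.det = 1) (hh : h.det = 1)
    (v : Fin 2 ⊕ Fin 2 → F) :
    Cfsg.quadFormPlus 2 F (tensMat g h *ᵥ v) = Cfsg.quadFormPlus 2 F v := by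
  rw [Matrix.det_fin_two] at hg hh
  simp [Cfsg.quadFormPlus, tensMat, Matrix.mulVec, dotProduct, Fin.sum_univ_two]
  linear_combination ((h 0 0 * h 1 1 - h 0 1 * h 1 0) * (v (Sum.inl 0) * v (Sum.inr 0)
    + v (Sum.inl 1) * v (Sum.inr 1))) * hg
    + (v (Sum.inl 0) * v (Sum.inr 0) + v (Sum.inl 1) * v (Sum.inr 1)) * hh

theorem tensMat_ll (g h : Matrix (Fin 2) (Fin 2) F) (i j : Fin 2) :
    tensMat g h (Sum.inl i) (Sum.inl j)
      = !![g 0 0 * h 1 1, g 0 0 * h 1 0; g 0 0 * h 0 1, g 0 0 * h 0 0] i j := rfl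

theorem tensMat_lr (g h : Matrix (Fin 2) (Fin 2) F) (i j : Fin 2) :
    tensMat g h (Sum.inl i) (Sum.inr j)
      = !![-(g 0 1 * h 1 0), g 0 1 * h 1 1; -(g 0 1 * h 0 0), g 0 1 * h 0 1] i j := rfl

theorem tensMat_rl (g h : Matrix (Fin 2) (Fin 2) F) (i j : Fin 2) :
    tensMat g h (Sum.inr i) (Sum.inl j)
      = !![-(g 1 0 * h 0 1), -(g 1 0 * h 0 0); g 1 0 * h 1 1, g 1 0 * h 1 0] i j := rfl

theorem tensMat_rr (g h : Matrix (Fin 2) (Fin 2) F) (i j : Fin 2) :
    tensMat g h (Sum.inr i) (Sum.inr j)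
      = !![g 1 1 * h 0 0, -(g 1 1 * h 0 1); -(g 1 1 * h 1 0), g 1 1 * h 1 1] i j := rfl

/-- The kernel: pairs of equal central elements. -/
theorem tensMat_eq_one (g h : Matrix.SpecialLinearGroup (Fin 2) F)
    (H : tensMat g.1 h.1 = 1) :
    g = h ∧ g ∈ Subgroup.center (Matrix.SpecialLinearGroup (Fin 2) F) := by
  have hdet := g.2
  rw [Matrix.det_fin_two] at hdet
  have e_as : g.1 0 0 * h.1 1 1 = 1 := by
    have e := congrFun (congrFun H (Sum.inl 0)) (Sum.inl 0)
    rw [tensMat_ll, Matrix.one_apply_eq] at e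
    exact e
  have e_ar : g.1 0 0 * h.1 1 0 = 0 := by
    have e := congrFun (congrFun H (Sum.inl 0)) (Sum.inl 1)
    rw [tensMat_ll, Matrix.one_apply_ne (by simp)] at e
    exact e
  have e_aq : g.1 0 0 * h.1 0 1 = 0 := by
    have e := congrFun (congrFun H (Sum.inl 1)) (Sum.inl 0)
    rw [tensMat_ll, Matrix.one_apply_ne (by simp)] at e
    exact e
  have e_ap : g.1 0 0 * h.1 0 0 = 1 := by
    have e := congrFun (congrFun H (Sum.inl 1)) (Sum.inl 1)
    rw [tensMat_ll, Matrix.one_apply_eq] at e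
    exact e
  have e_bs : g.1 0 1 * h.1 1 1 = 0 := by
    have e := congrFun (congrFun H (Sum.inl 0)) (Sum.inr 1)
    rw [tensMat_lr, Matrix.one_apply_ne (by simp)] at e
    exact e
  have e_cs : g.1 1 0 * h.1 1 1 = 0 := by
    have e := congrFun (congrFun H (Sum.inr 1)) (Sum.inl 0)
    rw [tensMat_rl, Matrix.one_apply_ne (by simp)] at e
    exact e
  have e_dp : g.1 1 1 * h.1 0 0 = 1 := by
    have e := congrFun (congrFun H (Sum.inr 0)) (Sum.inr 0)
    rw [tensMat_rr, Matrix.one_apply_eq] at e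
    exact e
  have e_ds : g.1 1 1 * h.1 1 1 = 1 := by
    have e := congrFun (congrFun H (Sum.inr 1)) (Sum.inr 1)
    rw [tensMat_rr, Matrix.one_apply_eq] at e
    exact e
  have ha : g.1 0 0 ≠ 0 := by
    intro h0
    rw [h0, zero_mul] at e_as
    exact zero_ne_one e_as
  have hs : h.1 1 1 ≠ 0 := by
    intro h0
    rw [h0, mul_zero] at e_as
    exact zero_ne_one e_as
  have hr : h.1 1 0 = 0 := (mul_eq_zero.1 e_ar).resolve_left ha
  have hq : h.1 0 1 = 0 := (mul_eq_zero.1 e_aq).resolve_left ha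
  have hb : g.1 0 1 = 0 := (mul_eq_zero.1 e_bs).resolve_right hs
  have hc : g.1 1 0 = 0 := (mul_eq_zero.1 e_cs).resolve_right hs
  have hda : g.1 1 1 = g.1 0 0 := by
    have h1 : (g.1 1 1 - g.1 0 0) * h.1 1 1 = 0 := by linear_combination e_ds - e_as
    rcases mul_eq_zero.1 h1 with h3 | h3
    · linear_combination h3
    · exact absurd h3 hs
  have haa : g.1 0 0 * g.1 0 0 = 1 := by
    linear_combination hdet - g.1 0 0 * hda + g.1 0 1 * hc
  have hpa : h.1 0 0 = g.1 0 0 := by
    linear_combination (g.1 0 0) * e_ap - (h.1 0 0) * haa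
  have hsa : h.1 1 1 = g.1 0 0 := by
    linear_combination (g.1 0 0) * e_as - (h.1 1 1) * haa
  refine ⟨?_, Cfsg.Agent.Helper13.mem_center_SL2_of_entries g (g.1 0 0)
    (mul_self_eq_one_iff.1 haa) rfl hb hc hda⟩
  apply Subtype.ext
  ext i j
  fin_cases i <;> fin_cases j
  · exact hpa.symm
  · exact hb.trans hq.symm
  · exact hc.trans hr.symm
  · exact hda.trans hsa.symm

theorem tensMat_of_center (g : Matrix.SpecialLinearGroup (Fin 2) F)
    (hg : g ∈ Subgroup.center (Matrix.SpecialLinearGroup (Fin 2) F)) :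
    tensMat g.1 g.1 = 1 := by
  obtain ⟨ε, hε, e00, e01, e10, e11⟩ := Cfsg.Agent.Helper13.entries_of_mem_center_SL2 hg
  have hεε : ε * ε = 1 := mul_self_eq_one_iff.2 hε
  unfold tensMat
  rw [← Matrix.fromBlocks_one]
  congr 1 <;>
  · ext i j
    fin_cases i <;> fin_cases j <;> simp [e00, e01, e10, e11, hεε]

/-- The action as a homomorphism into the isometry group. -/
noncomputable def tensHom (Q : QuadraticForm F (Fin 2 ⊕ Fin 2 → F))
    (hQ : ∀ v, Q v = Cfsg.quadFormPlus 2 F v) :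
    Matrix.SpecialLinearGroup (Fin 2) F × Matrix.SpecialLinearGroup (Fin 2) F →*
      ↥(Cfsg.isometryGroup F ⇑Q) where
  toFun x := ⟨⟨tensMat x.1.1 x.2.1, tensMat (x.1⁻¹).1 (x.2⁻¹).1,
      by rw [← tensMat_mul, ← Matrix.SpecialLinearGroup.coe_mul,
        ← Matrix.SpecialLinearGroup.coe_mul, mul_inv_cancel, mul_inv_cancel,
        Matrix.SpecialLinearGroup.coe_one, tensMat_one],
      by rw [← tensMat_mul, ← Matrix.SpecialLinearGroup.coe_mul,
        ← Matrix.SpecialLinearGroup.coe_mul, inv_mul_cancel, inv_mul_cancel,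
        Matrix.SpecialLinearGroup.coe_one, tensMat_one]⟩,
    by
      rw [Cfsg.Agent.Helper6.isometry_mem_iff]
      intro v
      rw [hQ, hQ]
      exact tensMat_isom x.1.1 x.2.1 x.1.2 x.2.2 v⟩
  map_one' := by
    apply Subtype.ext
    apply Units.ext
    exact tensMat_one
  map_mul' x y := by
    apply Subtype.ext
    apply Units.ext
    exact tensMat_mul x.1.1 y.1.1 x.2.1 y.2.1

theorem tensHom_coe (Q : QuadraticForm F (Fin 2 ⊕ Fin 2 → F))
    (hQ : ∀ v, Q v = Cfsg.quadFormPlus 2 F v)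
    (x : Matrix.SpecialLinearGroup (Fin 2) F × Matrix.SpecialLinearGroup (Fin 2) F) :
    (((tensHom Q hQ x : ↥(Cfsg.isometryGroup F ⇑Q)) :
      Matrix.GeneralLinearGroup (Fin 2 ⊕ Fin 2) F) :
      Matrix (Fin 2 ⊕ Fin 2) (Fin 2 ⊕ Fin 2) F) = tensMat x.1.1 x.2.1 := rfl

theorem tensHom_eq_one_iff (Q : QuadraticForm F (Fin 2 ⊕ Fin 2 → F))
    (hQ : ∀ v, Q v = Cfsg.quadFormPlus 2 F v)
    (x : Matrix.SpecialLinearGroup (Fin 2) F × Matrix.SpecialLinearGroup (Fin 2) F) :
    tensHom Q hQ x = 1 ↔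
      (x.1 = x.2 ∧ x.1 ∈ Subgroup.center (Matrix.SpecialLinearGroup (Fin 2) F)) := by
  constructor
  · intro hx
    apply tensMat_eq_one
    rw [← tensHom_coe Q hQ, hx]
    rfl
  · rintro ⟨h1, h2⟩
    apply Subtype.ext
    apply Units.ext
    rw [tensHom_coe, ← h1]
    exact tensMat_of_center x.1 h2

/-- In odd characteristic every homomorphism from `SL₂` to a Klein four-group is trivial. -/
theorem sl2_hom_klein_trivial (h2 : (2 : F) ≠ 0)
    (θ : Matrix.SpecialLinearGroup (Fin 2) F →* ℤˣ × ℤˣ)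
    (g : Matrix.SpecialLinearGroup (Fin 2) F) : θ g = 1 := by
  refine Cfsg.Agent.Helper2.transvection_induction (fun g => θ g = 1) ?_ ?_ g
  · intro i j hij c
    have hc : Matrix.SpecialLinearGroup.transvection hij c
        = Matrix.SpecialLinearGroup.transvection hij (c * 2⁻¹)
          * Matrix.SpecialLinearGroup.transvection hij (c * 2⁻¹) := by
      apply Subtype.ext
      change Matrix.transvection i j c
        = Matrix.transvection i j (c * 2⁻¹) * Matrix.transvection i j (c * 2⁻¹)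
      rw [Matrix.transvection_mul_transvection_same i j hij]
      congr 1
      linear_combination (-c) * (mul_inv_cancel₀ h2)
    change θ (Matrix.SpecialLinearGroup.transvection hij c) = 1
    rw [hc, map_mul]
    exact Prod.ext (Int.units_mul_self _) (Int.units_mul_self _)
  · intro A B hA hB
    rw [map_mul, hA, hB, mul_one]

theorem tens_img_aux {A : Type*} [CommGroup A] (Q : QuadraticForm F (Fin 2 ⊕ Fin 2 → F))
    (hQ : ∀ v, Q v = Cfsg.quadFormPlus 2 F v)
    (Θ : ↥(Cfsg.isometryGroup F ⇑Q) →* A)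
    (hΘ : Θ.ker = commutator ↥(Cfsg.isometryGroup F ⇑Q))
    (hA : ∀ (θ : Matrix.SpecialLinearGroup (Fin 2) F →* A)
      (g : Matrix.SpecialLinearGroup (Fin 2) F), θ g = 1)
    (x : Matrix.SpecialLinearGroup (Fin 2) F × Matrix.SpecialLinearGroup (Fin 2) F) :
    tensHom Q hQ x ∈ commutator ↥(Cfsg.isometryGroup F ⇑Q) := by
  have hsplit : tensHom Q hQ x = tensHom Q hQ (x.1, 1) * tensHom Q hQ (1, x.2) := by
    rw [← map_mul]
    congr 1
    apply Prod.ext
    · exact (mul_one _).symm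
    · exact (one_mul _).symm
  have e1 := hA ((Θ.comp (tensHom Q hQ)).comp (MonoidHom.inl _ _)) x.1
  have e2 := hA ((Θ.comp (tensHom Q hQ)).comp (MonoidHom.inr _ _)) x.2
  rw [MonoidHom.comp_apply, MonoidHom.comp_apply, MonoidHom.inl_apply] at e1
  rw [MonoidHom.comp_apply, MonoidHom.comp_apply, MonoidHom.inr_apply] at e2
  rw [← hΘ, MonoidHom.mem_ker, hsplit, map_mul, e1, e2, mul_one]

theorem exists_ne_zero_sq_ne_one [Fintype F] (h : 4 ≤ Fintype.card F) :
    ∃ a : F, a ≠ 0 ∧ a ^ 2 ≠ 1 := by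
  classical
  by_contra hcon
  push Not at hcon
  have hsub : (Finset.univ : Finset F) ⊆ {0, 1, -1} := by
    intro a _
    by_cases ha : a = 0
    · simp [ha]
    · have h1 := hcon a ha
      have h2 : (a - 1) * (a + 1) = 0 := by linear_combination h1
      rcases mul_eq_zero.mp h2 with h3 | h3
      · have : a = 1 := by linear_combination h3
        simp [this]
      · have : a = -1 := by linear_combination h3
        simp [this]
  have := Finset.card_le_card hsub
  rw [Finset.card_univ] at this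
  have h3 : ({0, 1, -1} : Finset F).card ≤ 3 := Finset.card_le_three
  omega

/-- A subgroup of index two contains the commutator subgroup. -/
theorem commutator_le_of_index_two {G : Type*} [Group G] (R : Subgroup G) (hR : R.index = 2) :
    commutator G ≤ R := by
  rw [commutator_eq_closure, Subgroup.closure_le]
  rintro _ ⟨a, b, rfl⟩
  rw [commutatorElement_def]
  have h1 : a * b * a⁻¹ * b⁻¹ = (a * b) * (a⁻¹ * b⁻¹) := by group
  rw [SetLike.mem_coe, h1, Subgroup.mul_mem_iff_of_index_two hR,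
    Subgroup.mul_mem_iff_of_index_two hR, Subgroup.mul_mem_iff_of_index_two hR,
    inv_mem_iff, inv_mem_iff]

/-- `PΩ₄⁺(q) ≃ PSL₂(q) × PSL₂(q)` for `q ≥ 3`. -/
theorem pomega4_iso [Fintype F] (hF : 3 ≤ Fintype.card F)
    (Q : QuadraticForm F (Fin 2 ⊕ Fin 2 → F))
    (hQ : ∀ v, Q v = Cfsg.quadFormPlus 2 F v)
    (hnd : (QuadraticMap.polarBilin Q).Nondegenerate) :
    Nonempty (Cfsg.POmega F ⇑Q ≃* Matrix.ProjectiveSpecialLinearGroup (Fin 2) F
      × Matrix.ProjectiveSpecialLinearGroup (Fin 2) F) := by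
  classical
  have hkc : Nat.card ↥(tensHom Q hQ).ker
      = Nat.card ↥(Subgroup.center (Matrix.SpecialLinearGroup (Fin 2) F)) :=
    Nat.card_congr
      { toFun := fun k => ⟨k.1.1,
          ((tensHom_eq_one_iff Q hQ k.1).1 (MonoidHom.mem_ker.1 k.2)).2⟩
        invFun := fun z => ⟨(z.1, z.1),
          MonoidHom.mem_ker.2 ((tensHom_eq_one_iff Q hQ _).2 ⟨rfl, z.2⟩)⟩
        left_inv := fun k => by
          apply Subtype.ext
          apply Prod.ext
          · rfl
          · exact ((tensHom_eq_one_iff Q hQ k.1).1 (MonoidHom.mem_ker.1 k.2)).1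
        right_inv := fun z => rfl }
  have h3 := Subgroup.card_eq_card_quotient_mul_card_subgroup (tensHom Q hQ).ker
  have h5 := Nat.card_congr (QuotientGroup.quotientKerEquivRange (tensHom Q hQ)).toEquiv
  rw [h5, hkc, Nat.card_prod, Cfsg.Agent.S2301.card_SL2] at h3
  have hO := Cfsg.Agent.S0287.result (F := F) rfl 2 (by norm_num)
  have hQeq : Cfsg.quadFormPlus 2 F = ⇑Q := funext (fun v => (hQ v).symm)
  rw [hQeq] at hO
  have hO' : Nat.card ↥(Cfsg.isometryGroup F ⇑Q) = 2 * (Fintype.card F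
      * (Fintype.card F ^ 2 - 1) * (Fintype.card F * (Fintype.card F ^ 2 - 1))) := by
    rw [hO]
    norm_num [Finset.prod_range_one]
    ring
  have hrange : (tensHom Q hQ).range = commutator ↥(Cfsg.isometryGroup F ⇑Q) := by
    by_cases hodd : Odd (Fintype.card F)
    · have h2 : (2 : F) ≠ 0 := two_ne_zero_of_odd hodd
      obtain ⟨Ψ, hΨs, hΨk⟩ := omega_charK h2 (Sum.inl 0 : Fin 2 ⊕ Fin 2) (Sum.inr 0)
        (by simp) Q hnd
      have hle : (tensHom Q hQ).range ≤ commutator ↥(Cfsg.isometryGroup F ⇑Q) := by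
        rintro _ ⟨x, rfl⟩
        exact tens_img_aux Q hQ Ψ hΨk (sl2_hom_klein_trivial h2) x
      apply Subgroup.eq_of_le_of_card_ge hle
      have hidx : (commutator ↥(Cfsg.isometryGroup F ⇑Q)).index = 4 := by
        rw [← hΨk, Subgroup.index_ker, MonoidHom.range_eq_top.2 hΨs, Subgroup.card_top,
          Nat.card_prod, Nat.card_eq_fintype_card, Fintype.card_units_int]
      have h1 := Subgroup.card_mul_index (commutator ↥(Cfsg.isometryGroup F ⇑Q))
      rw [hidx, hO'] at h1
      rw [Cfsg.Agent.Helper13.card_center_SL2_of_odd hodd] at h3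
      generalize Fintype.card F * (Fintype.card F ^ 2 - 1)
        * (Fintype.card F * (Fintype.card F ^ 2 - 1)) = V at h1 h3
      omega
    · have h4 : 4 ≤ Fintype.card F := by
        rcases Nat.even_or_odd (Fintype.card F) with ⟨k, hk⟩ | h
        · omega
        · exact absurd h hodd
      have hchar : CharP F 2 :=
        ringChar.of_eq (FiniteField.even_card_iff_char_two.2 (Nat.not_odd_iff.1 hodd))
      obtain ⟨a, ha, ha2⟩ := exists_ne_zero_sq_ne_one h4
      have hperf : commutator (Matrix.SpecialLinearGroup (Fin 2) F) = ⊤ :=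
        Matrix.SL2.commutator_eq_top ha ha2
      have hab : ∀ (θ : Matrix.SpecialLinearGroup (Fin 2) F →*
          Abelianization ↥(Cfsg.isometryGroup F ⇑Q))
          (g : Matrix.SpecialLinearGroup (Fin 2) F), θ g = 1 := by
        intro θ g
        have h6 := Abelianization.commutator_subset_ker θ
        rw [hperf] at h6
        exact MonoidHom.mem_ker.1 (h6 (Subgroup.mem_top g))
      have hle : (tensHom Q hQ).range ≤ commutator ↥(Cfsg.isometryGroup F ⇑Q) := by
        rintro _ ⟨x, rfl⟩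
        exact tens_img_aux Q hQ Abelianization.of (Abelianization.ker_of _) hab x
      apply le_antisymm hle
      apply commutator_le_of_index_two
      have hc1 : Nat.card ↥(Subgroup.center (Matrix.SpecialLinearGroup (Fin 2) F)) = 1 := by
        have hbot : Subgroup.center (Matrix.SpecialLinearGroup (Fin 2) F) = ⊥ := by
          rw [Subgroup.eq_bot_iff_forall]
          intro z hz
          exact Cfsg.Agent.Helper13.center_SL2_trivial_of_charTwo hz
        rw [hbot]
        exact Subgroup.card_bot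
      rw [hc1, mul_one] at h3
      have h1 := Subgroup.card_mul_index (tensHom Q hQ).range
      rw [hO', h3] at h1
      have hpos : 0 < Nat.card ↥(tensHom Q hQ).range := Nat.card_pos
      exact Nat.eq_of_mul_eq_mul_left hpos (h1.trans (mul_comm _ _))
  have himg : ∀ x, tensHom Q hQ x ∈ commutator ↥(Cfsg.isometryGroup F ⇑Q) := by
    intro x
    rw [← hrange]
    exact ⟨x, rfl⟩
  obtain ⟨f, hf⟩ : ∃ f : Matrix.SpecialLinearGroup (Fin 2) F
      × Matrix.SpecialLinearGroup (Fin 2) F →* ↥(commutator ↥(Cfsg.isometryGroup F ⇑Q)),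
      ∀ x, (f x : ↥(Cfsg.isometryGroup F ⇑Q)) = tensHom Q hQ x :=
    ⟨(tensHom Q hQ).codRestrict _ himg, fun _ => rfl⟩
  have hsurj : Function.Surjective f := by
    intro ω
    have h6 : (ω : ↥(Cfsg.isometryGroup F ⇑Q)) ∈ (tensHom Q hQ).range := by
      rw [hrange]
      exact ω.2
    obtain ⟨x, hx⟩ := h6
    exact ⟨x, Subtype.ext ((hf x).trans hx)⟩
  have hf1 : ∀ x, f x = 1 ↔ (x.1 = x.2
      ∧ x.1 ∈ Subgroup.center (Matrix.SpecialLinearGroup (Fin 2) F)) := by
    intro x
    rw [← tensHom_eq_one_iff Q hQ]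
    constructor
    · intro h
      rw [← hf, h]
      rfl
    · intro h
      apply Subtype.ext
      rw [hf, h]
      rfl
  apply center_quot_iso f hsurj ((QuotientGroup.mk' (Subgroup.center
    (Matrix.SpecialLinearGroup (Fin 2) F))).prodMap (QuotientGroup.mk' (Subgroup.center
    (Matrix.SpecialLinearGroup (Fin 2) F))))
    (by
      rw [MonoidHom.coe_prodMap]
      exact Function.Surjective.prodMap (QuotientGroup.mk'_surjective _)
        (QuotientGroup.mk'_surjective _))
  intro x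
  rw [Prod.ext_iff]
  change f x ∈ _ ↔ ((x.1 : Matrix.ProjectiveSpecialLinearGroup (Fin 2) F) = 1
    ∧ (x.2 : Matrix.ProjectiveSpecialLinearGroup (Fin 2) F) = 1)
  rw [QuotientGroup.eq_one_iff, QuotientGroup.eq_one_iff]
  constructor
  · intro hx
    have key : ∀ y, f (x * y * (y * x)⁻¹) = 1 := by
      intro y
      rw [map_mul, map_inv, map_mul, map_mul, Subgroup.mem_center_iff.1 hx (f y),
        mul_inv_cancel]
    constructor
    · rw [Subgroup.mem_center_iff]
      intro g'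
      have h1 := ((hf1 _).1 (key (g', 1))).1
      have h7 : x.1 * g' * (g' * x.1)⁻¹ = x.2 * 1 * (1 * x.2)⁻¹ := h1
      rw [mul_one, one_mul, mul_inv_cancel] at h7
      exact (mul_inv_eq_one.1 h7).symm
    · rw [Subgroup.mem_center_iff]
      intro h'
      have h1 := ((hf1 _).1 (key (1, h'))).1
      have h7 : x.1 * 1 * (1 * x.1)⁻¹ = x.2 * h' * (h' * x.2)⁻¹ := h1
      rw [mul_one, one_mul, mul_inv_cancel] at h7
      exact (mul_inv_eq_one.1 h7.symm).symm
  · rintro ⟨h1, h2⟩
    rw [Subgroup.mem_center_iff]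
    intro ω
    obtain ⟨y, rfl⟩ := hsurj ω
    rw [← map_mul, ← map_mul]
    congr 1
    apply Prod.ext
    · exact Subgroup.mem_center_iff.1 h1 y.1
    · exact Subgroup.mem_center_iff.1 h2 y.2

end

end Cfsg.Agent.Helper5
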