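import Mathlib
import Cfsg.Agent.Helper5.Klein
import Cfsg.Agent.Helper5.TensSL2
import Cfsg.Agent.S0242

/-!
The Klein correspondence as a homomorphism `SL₄(F) → O₆⁺(F)` and the resulting isomorphism
`PΩ₆⁺(q) ≃ PSL₄(q)`.
-/

set_option autoImplicit false

namespace Cfsg.Agent.Helper5

open scoped Matrix

section

variable {F : Type*} [Field F]

theorem sl_transvection_halve {ι : Type*} [Fintype ι] [DecidableEq ι] (h2 : (2 : F) ≠ 0)
    {i j : ι} (hij : i ≠ j) (c : F) :
    Matrix.SpecialLinearGroup.transvection hij c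
      = Matrix.SpecialLinearGroup.transvection hij (c * 2⁻¹)
        * Matrix.SpecialLinearGroup.transvection hij (c * 2⁻¹) := by
  apply Subtype.ext
  change Matrix.transvection i j c
    = Matrix.transvection i j (c * 2⁻¹) * Matrix.transvection i j (c * 2⁻¹)
  rw [Matrix.transvection_mul_transvection_same i j hij]
  congr 1
  linear_combination (-c) * (mul_inv_cancel₀ h2)

/-- The Klein correspondence as a homomorphism into the isometry group. -/
noncomputable def kleinHom (Q : QuadraticForm F (Fin 3 ⊕ Fin 3 → F))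
    (hQ : ∀ v, Q v = Cfsg.quadFormPlus 3 F v) :
    Matrix.SpecialLinearGroup (Fin 4) F →* ↥(Cfsg.isometryGroup F ⇑Q) where
  toFun g := ⟨⟨kleinMat g.1, kleinMat (g⁻¹).1,
      by rw [← kleinMat_mul, ← Matrix.SpecialLinearGroup.coe_mul, mul_inv_cancel,
        Matrix.SpecialLinearGroup.coe_one, kleinMat_one],
      by rw [← kleinMat_mul, ← Matrix.SpecialLinearGroup.coe_mul, inv_mul_cancel,
        Matrix.SpecialLinearGroup.coe_one, kleinMat_one]⟩,
    by
      rw [Cfsg.Agent.Helper6.isometry_mem_iff]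
      intro v
      rw [hQ, hQ]
      change Cfsg.quadFormPlus 3 F (kleinMat g.1 *ᵥ v) = _
      rw [kleinMat_isom, g.2, one_mul]⟩
  map_one' := by
    apply Subtype.ext
    apply Units.ext
    exact kleinMat_one
  map_mul' g h := by
    apply Subtype.ext
    apply Units.ext
    exact kleinMat_mul g.1 h.1

theorem kleinHom_coe (Q : QuadraticForm F (Fin 3 ⊕ Fin 3 → F))
    (hQ : ∀ v, Q v = Cfsg.quadFormPlus 3 F v) (g : Matrix.SpecialLinearGroup (Fin 4) F) :
    (((kleinHom Q hQ g : ↥(Cfsg.isometryGroup F ⇑Q)) :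
      Matrix.GeneralLinearGroup (Fin 3 ⊕ Fin 3) F) :
      Matrix (Fin 3 ⊕ Fin 3) (Fin 3 ⊕ Fin 3) F) = kleinMat g.1 := rfl

theorem kleinHom_eq_one_iff (Q : QuadraticForm F (Fin 3 ⊕ Fin 3 → F))
    (hQ : ∀ v, Q v = Cfsg.quadFormPlus 3 F v) (g : Matrix.SpecialLinearGroup (Fin 4) F) :
    kleinHom Q hQ g = 1 ↔ ∃ ε : F, ε * ε = 1 ∧ g.1 = ε • (1 : Matrix (Fin 4) (Fin 4) F) := by
  constructor
  · intro hg
    apply kleinMat_eq_one
    rw [← kleinHom_coe Q hQ, hg]
    rfl
  · rintro ⟨ε, hε, hg⟩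
    apply Subtype.ext
    apply Units.ext
    rw [kleinHom_coe, hg, kleinMat_smul, hε, one_smul, kleinMat_one]
    rfl

theorem exists_sl4_negOne : ∃ z : Matrix.SpecialLinearGroup (Fin 4) F,
    z.1 = (-1 : F) • (1 : Matrix (Fin 4) (Fin 4) F) :=
  ⟨⟨(-1 : F) • 1, by rw [Matrix.det_smul, Matrix.det_one, Fintype.card_fin]; norm_num⟩, rfl⟩

theorem kleinHom_ker_card_odd (h2 : (2 : F) ≠ 0) (Q : QuadraticForm F (Fin 3 ⊕ Fin 3 → F))
    (hQ : ∀ v, Q v = Cfsg.quadFormPlus 3 F v) : Nat.card ↥(kleinHom Q hQ).ker = 2 := by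
  rw [Nat.card_eq_two_iff]
  obtain ⟨z, hz⟩ := exists_sl4_negOne (F := F)
  have hzker : z ∈ (kleinHom Q hQ).ker :=
    MonoidHom.mem_ker.2 ((kleinHom_eq_one_iff Q hQ z).2 ⟨-1, by ring, hz⟩)
  refine ⟨1, ⟨z, hzker⟩, ?_, ?_⟩
  · intro h
    have h3 := congrArg (fun k : ↥(kleinHom Q hQ).ker => k.1.1 0 0) h
    have h4 : (1 : F) = -1 := by simpa [hz] using h3
    apply h2
    linear_combination h4
  · ext k
    simp only [Set.mem_insert_iff, Set.mem_singleton_iff, Set.mem_univ, iff_true]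
    obtain ⟨ε, hε, hk⟩ := (kleinHom_eq_one_iff Q hQ k.1).1 (MonoidHom.mem_ker.1 k.2)
    rcases mul_self_eq_one_iff.1 hε with h | h
    · left
      apply Subtype.ext
      apply Subtype.ext
      rw [hk, h, one_smul]
      rfl
    · right
      apply Subtype.ext
      apply Subtype.ext
      rw [hk, h, hz]

theorem kleinHom_ker_card_even (h2 : (2 : F) = 0) (Q : QuadraticForm F (Fin 3 ⊕ Fin 3 → F))
    (hQ : ∀ v, Q v = Cfsg.quadFormPlus 3 F v) : Nat.card ↥(kleinHom Q hQ).ker = 1 := by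
  have hbot : (kleinHom Q hQ).ker = ⊥ := by
    rw [Subgroup.eq_bot_iff_forall]
    intro k hk
    obtain ⟨ε, hε, hk'⟩ := (kleinHom_eq_one_iff Q hQ k).1 (MonoidHom.mem_ker.1 hk)
    have hε1 : ε = 1 := by
      rcases mul_self_eq_one_iff.1 hε with h | h
      · exact h
      · rw [h]
        linear_combination (-1 : F) * h2
    apply Subtype.ext
    rw [hk', hε1, one_smul]
    rfl
  rw [hbot]
  exact Subgroup.card_bot

/-- `PΩ₆⁺(q) ≃ PSL₄(q)`. -/
theorem pomega6_iso [Fintype F] (Q : QuadraticForm F (Fin 3 ⊕ Fin 3 → F))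
    (hQ : ∀ v, Q v = Cfsg.quadFormPlus 3 F v)
    (hnd : (QuadraticMap.polarBilin Q).Nondegenerate) :
    Nonempty (Cfsg.POmega F ⇑Q ≃* Matrix.ProjectiveSpecialLinearGroup (Fin 4) F) := by
  classical
  have hq2 : 2 ≤ Fintype.card F := Fintype.one_lt_card
  have hO := Cfsg.Agent.S0287.result (F := F) rfl 3 (by norm_num)
  have hQeq : Cfsg.quadFormPlus 3 F = ⇑Q := funext (fun v => (hQ v).symm)
  rw [hQeq] at hO
  have hSL := Cfsg.Agent.S0242.result (F := F) rfl 4 (by norm_num)
  have hOSL : Nat.card ↥(Cfsg.isometryGroup F ⇑Q)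
      = 2 * Nat.card (Matrix.SpecialLinearGroup (Fin 4) F) := by
    apply Nat.eq_of_mul_eq_mul_left (show 0 < Fintype.card F - 1 by omega)
    have e : (Fintype.card F - 1) * (2 * Nat.card (Matrix.SpecialLinearGroup (Fin 4) F))
        = 2 * ((Fintype.card F - 1) * Nat.card (Matrix.SpecialLinearGroup (Fin 4) F)) := by
      ring
    rw [e, hSL, hO]
    norm_num [Fin.prod_univ_four, Finset.prod_range_succ]
    generalize Fintype.card F = q
    have e1 : q ^ 4 - q = q * (q ^ 3 - 1) := by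
      rw [Nat.mul_sub_one]
      ring_nf
    have e2 : q ^ 4 - q ^ 2 = q ^ 2 * (q ^ 2 - 1) := by
      rw [Nat.mul_sub_one]
      ring_nf
    have e3 : q ^ 4 - q ^ 3 = q ^ 3 * (q - 1) := by
      rw [Nat.mul_sub_one]
      ring_nf
    rw [e1, e2, e3]
    ring
  have h3 := Subgroup.card_eq_card_quotient_mul_card_subgroup (kleinHom Q hQ).ker
  have h5 := Nat.card_congr (QuotientGroup.quotientKerEquivRange (kleinHom Q hQ)).toEquiv
  rw [h5] at h3
  have hperf : commutator (Matrix.SpecialLinearGroup (Fin 4) F) = ⊤ :=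
    Cfsg.Agent.Helper2.SL_commutator_eq_top (by rw [Fintype.card_fin]; norm_num)
  have hle : (kleinHom Q hQ).range ≤ commutator ↥(Cfsg.isometryGroup F ⇑Q) := by
    rintro _ ⟨x, rfl⟩
    rw [← Abelianization.ker_of, MonoidHom.mem_ker]
    have h6 := Abelianization.commutator_subset_ker ((Abelianization.of).comp (kleinHom Q hQ))
    rw [hperf] at h6
    exact MonoidHom.mem_ker.1 (h6 (Subgroup.mem_top x))
  have hrange : (kleinHom Q hQ).range = commutator ↥(Cfsg.isometryGroup F ⇑Q) := by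
    by_cases hodd : Odd (Fintype.card F)
    · have h2 : (2 : F) ≠ 0 := two_ne_zero_of_odd hodd
      obtain ⟨Ψ, hΨs, hΨk⟩ := omega_charK h2 (Sum.inl 0 : Fin 3 ⊕ Fin 3) (Sum.inr 0)
        (by simp) Q hnd
      apply Subgroup.eq_of_le_of_card_ge hle
      have hidx : (commutator ↥(Cfsg.isometryGroup F ⇑Q)).index = 4 := by
        rw [← hΨk, Subgroup.index_ker, MonoidHom.range_eq_top.2 hΨs, Subgroup.card_top,
          Nat.card_prod, Nat.card_eq_fintype_card, Fintype.card_units_int]
      have h1 := Subgroup.card_mul_index (commutator ↥(Cfsg.isometryGroup F ⇑Q))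
      rw [hidx, hOSL, h3, kleinHom_ker_card_odd h2 Q hQ] at h1
      omega
    · have hchar : CharP F 2 :=
        ringChar.of_eq (FiniteField.even_card_iff_char_two.2 (Nat.not_odd_iff.1 hodd))
      have h2 : (2 : F) = 0 := CharTwo.two_eq_zero
      apply le_antisymm hle
      apply commutator_le_of_index_two
      rw [kleinHom_ker_card_even h2 Q hQ, mul_one] at h3
      have h1 := Subgroup.card_mul_index (kleinHom Q hQ).range
      rw [hOSL, h3] at h1
      have hpos : 0 < Nat.card ↥(kleinHom Q hQ).range := Nat.card_pos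
      exact Nat.eq_of_mul_eq_mul_left hpos (h1.trans (mul_comm _ _))
  have himg : ∀ x, kleinHom Q hQ x ∈ commutator ↥(Cfsg.isometryGroup F ⇑Q) := by
    intro x
    rw [← hrange]
    exact ⟨x, rfl⟩
  obtain ⟨f, hf⟩ : ∃ f : Matrix.SpecialLinearGroup (Fin 4) F →*
      ↥(commutator ↥(Cfsg.isometryGroup F ⇑Q)),
      ∀ x, (f x : ↥(Cfsg.isometryGroup F ⇑Q)) = kleinHom Q hQ x :=
    ⟨(kleinHom Q hQ).codRestrict _ himg, fun _ => rfl⟩
  have hsurj : Function.Surjective f := by
    intro ω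
    have h6 : (ω : ↥(Cfsg.isometryGroup F ⇑Q)) ∈ (kleinHom Q hQ).range := by
      rw [hrange]
      exact ω.2
    obtain ⟨x, hx⟩ := h6
    exact ⟨x, Subtype.ext ((hf x).trans hx)⟩
  have hf1 : ∀ x, f x = 1 ↔ ∃ ε : F, ε * ε = 1
      ∧ x.1 = ε • (1 : Matrix (Fin 4) (Fin 4) F) := by
    intro x
    rw [← kleinHom_eq_one_iff Q hQ]
    constructor
    · intro h
      rw [← hf, h]
      rfl
    · intro h
      apply Subtype.ext
      rw [hf, h]
      rfl
  apply center_quot_iso f hsurj (QuotientGroup.mk' (Subgroup.center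
    (Matrix.SpecialLinearGroup (Fin 4) F))) (QuotientGroup.mk'_surjective _)
  intro g
  rw [QuotientGroup.mk'_apply, QuotientGroup.eq_one_iff]
  constructor
  · intro hg
    have key : ∀ h : Matrix.SpecialLinearGroup (Fin 4) F, ∃ ε : F, ε * ε = 1
        ∧ g.1 * h.1 = ε • (h.1 * g.1) := by
      intro h
      have h1 : f (g * h * (h * g)⁻¹) = 1 := by
        rw [map_mul, map_inv, map_mul, map_mul, Subgroup.mem_center_iff.1 hg (f h),
          mul_inv_cancel]
      obtain ⟨ε, hε, he⟩ := (hf1 _).1 h1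
      refine ⟨ε, hε, ?_⟩
      have h7 : g * h = g * h * (h * g)⁻¹ * (h * g) := by rw [inv_mul_cancel_right]
      have h8 : g.1 * h.1 = (g * h * (h * g)⁻¹).1 * (h.1 * g.1) :=
        congrArg (fun x : Matrix.SpecialLinearGroup (Fin 4) F => x.1) h7
      rw [he, Matrix.smul_mul, Matrix.one_mul] at h8
      exact h8
    have hsq : ∀ h : Matrix.SpecialLinearGroup (Fin 4) F, g * (h * h) = (h * h) * g := by
      intro h
      obtain ⟨ε, hε, he⟩ := key h
      apply Subtype.ext
      change g.1 * (h.1 * h.1) = (h.1 * h.1) * g.1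
      calc g.1 * (h.1 * h.1) = (g.1 * h.1) * h.1 := (Matrix.mul_assoc _ _ _).symm
        _ = (ε • (h.1 * g.1)) * h.1 := by rw [he]
        _ = ε • (h.1 * (g.1 * h.1)) := by rw [Matrix.smul_mul, Matrix.mul_assoc]
        _ = ε • (h.1 * (ε • (h.1 * g.1))) := by rw [he]
        _ = (ε * ε) • (h.1 * h.1 * g.1) := by
          rw [Matrix.mul_smul, smul_smul, Matrix.mul_assoc]
        _ = h.1 * h.1 * g.1 := by rw [hε, one_smul]
    have hcomm : ∀ (i j : Fin 4) (hij : i ≠ j) (c : F),
        g * Matrix.SpecialLinearGroup.transvection hij c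
          = Matrix.SpecialLinearGroup.transvection hij c * g := by
      intro i j hij c
      by_cases h2 : (2 : F) = 0
      · obtain ⟨ε, hε, he⟩ := key (Matrix.SpecialLinearGroup.transvection hij c)
        have hε1 : ε = 1 := by
          rcases mul_self_eq_one_iff.1 hε with h | h
          · exact h
          · rw [h]
            linear_combination (-1 : F) * h2
        rw [hε1, one_smul] at he
        exact Subtype.ext he
      · rw [sl_transvection_halve h2 hij c]
        exact hsq _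
    rw [Subgroup.mem_center_iff]
    intro h
    refine Cfsg.Agent.Helper2.transvection_induction (fun h => h * g = g * h) ?_ ?_ h
    · intro i j hij c
      exact (hcomm i j hij c).symm
    · intro A B hA hB
      rw [mul_assoc, hB, ← mul_assoc, hA, mul_assoc]
  · intro hg
    rw [Subgroup.mem_center_iff]
    intro ω
    obtain ⟨y, rfl⟩ := hsurj ω
    rw [← map_mul, ← map_mul, Subgroup.mem_center_iff.1 hg y]

end

end Cfsg.Agent.Helper5
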