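import Mathlib
import Cfsg.Agent.Helper5.Klein
import Cfsg.Agent.Helper5.TensSL2
import Cfsg.Agent.Helper5.OmegaCharK
import Cfsg.Agent.S0288
import Cfsg.Agent.Helper6.Quad
import Cfsg.Agent.Helper15.HermStd
import Cfsg.Agent.Helper15.PSU3
import Cfsg.Agent.Helper15.SUCard
import Cfsg.Agent.Helper15.NormFiber

/-!
The Klein correspondence restricted to the unitary group: a homomorphism `SU₄(q) → O₆⁻(q)` and
the resulting isomorphism `PΩ₆⁻(q) ≃ PSU₄(q)`.
-/

set_option autoImplicit false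

namespace Cfsg.Agent.Helper5

open scoped Matrix

section Gen

variable {K : Type*} [Field K]

theorem mulVec_single_gen {ι : Type*} [Fintype ι] [DecidableEq ι]
    (M : Matrix ι ι K) (i k : ι) : (M *ᵥ (Pi.single i 1 : ι → K)) k = M k i := by
  show ∑ j, M k j * (Pi.single i (1 : K) : ι → K) j = M k i
  rw [Finset.sum_eq_single i]
  · rw [Pi.single_eq_same, mul_one]
  · intro j _ hne
    rw [Pi.single_eq_of_ne hne, mul_zero]
  · intro h
    exact absurd (Finset.mem_univ i) h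

theorem single_dot_gen {ι : Type*} [Fintype ι] [DecidableEq ι]
    (i : ι) (u : ι → K) : (Pi.single i 1 : ι → K) ⬝ᵥ u = u i := by
  show ∑ j, (Pi.single i (1 : K) : ι → K) j * u j = u i
  rw [Finset.sum_eq_single i]
  · rw [Pi.single_eq_same, one_mul]
  · intro j _ hne
    rw [Pi.single_eq_of_ne hne, zero_mul]
  · intro h
    exact absurd (Finset.mem_univ i) h

theorem kleinMat_transpose (A : Matrix (Fin 4) (Fin 4) K) :
    kleinMat Aᵀ = (kleinMat A)ᵀ := by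
  ext I J
  simp only [kleinMat_apply, Matrix.transpose_apply]
  ring

theorem kleinMat_map (φ : K →+* K) (A : Matrix (Fin 4) (Fin 4) K) :
    kleinMat (A.map φ) = (kleinMat A).map φ := by
  have hs : ∀ I : Fin 3 ⊕ Fin 3, φ (ks K I) = ks K I := by
    intro I
    rcases I with I | I <;> fin_cases I <;> simp [ks]
  ext I J
  simp only [kleinMat_apply, Matrix.map_apply, map_mul, map_sub, hs]

/-- Swap of the two halves of the coordinates. -/
def kS (v : Fin 3 ⊕ Fin 3 → K) (I : Fin 3 ⊕ Fin 3) : K := v (Sum.swap I)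

theorem plus3_polar (v w : Fin 3 ⊕ Fin 3 → K) :
    Cfsg.quadFormPlus 3 K (v + w)
      = Cfsg.quadFormPlus 3 K v + Cfsg.quadFormPlus 3 K w + v ⬝ᵥ kS w := by
  simp only [Cfsg.quadFormPlus, dotProduct, kS, Fintype.sum_sum_type, Fin.sum_univ_three,
    Pi.add_apply, Sum.swap_inl, Sum.swap_inr]
  ring

theorem klein_polar (A : Matrix (Fin 4) (Fin 4) K) (hA : A.det = 1)
    (v w : Fin 3 ⊕ Fin 3 → K) :
    (kleinMat A *ᵥ v) ⬝ᵥ kS (kleinMat A *ᵥ w) = v ⬝ᵥ kS w := by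
  have h1 := plus3_polar (kleinMat A *ᵥ v) (kleinMat A *ᵥ w)
  rw [← Matrix.mulVec_add, kleinMat_isom, kleinMat_isom, kleinMat_isom, hA, one_mul, one_mul,
    one_mul, plus3_polar v w] at h1
  linear_combination (-1 : K) * h1

theorem klein_adj (A : Matrix (Fin 4) (Fin 4) K) (hA : A.det = 1)
    (w : Fin 3 ⊕ Fin 3 → K) :
    (kleinMat A)ᵀ *ᵥ kS (kleinMat A *ᵥ w) = kS w := by
  funext I
  have h1 := klein_polar A hA (Pi.single I 1) w
  rw [single_dot_gen I (kS w)] at h1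
  rw [← h1]
  show ∑ J, (kleinMat A)ᵀ I J * kS (kleinMat A *ᵥ w) J
    = ∑ J, (kleinMat A *ᵥ (Pi.single I 1 : Fin 3 ⊕ Fin 3 → K)) J * kS (kleinMat A *ᵥ w) J
  apply Finset.sum_congr rfl
  intro J _
  rw [mulVec_single_gen, Matrix.transpose_apply]

theorem klein_swap (A B : Matrix (Fin 4) (Fin 4) K) (hA : A.det = 1)
    (hAB : Aᵀ * B = 1) (w : Fin 3 ⊕ Fin 3 → K) :
    kleinMat B *ᵥ kS w = kS (kleinMat A *ᵥ w) := by
  have h1 : (kleinMat A)ᵀ * kleinMat B = 1 := by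
    rw [← kleinMat_transpose, ← kleinMat_mul, hAB, kleinMat_one]
  have h2 : kleinMat B * (kleinMat A)ᵀ = 1 := mul_eq_one_comm.1 h1
  rw [← klein_adj A hA w, Matrix.mulVec_mulVec, h2, Matrix.one_mulVec]

/-- The vector `(x, φ x)`. -/
def kEmb (φ : K →+* K) (x : Fin 3 → K) : Fin 3 ⊕ Fin 3 → K :=
  Sum.elim x (fun i => φ (x i))

/-- Vectors fixed by the twisted swap. -/
def kReal (φ : K →+* K) (w : Fin 3 ⊕ Fin 3 → K) : Prop :=
  ∀ I, w (Sum.swap I) = φ (w I)

theorem kEmb_real (φ : K →+* K) (hφφ : ∀ x, φ (φ x) = x) (x : Fin 3 → K) :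
    kReal φ (kEmb φ x) := by
  intro I
  rcases I with i | i
  · rfl
  · exact (hφφ (x i)).symm

theorem kEmb_of_real (φ : K →+* K) (w : Fin 3 ⊕ Fin 3 → K) (hw : kReal φ w) :
    kEmb φ (fun i => w (Sum.inl i)) = w := by
  funext I
  rcases I with i | i
  · rfl
  · exact (hw (Sum.inl i)).symm

theorem map_mulVec6 (φ : K →+* K) (M : Matrix (Fin 3 ⊕ Fin 3) (Fin 3 ⊕ Fin 3) K)
    (w : Fin 3 ⊕ Fin 3 → K) (I : Fin 3 ⊕ Fin 3) :
    (M.map φ *ᵥ (fun J => φ (w J))) I = φ ((M *ᵥ w) I) := by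
  show ∑ J, M.map φ I J * φ (w J) = φ (∑ J, M I J * w J)
  rw [map_sum]
  apply Finset.sum_congr rfl
  intro J _
  rw [map_mul, Matrix.map_apply]

theorem klein_real (φ : K →+* K) (A : Matrix (Fin 4) (Fin 4) K)
    (hA : A.det = 1) (hU : Aᵀ * A.map φ = 1) (w : Fin 3 ⊕ Fin 3 → K) (hw : kReal φ w) :
    kReal φ (kleinMat A *ᵥ w) := by
  intro I
  have h1 := congrFun (klein_swap A (A.map φ) hA hU w) I
  have h2 : kS w = fun J => φ (w J) := by
    funext J
    exact hw J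
  rw [h2, kleinMat_map, map_mulVec6] at h1
  exact h1.symm

theorem su_unitary {q : ℕ} (hq : 1 ≤ q) (φ : K →+* K) (hφ : ∀ x, φ x = x ^ q)
    (s : Matrix.SpecialLinearGroup (Fin 4) K) (hs : s ∈ Cfsg.SU 4 K q) :
    (s.1)ᵀ * (s.1).map φ = 1 := by
  ext i j
  have h1 := (Cfsg.Agent.Helper15.mem_SU_iff 4 q s).1 hs (Pi.single i 1) (Pi.single j 1)
  rw [Cfsg.Agent.Helper15.hermForm_single hq 4 i j] at h1
  rw [Matrix.one_apply, ← h1]
  show ∑ k, (s.1)ᵀ i k * (s.1).map φ k j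
    = ∑ k, (s.1 *ᵥ (Pi.single i 1 : Fin 4 → K)) k * ((s.1 *ᵥ (Pi.single j 1 : Fin 4 → K)) k) ^ q
  apply Finset.sum_congr rfl
  intro k _
  rw [mulVec_single_gen, mulVec_single_gen, Matrix.transpose_apply, Matrix.map_apply, hφ]

theorem mulVec_kEmb_single (φ : K →+* K)
    (M : Matrix (Fin 3 ⊕ Fin 3) (Fin 3 ⊕ Fin 3) K) (j : Fin 3) (c : K) (I : Fin 3 ⊕ Fin 3) :
    (M *ᵥ kEmb φ (Pi.single j c)) I = M I (Sum.inl j) * c + M I (Sum.inr j) * φ c := by
  show ∑ J, M I J * kEmb φ (Pi.single j c) J = _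
  rw [Fintype.sum_sum_type]
  congr 1
  · show ∑ k, M I (Sum.inl k) * (Pi.single j c : Fin 3 → K) k = _
    rw [Finset.sum_eq_single j]
    · rw [Pi.single_eq_same]
    · intro k _ hne
      rw [Pi.single_eq_of_ne hne, mul_zero]
    · intro h
      exact absurd (Finset.mem_univ j) h
  · show ∑ k, M I (Sum.inr k) * φ ((Pi.single j c : Fin 3 → K) k) = _
    rw [Finset.sum_eq_single j]
    · rw [Pi.single_eq_same]
    · intro k _ hne
      rw [Pi.single_eq_of_ne hne, map_zero, mul_zero]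
    · intro h
      exact absurd (Finset.mem_univ j) h

theorem mat_one_of_fix (φ : K →+* K) (c₀ : K) (hc₀ : φ c₀ ≠ c₀)
    (M : Matrix (Fin 3 ⊕ Fin 3) (Fin 3 ⊕ Fin 3) K)
    (hM : ∀ x : Fin 3 → K, M *ᵥ kEmb φ x = kEmb φ x) : M = 1 := by
  have key : ∀ (I : Fin 3 ⊕ Fin 3) (j : Fin 3),
      M I (Sum.inl j) = (1 : Matrix (Fin 3 ⊕ Fin 3) (Fin 3 ⊕ Fin 3) K) I (Sum.inl j)
      ∧ M I (Sum.inr j) = (1 : Matrix (Fin 3 ⊕ Fin 3) (Fin 3 ⊕ Fin 3) K) I (Sum.inr j) := by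
    intro I j
    have h : ∀ c : K, M I (Sum.inl j) * c + M I (Sum.inr j) * φ c
        = (1 : Matrix (Fin 3 ⊕ Fin 3) (Fin 3 ⊕ Fin 3) K) I (Sum.inl j) * c
          + (1 : Matrix (Fin 3 ⊕ Fin 3) (Fin 3 ⊕ Fin 3) K) I (Sum.inr j) * φ c := by
      intro c
      rw [← mulVec_kEmb_single φ M j c I, ← mulVec_kEmb_single φ 1 j c I, hM,
        Matrix.one_mulVec]
    have h1 := h 1
    have h2 := h c₀
    simp only [map_one, mul_one] at h1
    have h3 : (M I (Sum.inr j) - (1 : Matrix (Fin 3 ⊕ Fin 3) (Fin 3 ⊕ Fin 3) K) I (Sum.inr j))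
        * (φ c₀ - c₀) = 0 := by
      linear_combination h2 - c₀ * h1
    have h4 : M I (Sum.inr j)
        = (1 : Matrix (Fin 3 ⊕ Fin 3) (Fin 3 ⊕ Fin 3) K) I (Sum.inr j) := by
      rcases mul_eq_zero.1 h3 with h5 | h5
      · exact sub_eq_zero.1 h5
      · exact absurd (sub_eq_zero.1 h5) hc₀
    refine ⟨?_, h4⟩
    linear_combination h1 - h4
  ext I J
  rcases J with j | j
  · exact (key I j).1
  · exact (key I j).2

end Gen

theorem su4_o6_arith (q o s : ℕ)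
    (ho : o = 2 * q ^ ((2 + 1) * 2) * (q ^ (2 + 1) + 1)
      * ∏ i ∈ Finset.range 2, (q ^ (2 * (i + 1)) - 1))
    (hs : (q + 1) * s = q ^ (4 * (4 - 1) / 2)
      * ∏ i ∈ Finset.range 4, (if Even i then q ^ (i + 1) + 1 else q ^ (i + 1) - 1)) :
    o = 2 * s := by
  have e0 : Even 0 := ⟨0, rfl⟩
  have e1 : ¬ Even 1 := by decide
  have e2 : Even 2 := ⟨1, rfl⟩
  have e3 : ¬ Even 3 := by decide
  simp only [Finset.prod_range_succ, Finset.prod_range_zero, if_pos e0, if_neg e1, if_pos e2,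
    if_neg e3] at ho hs
  norm_num at ho hs
  apply Nat.eq_of_mul_eq_mul_left (show 0 < q + 1 by omega)
  rw [ho]
  have e : (q + 1) * (2 * s) = 2 * ((q + 1) * s) := by ring
  rw [e, hs]
  ring

theorem central_of_comm_central {G : Type*} [Group G] (hperf : commutator G = ⊤) (g : G)
    (hg : ∀ h : G, g * h * (h * g)⁻¹ ∈ Subgroup.center G) : g ∈ Subgroup.center G := by
  obtain ⟨c, hc⟩ : ∃ c : G →* ↥(Subgroup.center G), ∀ h, (c h : G) = g * h * (h * g)⁻¹ := by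
    refine ⟨{ toFun := fun h => ⟨g * h * (h * g)⁻¹, hg h⟩
              map_one' := ?_
              map_mul' := ?_ }, fun h => rfl⟩
    · apply Subtype.ext
      show g * 1 * (1 * g)⁻¹ = 1
      rw [mul_one, one_mul, mul_inv_cancel]
    · intro h₁ h₂
      apply Subtype.ext
      show g * (h₁ * h₂) * (h₁ * h₂ * g)⁻¹ = g * h₁ * (h₁ * g)⁻¹ * (g * h₂ * (h₂ * g)⁻¹)
      have hcz := Subgroup.mem_center_iff.1 (hg h₂) h₁⁻¹
      calc g * (h₁ * h₂) * (h₁ * h₂ * g)⁻¹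
          = g * h₁ * g⁻¹ * (g * h₂ * (h₂ * g)⁻¹ * h₁⁻¹) := by group
        _ = g * h₁ * g⁻¹ * (h₁⁻¹ * (g * h₂ * (h₂ * g)⁻¹)) := by rw [hcz]
        _ = g * h₁ * (h₁ * g)⁻¹ * (g * h₂ * (h₂ * g)⁻¹) := by group
  have hle : commutator G ≤ c.ker := by
    rw [commutator_eq_closure, Subgroup.closure_le]
    rintro _ ⟨x, y, rfl⟩
    rw [SetLike.mem_coe, MonoidHom.mem_ker, commutatorElement_def, map_mul, map_mul, map_mul,
      map_inv, map_inv]
    have hcomm : c x * c y = c y * c x :=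
      Subtype.ext (Subgroup.mem_center_iff.1 (c y).2 (c x).1)
    rw [hcomm, mul_inv_cancel_right, mul_inv_cancel]
  rw [Subgroup.mem_center_iff]
  intro h
  have h6 : h ∈ c.ker := hle (by rw [hperf]; exact Subgroup.mem_top h)
  have h1 := hc h
  rw [MonoidHom.mem_ker.1 h6] at h1
  have h2 : g * h * (h * g)⁻¹ = 1 := h1.symm
  exact (mul_inv_eq_one.1 h2).symm

theorem card_le_two_of_scalar {K : Type*} [Field K] {G : Type*}
    (m : G → Matrix (Fin 4) (Fin 4) K) (hm : Function.Injective m)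
    (h : ∀ s, ∃ ε : K, ε * ε = 1 ∧ m s = ε • (1 : Matrix (Fin 4) (Fin 4) K)) :
    Nat.card G ≤ 2 := by
  have hval : ∀ s, m s = (1 : Matrix (Fin 4) (Fin 4) K)
      ∨ m s = (-1 : K) • (1 : Matrix (Fin 4) (Fin 4) K) := by
    intro s
    obtain ⟨ε, hε, he⟩ := h s
    rcases mul_self_eq_one_iff.1 hε with h1 | h1
    · left
      rw [he, h1, one_smul]
    · right
      rw [he, h1]
  have hinj : Function.Injective (fun s : G => (m s = (1 : Matrix (Fin 4) (Fin 4) K))) := by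
    intro s t hst
    have hiff : m s = 1 ↔ m t = 1 := iff_of_eq hst
    apply hm
    rcases hval s with h1 | h1
    · rw [h1, hiff.1 h1]
    · rcases hval t with h2 | h2
      · rw [hiff.2 h2, h2]
      · rw [h1, h2]
  calc Nat.card G ≤ Nat.card Prop := Nat.card_le_card_of_injective _ hinj
    _ = 2 := by rw [Nat.card_eq_fintype_card]; rfl

theorem exists_hom_of_rep {G : Type*} [Group G] {ι : Type} [Fintype ι] [DecidableEq ι]
    {F : Type*} [Field F] (Q : (ι → F) → F) (R : G → Matrix ι ι F) (h1 : R 1 = 1)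
    (hmul : ∀ a b, R (a * b) = R a * R b) (hQ : ∀ a v, Q (R a *ᵥ v) = Q v) :
    ∃ Φ : G →* ↥(Cfsg.isometryGroup F Q), ∀ a,
      (((Φ a : ↥(Cfsg.isometryGroup F Q)) : Matrix.GeneralLinearGroup ι F) : Matrix ι ι F)
        = R a := by
  have hinv1 : ∀ a, R a * R a⁻¹ = 1 := fun a => by rw [← hmul, mul_inv_cancel, h1]
  have hinv2 : ∀ a, R a⁻¹ * R a = 1 := fun a => by rw [← hmul, inv_mul_cancel, h1]
  have hmem : ∀ a, (⟨R a, R a⁻¹, hinv1 a, hinv2 a⟩ : Matrix.GeneralLinearGroup ι F)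
      ∈ Cfsg.isometryGroup F Q := by
    intro a
    rw [Cfsg.Agent.Helper6.isometry_mem_iff]
    intro v
    exact hQ a v
  refine ⟨{ toFun := fun a => ⟨⟨R a, R a⁻¹, hinv1 a, hinv2 a⟩, hmem a⟩
            map_one' := ?_
            map_mul' := ?_ }, fun a => rfl⟩
  · apply Subtype.ext
    apply Units.ext
    exact h1
  · intro a b
    apply Subtype.ext
    apply Units.ext
    exact hmul a b

section Rep

/-- The action of a `6 × 6` matrix on the first half of `(x, φ x)`. -/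
def kTfun {K : Type*} [Field K] (φ : K →+* K)
    (M : Matrix (Fin 3 ⊕ Fin 3) (Fin 3 ⊕ Fin 3) K) (x : Fin 3 → K) : Fin 3 → K :=
  fun i => (M *ᵥ kEmb φ x) (Sum.inl i)

/-- The same as a linear map over the small field. -/
noncomputable def kTlin {F K : Type*} [Field F] [Field K] [Algebra F K] (φ : K →+* K)
    (hφF : ∀ c : F, φ (algebraMap F K c) = algebraMap F K c)
    (M : Matrix (Fin 3 ⊕ Fin 3) (Fin 3 ⊕ Fin 3) K) : (Fin 3 → K) →ₗ[F] (Fin 3 → K) where
  toFun := kTfun φ M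
  map_add' x y := by
    have h : kEmb φ (x + y) = kEmb φ x + kEmb φ y := by
      funext I
      rcases I with i | i
      · rfl
      · exact map_add φ (x i) (y i)
    have h2 : M *ᵥ kEmb φ (x + y) = M *ᵥ kEmb φ x + M *ᵥ kEmb φ y := by
      rw [h, Matrix.mulVec_add]
    funext i
    exact congrFun h2 (Sum.inl i)
  map_smul' c x := by
    have h : kEmb φ (c • x) = algebraMap F K c • kEmb φ x := by
      funext I
      rcases I with i | i
      · exact Algebra.smul_def c (x i)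
      · show φ (c • x i) = algebraMap F K c * φ (x i)
        rw [Algebra.smul_def, map_mul, hφF]
    have h2 : M *ᵥ kEmb φ (c • x) = algebraMap F K c • (M *ᵥ kEmb φ x) := by
      rw [h, Matrix.mulVec_smul]
    funext i
    have h3 : (M *ᵥ kEmb φ (c • x)) (Sum.inl i)
        = algebraMap F K c * (M *ᵥ kEmb φ x) (Sum.inl i) := congrFun h2 (Sum.inl i)
    exact h3.trans (Algebra.smul_def c ((M *ᵥ kEmb φ x) (Sum.inl i))).symm

theorem kEmb_kT {F K : Type*} [Field F] [Field K] [Algebra F K] (φ : K →+* K)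
    (hφF : ∀ c : F, φ (algebraMap F K c) = algebraMap F K c) (hφφ : ∀ x, φ (φ x) = x)
    (M : Matrix (Fin 3 ⊕ Fin 3) (Fin 3 ⊕ Fin 3) K)
    (hM : ∀ w, kReal φ w → kReal φ (M *ᵥ w)) (x : Fin 3 → K) :
    kEmb φ (kTlin φ hφF M x) = M *ᵥ kEmb φ x :=
  kEmb_of_real φ (M *ᵥ kEmb φ x) (hM _ (kEmb_real φ hφφ x))

theorem kT_mul {F K : Type*} [Field F] [Field K] [Algebra F K] (φ : K →+* K)
    (hφF : ∀ c : F, φ (algebraMap F K c) = algebraMap F K c) (hφφ : ∀ x, φ (φ x) = x)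
    (M N : Matrix (Fin 3 ⊕ Fin 3) (Fin 3 ⊕ Fin 3) K)
    (hN : ∀ w, kReal φ w → kReal φ (N *ᵥ w)) :
    kTlin φ hφF (M * N) = kTlin φ hφF M ∘ₗ kTlin φ hφF N := by
  apply LinearMap.ext
  intro x
  funext i
  have h : (M * N) *ᵥ kEmb φ x = M *ᵥ kEmb φ (kTlin φ hφF N x) := by
    rw [kEmb_kT φ hφF hφφ N hN x, Matrix.mulVec_mulVec]
  exact congrFun h (Sum.inl i)

theorem kT_one {F K : Type*} [Field F] [Field K] [Algebra F K] (φ : K →+* K)
    (hφF : ∀ c : F, φ (algebraMap F K c) = algebraMap F K c) :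
    kTlin φ hφF (1 : Matrix (Fin 3 ⊕ Fin 3) (Fin 3 ⊕ Fin 3) K) = LinearMap.id := by
  apply LinearMap.ext
  intro x
  funext i
  have h : (1 : Matrix (Fin 3 ⊕ Fin 3) (Fin 3 ⊕ Fin 3) K) *ᵥ kEmb φ x = kEmb φ x :=
    Matrix.one_mulVec _
  exact congrFun h (Sum.inl i)

/-- Transport of a linear map to a matrix over the small field. -/
noncomputable def kRho {F K : Type*} [Field F] [Field K] [Algebra F K]
    (g : (Fin 3 → K) ≃ₗ[F] ((Fin 2 ⊕ Fin 2) ⊕ Fin 2 → F))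
    (T : (Fin 3 → K) →ₗ[F] (Fin 3 → K)) :
    Matrix ((Fin 2 ⊕ Fin 2) ⊕ Fin 2) ((Fin 2 ⊕ Fin 2) ⊕ Fin 2) F :=
  LinearMap.toMatrix' (g.toLinearMap ∘ₗ T ∘ₗ g.symm.toLinearMap)

theorem kRho_mulVec {F K : Type*} [Field F] [Field K] [Algebra F K]
    (g : (Fin 3 → K) ≃ₗ[F] ((Fin 2 ⊕ Fin 2) ⊕ Fin 2 → F))
    (T : (Fin 3 → K) →ₗ[F] (Fin 3 → K)) (w : (Fin 2 ⊕ Fin 2) ⊕ Fin 2 → F) :
    kRho g T *ᵥ w = g (T (g.symm w)) :=
  LinearMap.toMatrix'_mulVec _ w

theorem kRho_comp {F K : Type*} [Field F] [Field K] [Algebra F K]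
    (g : (Fin 3 → K) ≃ₗ[F] ((Fin 2 ⊕ Fin 2) ⊕ Fin 2 → F))
    (T T' : (Fin 3 → K) →ₗ[F] (Fin 3 → K)) :
    kRho g (T ∘ₗ T') = kRho g T * kRho g T' := by
  have e : g.toLinearMap ∘ₗ (T ∘ₗ T') ∘ₗ g.symm.toLinearMap
      = (g.toLinearMap ∘ₗ T ∘ₗ g.symm.toLinearMap)
        ∘ₗ (g.toLinearMap ∘ₗ T' ∘ₗ g.symm.toLinearMap) := by
    apply LinearMap.ext
    intro w
    show g (T (T' (g.symm w))) = g (T (g.symm (g (T' (g.symm w)))))
    rw [LinearEquiv.symm_apply_apply]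
  unfold kRho
  rw [e, LinearMap.toMatrix'_comp]

theorem kRho_id {F K : Type*} [Field F] [Field K] [Algebra F K]
    (g : (Fin 3 → K) ≃ₗ[F] ((Fin 2 ⊕ Fin 2) ⊕ Fin 2 → F)) :
    kRho g LinearMap.id = 1 := by
  have e : g.toLinearMap ∘ₗ (LinearMap.id : (Fin 3 → K) →ₗ[F] (Fin 3 → K))
      ∘ₗ g.symm.toLinearMap = LinearMap.id := by
    apply LinearMap.ext
    intro w
    exact g.apply_symm_apply w
  unfold kRho
  rw [e, LinearMap.toMatrix'_id]

/-- The matrix over the small field attached to a `4 × 4` matrix over the large one. -/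
noncomputable def kR {F K : Type*} [Field F] [Field K] [Algebra F K] (φ : K →+* K)
    (hφF : ∀ c : F, φ (algebraMap F K c) = algebraMap F K c)
    (g : (Fin 3 → K) ≃ₗ[F] ((Fin 2 ⊕ Fin 2) ⊕ Fin 2 → F)) (A : Matrix (Fin 4) (Fin 4) K) :
    Matrix ((Fin 2 ⊕ Fin 2) ⊕ Fin 2) ((Fin 2 ⊕ Fin 2) ⊕ Fin 2) F :=
  kRho g (kTlin φ hφF (kleinMat A))

theorem kR_mul {F K : Type*} [Field F] [Field K] [Algebra F K] (φ : K →+* K)
    (hφF : ∀ c : F, φ (algebraMap F K c) = algebraMap F K c)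
    (g : (Fin 3 → K) ≃ₗ[F] ((Fin 2 ⊕ Fin 2) ⊕ Fin 2 → F)) (hφφ : ∀ x, φ (φ x) = x)
    (A B : Matrix (Fin 4) (Fin 4) K) (hB : B.det = 1 ∧ Bᵀ * B.map φ = 1) :
    kR φ hφF g (A * B) = kR φ hφF g A * kR φ hφF g B := by
  unfold kR
  rw [kleinMat_mul, kT_mul φ hφF hφφ (kleinMat A) (kleinMat B)
    (fun w hw => klein_real φ B hB.1 hB.2 w hw), kRho_comp]

theorem kR_one {F K : Type*} [Field F] [Field K] [Algebra F K] (φ : K →+* K)
    (hφF : ∀ c : F, φ (algebraMap F K c) = algebraMap F K c)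
    (g : (Fin 3 → K) ≃ₗ[F] ((Fin 2 ⊕ Fin 2) ⊕ Fin 2 → F)) :
    kR φ hφF g (1 : Matrix (Fin 4) (Fin 4) K) = 1 := by
  unfold kR
  rw [kleinMat_one, kT_one, kRho_id]

theorem kR_isom {F K : Type*} [Field F] [Field K] [Algebra F K] (φ : K →+* K)
    (hφF : ∀ c : F, φ (algebraMap F K c) = algebraMap F K c)
    (g : (Fin 3 → K) ≃ₗ[F] ((Fin 2 ⊕ Fin 2) ⊕ Fin 2 → F)) (hφφ : ∀ x, φ (φ x) = x)
    (Qm : ((Fin 2 ⊕ Fin 2) ⊕ Fin 2 → F) → F)
    (hg : ∀ v, algebraMap F K (Qm (g v)) = ∑ i, v i * φ (v i))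
    (A : Matrix (Fin 4) (Fin 4) K) (hA : A.det = 1 ∧ Aᵀ * A.map φ = 1)
    (w : (Fin 2 ⊕ Fin 2) ⊕ Fin 2 → F) :
    Qm (kR φ hφF g A *ᵥ w) = Qm w := by
  apply (algebraMap F K).injective
  have h1 : kR φ hφF g A *ᵥ w = g (kTlin φ hφF (kleinMat A) (g.symm w)) :=
    kRho_mulVec g _ w
  have hT : kEmb φ (kTlin φ hφF (kleinMat A) (g.symm w))
      = kleinMat A *ᵥ kEmb φ (g.symm w) :=
    kEmb_kT φ hφF hφφ _ (fun w hw => klein_real φ A hA.1 hA.2 w hw) _
  calc algebraMap F K (Qm (kR φ hφF g A *ᵥ w))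
      = algebraMap F K (Qm (g (kTlin φ hφF (kleinMat A) (g.symm w)))) := by rw [h1]
    _ = Cfsg.quadFormPlus 3 K (kEmb φ (kTlin φ hφF (kleinMat A) (g.symm w))) := hg _
    _ = Cfsg.quadFormPlus 3 K (kEmb φ (g.symm w)) := by
        rw [hT, kleinMat_isom, hA.1, one_mul]
    _ = algebraMap F K (Qm (g (g.symm w))) := (hg _).symm
    _ = algebraMap F K (Qm w) := by rw [g.apply_symm_apply]

theorem kR_eq_one {F K : Type*} [Field F] [Field K] [Algebra F K] (φ : K →+* K)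
    (hφF : ∀ c : F, φ (algebraMap F K c) = algebraMap F K c)
    (g : (Fin 3 → K) ≃ₗ[F] ((Fin 2 ⊕ Fin 2) ⊕ Fin 2 → F)) (hφφ : ∀ x, φ (φ x) = x)
    (c₀ : K) (hc₀ : φ c₀ ≠ c₀)
    (A : Matrix (Fin 4) (Fin 4) K) (hA : A.det = 1 ∧ Aᵀ * A.map φ = 1)
    (h : kR φ hφF g A = 1) : kleinMat A = 1 := by
  apply mat_one_of_fix φ c₀ hc₀
  intro x
  have h1 : kR φ hφF g A *ᵥ g x = g (kTlin φ hφF (kleinMat A) (g.symm (g x))) :=
    kRho_mulVec g _ (g x)
  rw [h, Matrix.one_mulVec, g.symm_apply_apply] at h1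
  have h2 : kTlin φ hφF (kleinMat A) x = x := (g.injective h1).symm
  rw [← kEmb_kT φ hφF hφφ _ (fun w hw => klein_real φ A hA.1 hA.2 w hw) x, h2]

end Rep

/-- The trace form of the hermitian form in odd dimension is of minus type (following the
proof of `S2641`). -/
theorem herm_minus_equiv {K F : Type*} [Field K] [Fintype K] [Field F] [Fintype F]
    [Algebra F K] (hK' : Fintype.card K = Fintype.card F ^ 2) (n : ℕ) (a b : F)
    (hab : ∀ z₁ z₂ : F, z₁ ^ 2 + a * z₁ * z₂ + b * z₂ ^ 2 = 0 → z₁ = 0 ∧ z₂ = 0) :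
    ∃ g : (Fin (n + n + 1) → K) ≃ₗ[F] ((Fin (n + n) ⊕ Fin (n + n)) ⊕ Fin 2 → F),
      ∀ v, algebraMap F K (Cfsg.quadFormMinus (n + n) F a b (g v))
        = ∑ i, v i * v i ^ Fintype.card F := by
  classical
  have h2 : Module.finrank F K = 2 := Cfsg.Agent.Helper15.finrank_eq_two_of_card_sq hK'
  obtain ⟨Q, hQ, hQnd⟩ := Cfsg.Agent.Helper15.exists_hermQuad hK' (n + n + 1)
  obtain ⟨Q₁, hQ₁, hQ₁nd⟩ := Cfsg.Agent.Helper15.exists_hermQuad hK' (n + n)
  obtain ⟨Q₂, hQ₂, hQ₂nd⟩ := Cfsg.Agent.Helper15.exists_hermQuad hK' 1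
  obtain ⟨e₁, f₁, g1, g2, g3⟩ := Cfsg.Agent.Helper15.herm_hyp_family hK' n Q₁ hQ₁ hQ₁nd
  obtain ⟨σ, hσ⟩ : ∃ σ : K →ₐ[F] K, σ = FiniteField.frobeniusAlgHom F K := ⟨_, rfl⟩
  rw [← hσ] at hQ hQ₁ hQ₂
  have hσq : ∀ x, σ x = x ^ Fintype.card F := fun x => by
    rw [hσ, FiniteField.frobeniusAlgHom_apply]
  have hinj : Function.Injective (algebraMap F K) := (algebraMap F K).injective
  have hfin : Module.finrank F (Fin (n + n + 1) → K) = 2 * (n + n) + 2 := by
    rw [Module.finrank_pi_fintype F]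
    simp [h2]
    ring
  have hani : ∀ v, Q₂ v = 0 → v = 0 := by
    intro v hv
    have h5 := hQ₂ v
    rw [hv, map_zero, Fin.sum_univ_one] at h5
    have h6 : v 0 = 0 := by
      rcases mul_eq_zero.1 h5.symm with h | h
      · exact h
      · exact (map_eq_zero σ).1 h
    funext i
    have hi : i = 0 := Subsingleton.elim _ _
    rw [hi, h6]
    rfl
  have hfin₂ : Module.finrank F (Fin 1 → K) = 2 := by
    rw [Module.finrank_pi_fintype F]
    simp [h2]
  obtain ⟨x, y, hx, hxy, hy⟩ := Cfsg.Agent.Helper15.aniso_pair Q₂ hQ₂nd hfin₂ hani a b hab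
  let j₁ : (Fin (n + n) → K) →ₗ[F] (Fin (n + n + 1) → K) :=
    { toFun := fun u => Fin.append u (0 : Fin 1 → K)
      map_add' := by
        intro u u'
        funext i
        show Fin.append (u + u') (0 : Fin 1 → K) i
          = Fin.append u (0 : Fin 1 → K) i + Fin.append u' (0 : Fin 1 → K) i
        induction i using Fin.addCases with
        | left i =>
          rw [Fin.append_left, Fin.append_left, Fin.append_left]
          rfl
        | right i =>
          rw [Fin.append_right, Fin.append_right, Fin.append_right]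
          simp
      map_smul' := by
        intro r u
        funext i
        show Fin.append (r • u) (0 : Fin 1 → K) i = r • Fin.append u (0 : Fin 1 → K) i
        induction i using Fin.addCases with
        | left i =>
          rw [Fin.append_left, Fin.append_left]
          rfl
        | right i =>
          rw [Fin.append_right, Fin.append_right]
          simp }
  let j₂ : (Fin 1 → K) →ₗ[F] (Fin (n + n + 1) → K) :=
    { toFun := fun x => Fin.append (0 : Fin (n + n) → K) x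
      map_add' := by
        intro u u'
        funext i
        show Fin.append (0 : Fin (n + n) → K) (u + u') i
          = Fin.append (0 : Fin (n + n) → K) u i + Fin.append (0 : Fin (n + n) → K) u' i
        induction i using Fin.addCases with
        | left i =>
          rw [Fin.append_left, Fin.append_left, Fin.append_left]
          simp
        | right i =>
          rw [Fin.append_right, Fin.append_right, Fin.append_right]
          rfl
      map_smul' := by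
        intro r u
        funext i
        show Fin.append (0 : Fin (n + n) → K) (r • u) i
          = r • Fin.append (0 : Fin (n + n) → K) u i
        induction i using Fin.addCases with
        | left i =>
          rw [Fin.append_left, Fin.append_left]
          simp
        | right i =>
          rw [Fin.append_right, Fin.append_right]
          rfl }
  have hsum : ∀ u x, Q (j₁ u + j₂ x) = Q₁ u + Q₂ x := by
    intro u x
    apply hinj
    have h5 : j₁ u + j₂ x = Fin.append u x := by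
      funext i
      show Fin.append u (0 : Fin 1 → K) i + Fin.append (0 : Fin (n + n) → K) x i
        = Fin.append u x i
      induction i using Fin.addCases with
      | left i =>
        rw [Fin.append_left, Fin.append_left, Fin.append_left]
        simp
      | right i =>
        rw [Fin.append_right, Fin.append_right, Fin.append_right]
        simp
    rw [h5, map_add, hQ, hQ₁, hQ₂, Fin.sum_univ_add]
    simp only [Fin.append_left, Fin.append_right]
  obtain ⟨o1, o2, o3, o4, o5⟩ := Cfsg.Agent.Helper15.orth_sum_polar Q Q₁ Q₂ j₁ j₂ hsum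
  obtain ⟨g, hg⟩ := Cfsg.Agent.Helper15.minus_of_family Q hfin (fun i => j₁ (e₁ i)) (fun i => j₁ (f₁ i))
    (j₂ x) (j₂ y) a b (Cfsg.Agent.Helper15.aniso_disc a b hab)
    (fun i => ⟨by rw [o1]; exact (g1 i).1, by rw [o1]; exact (g1 i).2⟩)
    (fun i j => by rw [o3]; exact g2 i j)
    (fun i j => ⟨by rw [o3]; exact (g3 i j).1, by rw [o3]; exact (g3 i j).2⟩)
    (fun i => ⟨o5 _ _, o5 _ _, o5 _ _, o5 _ _⟩)
    (by rw [o2]; exact hx) (by rw [o4]; exact hxy) (by rw [o2]; exact hy)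
  refine ⟨g, fun v => ?_⟩
  rw [hg, hQ]
  apply Finset.sum_congr rfl
  intro i _
  rw [hσq]

/-- `PΩ₆⁻(q) ≃ PSU₄(q)`. -/
theorem pomega6m_iso {F K : Type*} [Field F] [Fintype F] [Field K] [Fintype K] {q : ℕ}
    (hF : Fintype.card F = q) (hK : Fintype.card K = q ^ 2) (a b : F)
    (hab : ∀ z₁ z₂ : F, z₁ ^ 2 + a * z₁ * z₂ + b * z₂ ^ 2 = 0 → z₁ = 0 ∧ z₂ = 0) :
    Nonempty (Cfsg.POmega F (Cfsg.quadFormMinus 2 F a b) ≃* Cfsg.PSU 4 K q) := by
  have hK' : Fintype.card K = Fintype.card F ^ 2 := by rw [hK, hF]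
  obtain ⟨ι₀⟩ := Cfsg.Agent.Helper15.exists_ringHom_of_card_sq (F := F) (K := K) hK'
  let _ : Algebra F K := ι₀.toAlgebra
  have hq2 : 2 ≤ q := Cfsg.Agent.Helper15.two_le_of_card_sq hK
  obtain ⟨φ, hφ⟩ := Cfsg.Agent.Helper15.exists_frob hK
  have hφφ : ∀ x, φ (φ x) = x := by
    intro x
    rw [hφ, hφ]
    exact Cfsg.Agent.Helper15.pow_card_sq hK x
  have hφF : ∀ c : F, φ (algebraMap F K c) = algebraMap F K c := by
    intro c
    rw [hφ, ← map_pow, ← hF, FiniteField.pow_card]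
  obtain ⟨c₀, hc₀'⟩ := Cfsg.Agent.Helper15.exists_not_fixed hK
  have hc₀ : φ c₀ ≠ c₀ := by
    rw [hφ]
    exact hc₀'
  obtain ⟨g, hg'⟩ : ∃ g : (Fin 3 → K) ≃ₗ[F] ((Fin 2 ⊕ Fin 2) ⊕ Fin 2 → F),
      ∀ v, algebraMap F K (Cfsg.quadFormMinus 2 F a b (g v))
        = ∑ i, v i * v i ^ Fintype.card F := herm_minus_equiv hK' 1 a b hab
  obtain ⟨𝒬, h𝒬, hnd⟩ := Cfsg.Agent.S0288.minus_model F a b hab 2
  have hQeq : Cfsg.quadFormMinus 2 F a b = ⇑𝒬 := funext (fun v => (h𝒬 v).symm)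
  have hg : ∀ v, algebraMap F K (𝒬 (g v)) = ∑ i, v i * φ (v i) := by
    intro v
    rw [h𝒬, hg' v]
    apply Finset.sum_congr rfl
    intro i _
    rw [hφ, hF]
  have hOS : Nat.card ↥(Cfsg.isometryGroup F ⇑𝒬) = 2 * Nat.card ↥(Cfsg.SU 4 K q) := by
    have h := Cfsg.Agent.S0288.minus_card F a b hab 2
    rw [hQeq, hF] at h
    exact su4_o6_arith q _ _ h (Cfsg.Agent.Helper15.card_SU hK 4 (by norm_num))
  rw [hQeq]
  have hU : ∀ s : ↥(Cfsg.SU 4 K q), (s.1.1).det = 1 ∧ (s.1.1)ᵀ * (s.1.1).map φ = 1 :=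
    fun s => ⟨s.1.2, su_unitary (by omega) φ hφ s.1 s.2⟩
  obtain ⟨Φ, hΦ0⟩ := exists_hom_of_rep (⇑𝒬) (fun s : ↥(Cfsg.SU 4 K q) => kR φ hφF g s.1.1)
    (kR_one φ hφF g) (fun s t => kR_mul φ hφF g hφφ s.1.1 t.1.1 (hU t))
    (fun s v => kR_isom φ hφF g hφφ (⇑𝒬) hg s.1.1 (hU s) v)
  have hΦ : ∀ s : ↥(Cfsg.SU 4 K q),
      (((Φ s : ↥(Cfsg.isometryGroup F ⇑𝒬)) :
        Matrix.GeneralLinearGroup ((Fin 2 ⊕ Fin 2) ⊕ Fin 2) F) :
        Matrix ((Fin 2 ⊕ Fin 2) ⊕ Fin 2) ((Fin 2 ⊕ Fin 2) ⊕ Fin 2) F)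
        = kR φ hφF g s.1.1 := hΦ0
  have hker : ∀ s : ↥(Cfsg.SU 4 K q), Φ s = 1 →
      ∃ ε : K, ε * ε = 1 ∧ s.1.1 = ε • (1 : Matrix (Fin 4) (Fin 4) K) := by
    intro s hs
    apply kleinMat_eq_one
    apply kR_eq_one φ hφF g hφφ c₀ hc₀ s.1.1 (hU s)
    exact (hΦ s).symm.trans (congrArg (fun x : ↥(Cfsg.isometryGroup F ⇑𝒬) =>
      ((x : Matrix.GeneralLinearGroup ((Fin 2 ⊕ Fin 2) ⊕ Fin 2) F) :
        Matrix ((Fin 2 ⊕ Fin 2) ⊕ Fin 2) ((Fin 2 ⊕ Fin 2) ⊕ Fin 2) F)) hs)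
  have hkerc : ∀ s : ↥(Cfsg.SU 4 K q), Φ s = 1 →
      s ∈ Subgroup.center ↥(Cfsg.SU 4 K q) := by
    intro s hs
    obtain ⟨ε, -, he⟩ := hker s hs
    rw [Subgroup.mem_center_iff]
    intro t
    apply Subtype.ext
    apply Subtype.ext
    show t.1.1 * s.1.1 = s.1.1 * t.1.1
    rw [he, Matrix.mul_smul, Matrix.smul_mul, Matrix.mul_one, Matrix.one_mul]
  have hperf : commutator ↥(Cfsg.SU 4 K q) = ⊤ :=
    Cfsg.Agent.Helper15.su_perfect hK 4 (by norm_num) (by omega)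
  have hle : Φ.range ≤ commutator ↥(Cfsg.isometryGroup F ⇑𝒬) := by
    rintro _ ⟨x, rfl⟩
    rw [← Abelianization.ker_of, MonoidHom.mem_ker]
    have h6 := Abelianization.commutator_subset_ker ((Abelianization.of).comp Φ)
    rw [hperf] at h6
    exact MonoidHom.mem_ker.1 (h6 (Subgroup.mem_top x))
  have h3 := Subgroup.card_eq_card_quotient_mul_card_subgroup Φ.ker
  have h5 := Nat.card_congr (QuotientGroup.quotientKerEquivRange Φ).toEquiv
  rw [h5] at h3
  have hrange : Φ.range = commutator ↥(Cfsg.isometryGroup F ⇑𝒬) := by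
    by_cases hodd : Odd (Fintype.card F)
    · have h2 : (2 : F) ≠ 0 := two_ne_zero_of_odd hodd
      obtain ⟨Ψ, hΨs, hΨk⟩ := omega_charK h2
        (Sum.inl (Sum.inl 0) : (Fin 2 ⊕ Fin 2) ⊕ Fin 2) (Sum.inl (Sum.inr 0)) (by simp) 𝒬 hnd
      apply Subgroup.eq_of_le_of_card_ge hle
      have hidx : (commutator ↥(Cfsg.isometryGroup F ⇑𝒬)).index = 4 := by
        rw [← hΨk, Subgroup.index_ker, MonoidHom.range_eq_top.2 hΨs, Subgroup.card_top,
          Nat.card_prod, Nat.card_eq_fintype_card, Fintype.card_units_int]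
      have h1 := Subgroup.card_mul_index (commutator ↥(Cfsg.isometryGroup F ⇑𝒬))
      rw [hidx, hOS, h3] at h1
      have hk2 : Nat.card ↥Φ.ker ≤ 2 :=
        card_le_two_of_scalar (fun s : ↥Φ.ker => s.1.1.1)
          (fun s t h => Subtype.ext (Subtype.ext (Subtype.ext h)))
          (fun s => hker s.1 (MonoidHom.mem_ker.1 s.2))
      have h7 : Nat.card ↥Φ.range * Nat.card ↥Φ.ker ≤ Nat.card ↥Φ.range * 2 :=
        Nat.mul_le_mul_left _ hk2
      generalize Nat.card ↥Φ.range * Nat.card ↥Φ.ker = W at h1 h7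
      omega
    · have hchar : CharP F 2 :=
        ringChar.of_eq (FiniteField.even_card_iff_char_two.2 (Nat.not_odd_iff.1 hodd))
      have h2 : (2 : F) = 0 := CharTwo.two_eq_zero
      have h2K : (2 : K) = 0 := by
        have h := congrArg (algebraMap F K) h2
        rwa [map_ofNat, map_zero] at h
      apply le_antisymm hle
      apply commutator_le_of_index_two
      have hk1 : Nat.card ↥Φ.ker = 1 := by
        have hbot : Φ.ker = ⊥ := by
          rw [Subgroup.eq_bot_iff_forall]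
          intro s hs
          obtain ⟨ε, hε, he⟩ := hker s (MonoidHom.mem_ker.1 hs)
          have hε1 : ε = 1 := by
            rcases mul_self_eq_one_iff.1 hε with h | h
            · exact h
            · rw [h]
              linear_combination (-1 : K) * h2K
          have hs1 : s.1.1 = (1 : Matrix (Fin 4) (Fin 4) K) := by rw [he, hε1, one_smul]
          exact Subtype.ext (Subtype.ext hs1)
        rw [hbot]
        exact Subgroup.card_bot
      rw [hk1, mul_one] at h3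
      have h1 := Subgroup.card_mul_index Φ.range
      rw [hOS, h3] at h1
      have hpos : 0 < Nat.card ↥Φ.range := Nat.card_pos
      exact Nat.eq_of_mul_eq_mul_left hpos (h1.trans (mul_comm _ _))
  have himg : ∀ x, Φ x ∈ commutator ↥(Cfsg.isometryGroup F ⇑𝒬) := by
    intro x
    rw [← hrange]
    exact ⟨x, rfl⟩
  obtain ⟨f, hf⟩ : ∃ f : ↥(Cfsg.SU 4 K q) →* ↥(commutator ↥(Cfsg.isometryGroup F ⇑𝒬)),
      ∀ x, (f x : ↥(Cfsg.isometryGroup F ⇑𝒬)) = Φ x :=
    ⟨Φ.codRestrict _ himg, fun _ => rfl⟩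
  have hsurj : Function.Surjective f := by
    intro ω
    have h6 : (ω : ↥(Cfsg.isometryGroup F ⇑𝒬)) ∈ Φ.range := by
      rw [hrange]
      exact ω.2
    obtain ⟨x, hx⟩ := h6
    exact ⟨x, Subtype.ext ((hf x).trans hx)⟩
  have hf1 : ∀ x, f x = 1 → x ∈ Subgroup.center ↥(Cfsg.SU 4 K q) := by
    intro x hx
    apply hkerc
    exact (hf x).symm.trans (congrArg Subtype.val hx)
  apply center_quot_iso f hsurj (QuotientGroup.mk' (Subgroup.center ↥(Cfsg.SU 4 K q)))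
    (QuotientGroup.mk'_surjective _)
  intro s
  rw [QuotientGroup.mk'_apply, QuotientGroup.eq_one_iff]
  constructor
  · intro hs
    apply central_of_comm_central hperf
    intro t
    apply hf1
    rw [map_mul, map_inv, map_mul, map_mul, Subgroup.mem_center_iff.1 hs (f t),
      mul_inv_cancel]
  · intro hs
    rw [Subgroup.mem_center_iff]
    intro ω
    obtain ⟨y, rfl⟩ := hsurj ω
    rw [← map_mul, ← map_mul, Subgroup.mem_center_iff.1 hs y]

end Cfsg.Agent.Helper5
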