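import Mathlib

set_option autoImplicit false

namespace Cfsg.Agent.Helper5

open Matrix in
/-- A square matrix over a field for which every vector is an eigenvector is scalar. -/
theorem scalar_of_eigen {n : Type*} [Fintype n] [DecidableEq n] {F : Type*} [Field F]
    (A : Matrix n n F) (h : ∀ v : n → F, ∃ a : F, A *ᵥ v = a • v) :
    ∃ a : F, A = a • (1 : Matrix n n F) := by
  classical
  choose a ha using fun i : n => h (Pi.single i 1)
  have hcol : ∀ i k, A k i = if k = i then a i else 0 := by
    intro i k
    have h1 := congrFun (ha i) k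
    rw [Matrix.mulVec_single_one, Matrix.col_apply, Pi.smul_apply, Pi.single_apply,
      smul_eq_mul] at h1
    rw [h1]
    split_ifs <;> simp
  have hall : ∀ i j, a i = a j := by
    intro i j
    by_cases hij : i = j
    · rw [hij]
    · obtain ⟨b, hb⟩ := h (Pi.single i 1 + Pi.single j 1)
      rw [Matrix.mulVec_add, Matrix.mulVec_single_one, Matrix.mulVec_single_one] at hb
      have hi := congrFun hb i
      have hj := congrFun hb j
      rw [Pi.add_apply, Matrix.col_apply, Matrix.col_apply, hcol i, hcol j, Pi.smul_apply,
        Pi.add_apply, Pi.single_apply, Pi.single_apply, smul_eq_mul] at hi hj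
      have hji : ¬ j = i := fun h => hij h.symm
      simp only [hij, hji, if_true, if_false, add_zero, zero_add, mul_one] at hi hj
      rw [hi, hj]
  rcases isEmpty_or_nonempty n with hn | ⟨⟨i₀⟩⟩
  · exact ⟨0, Matrix.ext fun i => isEmptyElim i⟩
  · refine ⟨a i₀, Matrix.ext fun k i => ?_⟩
    rw [hcol i k, Matrix.smul_apply, Matrix.one_apply, smul_eq_mul, hall i i₀]
    split_ifs <;> simp

end Cfsg.Agent.Helper5
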