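import Mathlib
import Cfsg.Agent.Helper5.Klein
import Cfsg.Agent.Helper5.TensSL2
import Cfsg.Agent.Helper5.OddCenter
import Cfsg.Agent.S0245
import Cfsg.Agent.S0246
import Cfsg.Agent.S0269

/-!
The Klein correspondence restricted to `Sp₄(F)`: the symplectic group preserves a hyperplane of
the exterior square, on which the Klein form is `t² + x₀y₀ + x₁y₁`. This gives a homomorphism
`Sp₄(F) → O₅(F)` and the isomorphism `PΩ₅(q) ≃ PSp₄(q)` for `q` odd.
-/

set_option autoImplicit false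
set_option linter.unusedSimpArgs false

namespace Cfsg.Agent.Helper5

open scoped Matrix

section

variable {F : Type*} [Field F]

/-- The identification of the index types. -/
def e4 : Fin 4 ≃ Fin 2 ⊕ Fin 2 where
  toFun := ![Sum.inl 0, Sum.inl 1, Sum.inr 0, Sum.inr 1]
  invFun := Sum.elim ![0, 1] ![2, 3]
  left_inv := by decide
  right_inv := by decide

theorem e4_0 : e4 0 = Sum.inl 0 := rfl
theorem e4_1 : e4 1 = Sum.inl 1 := rfl
theorem e4_2 : e4 2 = Sum.inr 0 := rfl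
theorem e4_3 : e4 3 = Sum.inr 1 := rfl

/-- The coordinates of the five-dimensional space inside the six-dimensional one. -/
def r5 : Unit ⊕ (Fin 2 ⊕ Fin 2) → Fin 3 ⊕ Fin 3 :=
  Sum.elim (fun _ => Sum.inl 1) (Sum.elim ![Sum.inl 0, Sum.inl 2] ![Sum.inr 0, Sum.inr 2])

/-- The projection onto the five coordinates. -/
def pi5 (F : Type*) [Field F] : Matrix (Unit ⊕ (Fin 2 ⊕ Fin 2)) (Fin 3 ⊕ Fin 3) F :=
  Matrix.of fun I K => if K = r5 I then 1 else 0

/-- The inclusion of the hyperplane `x₁ = y₁`. -/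
def iota5 (F : Type*) [Field F] : Matrix (Fin 3 ⊕ Fin 3) (Unit ⊕ (Fin 2 ⊕ Fin 2)) F :=
  Matrix.of fun K J => if K = r5 J then 1 else (if J = Sum.inl () ∧ K = Sum.inr 1 then 1 else 0)

theorem pi5_iota5 : pi5 F * iota5 F = 1 := by
  ext I J
  rcases I with ⟨⟩ | I | I <;> rcases J with ⟨⟩ | J | J <;> try fin_cases I
  all_goals try fin_cases J
  all_goals simp [pi5, iota5, r5, Matrix.mul_apply, Fintype.sum_sum_type, Fin.sum_univ_three,
    Matrix.one_apply]

theorem iota5_form (v : Unit ⊕ (Fin 2 ⊕ Fin 2) → F) :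
    Cfsg.quadFormPlus 3 F (iota5 F *ᵥ v) = Cfsg.quadFormOdd 2 F v := by
  simp [Cfsg.quadFormPlus, Cfsg.quadFormOdd, Matrix.mulVec, dotProduct, iota5, r5,
    Fintype.sum_sum_type, Fin.sum_univ_three, Fin.sum_univ_two]
  ring

theorem iota5_pi5 (M : Matrix (Fin 3 ⊕ Fin 3) (Unit ⊕ (Fin 2 ⊕ Fin 2)) F)
    (h : ∀ J, M (Sum.inl 1) J = M (Sum.inr 1) J) : iota5 F * pi5 F * M = M := by
  ext K J
  rcases K with K | K <;> fin_cases K <;>
    simp [pi5, iota5, r5, Matrix.mul_apply, Fintype.sum_sum_type, Fin.sum_univ_three,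
      Fin.sum_univ_two, h]

theorem symp_rel (B : Matrix (Fin 2 ⊕ Fin 2) (Fin 2 ⊕ Fin 2) F)
    (hB : B ∈ Matrix.symplecticGroup (Fin 2) F) (c d : Fin 2 ⊕ Fin 2) :
    B (Sum.inr 0) c * B (Sum.inl 0) d - B (Sum.inl 0) c * B (Sum.inr 0) d
      + (B (Sum.inr 1) c * B (Sum.inl 1) d - B (Sum.inl 1) c * B (Sum.inr 1) d)
      = Matrix.J (Fin 2) F c d := by
  have h := SymplecticGroup.mem_iff'.1 hB
  have h1 := congrFun (congrFun h c) d
  rw [← h1]
  simp [Matrix.mul_apply, Matrix.J, Fintype.sum_sum_type, Fin.sum_univ_two]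
  ring

theorem klein_defect (B : Matrix (Fin 2 ⊕ Fin 2) (Fin 2 ⊕ Fin 2) F)
    (hB : B ∈ Matrix.symplecticGroup (Fin 2) F) (J : Unit ⊕ (Fin 2 ⊕ Fin 2)) :
    (kleinMat (B.submatrix e4 e4) * iota5 F) (Sum.inl 1) J
      = (kleinMat (B.submatrix e4 e4) * iota5 F) (Sum.inr 1) J := by
  have s01 := symp_rel B hB (Sum.inl 0) (Sum.inl 1)
  have s03 := symp_rel B hB (Sum.inl 0) (Sum.inr 1)
  have s23 := symp_rel B hB (Sum.inr 0) (Sum.inr 1)
  have s12 := symp_rel B hB (Sum.inl 1) (Sum.inr 0)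
  have s02 := symp_rel B hB (Sum.inl 0) (Sum.inr 0)
  have s13 := symp_rel B hB (Sum.inl 1) (Sum.inr 1)
  simp [Matrix.J] at s01 s03 s23 s12 s02 s13
  rcases J with ⟨⟩ | J | J
  · simp [Matrix.mul_apply, iota5, r5, Fintype.sum_sum_type, Fin.sum_univ_three]
    simp only [kleinMat_apply, Matrix.submatrix_apply, kp_l0, kp_l1, kp_l2, kp_r0, kp_r1, kp_r2,
      ks_l0, ks_l1, ks_l2, ks_r0, ks_r1, ks_r2, e4_0, e4_1, e4_2, e4_3]
    linear_combination s13 - s02
  · fin_cases J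
    · simp [Matrix.mul_apply, iota5, r5, Fintype.sum_sum_type, Fin.sum_univ_three]
      simp only [kleinMat_apply, Matrix.submatrix_apply, kp_l0, kp_l1, kp_l2, kp_r0, kp_r1,
        kp_r2, ks_l0, ks_l1, ks_l2, ks_r0, ks_r1, ks_r2, e4_0, e4_1, e4_2, e4_3]
      linear_combination (-1 : F) * s01
    · simp [Matrix.mul_apply, iota5, r5, Fintype.sum_sum_type, Fin.sum_univ_three]
      simp only [kleinMat_apply, Matrix.submatrix_apply, kp_l0, kp_l1, kp_l2, kp_r0, kp_r1,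
        kp_r2, ks_l0, ks_l1, ks_l2, ks_r0, ks_r1, ks_r2, e4_0, e4_1, e4_2, e4_3]
      linear_combination (-1 : F) * s03
  · fin_cases J
    · simp [Matrix.mul_apply, iota5, r5, Fintype.sum_sum_type, Fin.sum_univ_three]
      simp only [kleinMat_apply, Matrix.submatrix_apply, kp_l0, kp_l1, kp_l2, kp_r0, kp_r1,
        kp_r2, ks_l0, ks_l1, ks_l2, ks_r0, ks_r1, ks_r2, e4_0, e4_1, e4_2, e4_3]
      linear_combination (-1 : F) * s23
    · simp [Matrix.mul_apply, iota5, r5, Fintype.sum_sum_type, Fin.sum_univ_three]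
      simp only [kleinMat_apply, Matrix.submatrix_apply, kp_l0, kp_l1, kp_l2, kp_r0, kp_r1,
        kp_r2, ks_l0, ks_l1, ks_l2, ks_r0, ks_r1, ks_r2, e4_0, e4_1, e4_2, e4_3]
      linear_combination (-1 : F) * s12
/-- The five-dimensional matrix attached to a `4 × 4` matrix. -/
def spMat5 (A : Matrix (Fin 2 ⊕ Fin 2) (Fin 2 ⊕ Fin 2) F) :
    Matrix (Unit ⊕ (Fin 2 ⊕ Fin 2)) (Unit ⊕ (Fin 2 ⊕ Fin 2)) F :=
  pi5 F * kleinMat (A.submatrix e4 e4) * iota5 F

theorem klein_iota (B : Matrix (Fin 2 ⊕ Fin 2) (Fin 2 ⊕ Fin 2) F)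
    (hB : B ∈ Matrix.symplecticGroup (Fin 2) F) :
    iota5 F * pi5 F * (kleinMat (B.submatrix e4 e4) * iota5 F)
      = kleinMat (B.submatrix e4 e4) * iota5 F :=
  iota5_pi5 _ (klein_defect B hB)

theorem spMat5_mul (A B : Matrix (Fin 2 ⊕ Fin 2) (Fin 2 ⊕ Fin 2) F)
    (hB : B ∈ Matrix.symplecticGroup (Fin 2) F) : spMat5 (A * B) = spMat5 A * spMat5 B := by
  unfold spMat5
  have h1 : (A * B).submatrix e4 e4 = A.submatrix e4 e4 * B.submatrix e4 e4 :=
    (Matrix.submatrix_mul_equiv A B e4 e4 e4).symm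
  rw [h1, kleinMat_mul]
  calc pi5 F * (kleinMat (A.submatrix e4 e4) * kleinMat (B.submatrix e4 e4)) * iota5 F
      = pi5 F * kleinMat (A.submatrix e4 e4) * (kleinMat (B.submatrix e4 e4) * iota5 F) := by
        simp only [Matrix.mul_assoc]
    _ = pi5 F * kleinMat (A.submatrix e4 e4)
          * (iota5 F * pi5 F * (kleinMat (B.submatrix e4 e4) * iota5 F)) := by
        rw [klein_iota B hB]
    _ = pi5 F * kleinMat (A.submatrix e4 e4) * iota5 F
          * (pi5 F * kleinMat (B.submatrix e4 e4) * iota5 F) := by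
        simp only [Matrix.mul_assoc]

theorem spMat5_one : spMat5 (1 : Matrix (Fin 2 ⊕ Fin 2) (Fin 2 ⊕ Fin 2) F) = 1 := by
  unfold spMat5
  rw [Matrix.submatrix_one_equiv, kleinMat_one, Matrix.mul_one, pi5_iota5]

theorem spMat5_isom (A : Matrix (Fin 2 ⊕ Fin 2) (Fin 2 ⊕ Fin 2) F)
    (hA : A ∈ Matrix.symplecticGroup (Fin 2) F) (v : Unit ⊕ (Fin 2 ⊕ Fin 2) → F) :
    Cfsg.quadFormOdd 2 F (spMat5 A *ᵥ v) = Cfsg.quadFormOdd 2 F v := by
  rw [← iota5_form, ← iota5_form v]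
  have h1 : iota5 F *ᵥ (spMat5 A *ᵥ v)
      = kleinMat (A.submatrix e4 e4) *ᵥ (iota5 F *ᵥ v) := by
    rw [Matrix.mulVec_mulVec, Matrix.mulVec_mulVec]
    congr 1
    unfold spMat5
    rw [← klein_iota A hA]
    simp only [Matrix.mul_assoc]
  rw [h1, kleinMat_isom, Matrix.det_submatrix_equiv_self, SymplecticGroup.det_eq_one hA,
    one_mul]

/-- The information carried by one unit column of the exterior square. -/
theorem klein_cols (g : Matrix (Fin 4) (Fin 4) F) (c d : Fin 4) (hcd : c < d)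
    (K : Fin 3 ⊕ Fin 3) (hK : kp K = (c, d))
    (hcol : ∀ I, kleinMat g I K = if I = K then 1 else 0) :
    (g c c * g d d - g c d * g d c = 1) ∧
      (∀ k, k ≠ c → k ≠ d → g k c = 0 ∧ g k d = 0) := by
  have H1 : ∀ a b : Fin 4, a < b →
      g a c * g b d - g a d * g b c = if a = c ∧ b = d then 1 else 0 := by
    intro a b hab
    obtain ⟨I, hI⟩ := kp_surj a b hab
    have h1 := hcol I
    rw [kleinMat_apply, hI, hK] at h1
    have hsI := ks_mul_self (F := F) I
    have hsK := ks_mul_self (F := F) K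
    by_cases hIK : I = K
    · rw [if_pos hIK] at h1
      rw [if_pos]
      · rw [hIK] at h1
        linear_combination h1 - (g a c * g b d - g a d * g b c) * hsK
      · rw [hIK, hK] at hI
        exact ⟨(congrArg Prod.fst hI).symm, (congrArg Prod.snd hI).symm⟩
    · rw [if_neg hIK] at h1
      rw [if_neg]
      · linear_combination (ks F I * ks F K) * h1
          - (g a c * g b d - g a d * g b c) * (ks F K * ks F K) * hsI
          - (g a c * g b d - g a d * g b c) * hsK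
      · rintro ⟨h3, h4⟩
        apply hIK
        apply kp_inj
        rw [hI, hK, h3, h4]
  have e1 : g c c * g d d - g c d * g d c = 1 := by
    have := H1 c d hcd
    rw [if_pos ⟨rfl, rfl⟩] at this
    exact this
  refine ⟨e1, ?_⟩
  intro k hkc hkd
  have e2 : g k c * g d d - g k d * g d c = 0 := by
    rcases lt_or_gt_of_ne hkd with h | h
    · have := H1 k d h
      rw [if_neg (fun hh => hkc hh.1)] at this
      exact this
    · have := H1 d k h
      rw [if_neg (fun hh => hkd hh.2)] at this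
      linear_combination (-1 : F) * this
  have e3 : g k c * g c d - g k d * g c c = 0 := by
    rcases lt_or_gt_of_ne hkc with h | h
    · have := H1 k c h
      rw [if_neg (fun hh => hkc hh.1)] at this
      exact this
    · have := H1 c k h
      rw [if_neg (fun hh => hkd hh.2)] at this
      linear_combination (-1 : F) * this
  constructor
  · linear_combination (-(g k c)) * e1 + (g c c) * e2 - (g d c) * e3
  · linear_combination (-(g k d)) * e1 + (g c d) * e2 - (g d d) * e3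

/-- A symplectic matrix acting trivially on the five-dimensional space is `± 1`. -/
theorem spMat5_eq_one (A : Matrix (Fin 2 ⊕ Fin 2) (Fin 2 ⊕ Fin 2) F)
    (hA : A ∈ Matrix.symplecticGroup (Fin 2) F) (h : spMat5 A = 1) :
    ∃ ε : F, ε * ε = 1 ∧ A = ε • (1 : Matrix (Fin 2 ⊕ Fin 2) (Fin 2 ⊕ Fin 2) F) := by
  obtain ⟨g, hg⟩ : ∃ g : Matrix (Fin 4) (Fin 4) F, g = A.submatrix e4 e4 := ⟨_, rfl⟩
  have hWι : kleinMat g * iota5 F = iota5 F := by
    rw [hg, ← klein_iota A hA]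
    have h1 : iota5 F * pi5 F * (kleinMat (A.submatrix e4 e4) * iota5 F)
        = iota5 F * spMat5 A := by
      unfold spMat5
      simp only [Matrix.mul_assoc]
    rw [h1, h, Matrix.mul_one]
  have hcol : ∀ (J : Fin 2 ⊕ Fin 2) (I : Fin 3 ⊕ Fin 3),
      kleinMat g I (r5 (Sum.inr J)) = if I = r5 (Sum.inr J) then 1 else 0 := by
    intro J I
    have h1 := congrFun (congrFun hWι I) (Sum.inr J)
    rcases J with J | J <;> fin_cases J <;>
      simp [Matrix.mul_apply, iota5, r5, Fintype.sum_sum_type, Fin.sum_univ_three] at h1 ⊢ <;>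
      exact h1
  obtain ⟨d01, o01⟩ := klein_cols g 0 1 (by decide) (Sum.inl 0) rfl (hcol (Sum.inl 0))
  obtain ⟨d03, o03⟩ := klein_cols g 0 3 (by decide) (Sum.inl 2) rfl (hcol (Sum.inl 1))
  obtain ⟨d23, o23⟩ := klein_cols g 2 3 (by decide) (Sum.inr 0) rfl (hcol (Sum.inr 0))
  obtain ⟨d12, o12⟩ := klein_cols g 1 2 (by decide) (Sum.inr 2) rfl (hcol (Sum.inr 1))
  have g10 : g 1 0 = 0 := (o03 1 (by decide) (by decide)).1
  have g20 : g 2 0 = 0 := (o01 2 (by decide) (by decide)).1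
  have g30 : g 3 0 = 0 := (o01 3 (by decide) (by decide)).1
  have g01 : g 0 1 = 0 := (o12 0 (by decide) (by decide)).1
  have g21 : g 2 1 = 0 := (o01 2 (by decide) (by decide)).2
  have g31 : g 3 1 = 0 := (o01 3 (by decide) (by decide)).2
  have g02 : g 0 2 = 0 := (o23 0 (by decide) (by decide)).1
  have g12 : g 1 2 = 0 := (o23 1 (by decide) (by decide)).1
  have g32 : g 3 2 = 0 := (o12 3 (by decide) (by decide)).2
  have g03 : g 0 3 = 0 := (o23 0 (by decide) (by decide)).2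
  have g13 : g 1 3 = 0 := (o23 1 (by decide) (by decide)).2
  have g23 : g 2 3 = 0 := (o03 2 (by decide) (by decide)).2
  rw [g01, zero_mul, sub_zero] at d01
  rw [g03, zero_mul, sub_zero] at d03
  rw [g23, zero_mul, sub_zero] at d23
  rw [g12, zero_mul, sub_zero] at d12
  have s02 := symp_rel A hA (Sum.inl 0) (Sum.inr 0)
  have hJ : Matrix.J (Fin 2) F (Sum.inl 0) (Sum.inr 0) = -1 := by simp [Matrix.J]
  have e00 : A (Sum.inl 0) (Sum.inl 0) = g 0 0 := by rw [hg]; rfl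
  have e22 : A (Sum.inr 0) (Sum.inr 0) = g 2 2 := by rw [hg]; rfl
  have e20 : A (Sum.inr 0) (Sum.inl 0) = g 2 0 := by rw [hg]; rfl
  have e02 : A (Sum.inl 0) (Sum.inr 0) = g 0 2 := by rw [hg]; rfl
  have e30 : A (Sum.inr 1) (Sum.inl 0) = g 3 0 := by rw [hg]; rfl
  have e12 : A (Sum.inl 1) (Sum.inr 0) = g 1 2 := by rw [hg]; rfl
  have e10 : A (Sum.inl 1) (Sum.inl 0) = g 1 0 := by rw [hg]; rfl
  have e32 : A (Sum.inr 1) (Sum.inr 0) = g 3 2 := by rw [hg]; rfl
  rw [hJ, e00, e22, e20, e02, e30, e12, e10, e32, g20, g02, g30, g12, g10, g32] at s02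
  have d02 : g 0 0 * g 2 2 = 1 := by linear_combination (-1 : F) * s02
  have h00 : g 0 0 ≠ 0 := by
    intro h0
    rw [h0, zero_mul] at d02
    exact zero_ne_one d02
  have h11 : g 1 1 ≠ 0 := by
    intro h0
    rw [h0, mul_zero] at d01
    exact zero_ne_one d01
  have a20 : g 2 2 = g 0 0 := by
    have h3 : g 1 1 * (g 2 2 - g 0 0) = 0 := by linear_combination d12 - d01
    rcases mul_eq_zero.1 h3 with h4 | h4
    · exact absurd h4 h11
    · linear_combination h4
  have haa : g 0 0 * g 0 0 = 1 := by rw [a20] at d02; exact d02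
  have a10 : g 1 1 = g 0 0 := by
    have h3 : g 0 0 * (g 1 1 - g 0 0) = 0 := by linear_combination d01 - haa
    rcases mul_eq_zero.1 h3 with h4 | h4
    · exact absurd h4 h00
    · linear_combination h4
  have a30 : g 3 3 = g 0 0 := by
    have h3 : g 0 0 * (g 3 3 - g 0 0) = 0 := by linear_combination d03 - haa
    rcases mul_eq_zero.1 h3 with h4 | h4
    · exact absurd h4 h00
    · linear_combination h4
  have hall : ∀ i j : Fin 4, g i j = if i = j then g 0 0 else 0 := by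
    intro i j
    fin_cases i <;> fin_cases j <;> simp [g10, g20, g30, g01, g21, g31, g02, g12, g32, g03,
      g13, g23, a10, a20, a30]
  refine ⟨g 0 0, haa, ?_⟩
  ext x y
  have hxy : A x y = g (e4.symm x) (e4.symm y) := by
    rw [hg, Matrix.submatrix_apply, Equiv.apply_symm_apply, Equiv.apply_symm_apply]
  rw [hxy, hall, Matrix.smul_apply, Matrix.one_apply, smul_eq_mul]
  by_cases hxy' : x = y
  · rw [if_pos hxy', if_pos (by rw [hxy']), mul_one]
  · rw [if_neg hxy', if_neg (fun hh => hxy' (e4.symm.injective hh)), mul_zero]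

/-- The homomorphism `Sp₄(F) → O₅(F)`. -/
noncomputable def spHom5 (Q : QuadraticForm F (Unit ⊕ (Fin 2 ⊕ Fin 2) → F))
    (hQ : ∀ v, Q v = Cfsg.quadFormOdd 2 F v) :
    ↥(Matrix.symplecticGroup (Fin 2) F) →* ↥(Cfsg.isometryGroup F ⇑Q) where
  toFun A := ⟨⟨spMat5 A.1, spMat5 (A⁻¹).1,
      by rw [← spMat5_mul _ _ (A⁻¹).2, ← Submonoid.coe_mul, mul_inv_cancel, Submonoid.coe_one,
        spMat5_one],
      by rw [← spMat5_mul _ _ A.2, ← Submonoid.coe_mul, inv_mul_cancel, Submonoid.coe_one,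
        spMat5_one]⟩,
    by
      rw [Cfsg.Agent.Helper6.isometry_mem_iff]
      intro v
      rw [hQ, hQ]
      exact spMat5_isom A.1 A.2 v⟩
  map_one' := by
    apply Subtype.ext
    apply Units.ext
    exact spMat5_one
  map_mul' A B := by
    apply Subtype.ext
    apply Units.ext
    exact spMat5_mul A.1 B.1 B.2

theorem spHom5_coe (Q : QuadraticForm F (Unit ⊕ (Fin 2 ⊕ Fin 2) → F))
    (hQ : ∀ v, Q v = Cfsg.quadFormOdd 2 F v) (A : ↥(Matrix.symplecticGroup (Fin 2) F)) :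
    (((spHom5 Q hQ A : ↥(Cfsg.isometryGroup F ⇑Q)) :
      Matrix.GeneralLinearGroup (Unit ⊕ (Fin 2 ⊕ Fin 2)) F) :
      Matrix (Unit ⊕ (Fin 2 ⊕ Fin 2)) (Unit ⊕ (Fin 2 ⊕ Fin 2)) F) = spMat5 A.1 := rfl

theorem spHom5_ker_le (Q : QuadraticForm F (Unit ⊕ (Fin 2 ⊕ Fin 2) → F))
    (hQ : ∀ v, Q v = Cfsg.quadFormOdd 2 F v) :
    (spHom5 Q hQ).ker ≤ Subgroup.center ↥(Matrix.symplecticGroup (Fin 2) F) := by
  intro A hA
  have h1 : spMat5 A.1 = 1 := by
    rw [← spHom5_coe Q hQ, MonoidHom.mem_ker.1 hA]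
    rfl
  obtain ⟨ε, -, hε⟩ := spMat5_eq_one A.1 A.2 h1
  rw [Subgroup.mem_center_iff]
  intro B
  apply Subtype.ext
  change B.1 * A.1 = A.1 * B.1
  rw [hε, Matrix.mul_smul, Matrix.smul_mul, Matrix.mul_one, Matrix.one_mul]

/-- `PΩ₅(q) ≃ PSp₄(q)` for `q` odd. -/
theorem pomega5_iso [Fintype F] (hodd : Odd (Fintype.card F))
    (Q : QuadraticForm F (Unit ⊕ (Fin 2 ⊕ Fin 2) → F))
    (hQ : ∀ v, Q v = Cfsg.quadFormOdd 2 F v)
    (hnd : (QuadraticMap.polarBilin Q).Nondegenerate) :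
    Nonempty (Cfsg.POmega F ⇑Q ≃* Cfsg.PSp 2 F) := by
  classical
  have h2 : (2 : F) ≠ 0 := two_ne_zero_of_odd hodd
  have hq3 : 3 ≤ Fintype.card F := by
    have h1 : 1 < Fintype.card F := Fintype.one_lt_card
    obtain ⟨k, hk⟩ := hodd
    omega
  have hperf : commutator ↥(Matrix.symplecticGroup (Fin 2) F) = ⊤ :=
    Cfsg.Agent.S0269.result 2 (Or.inr (Or.inl ⟨rfl, hq3⟩))
  have hle : (spHom5 Q hQ).range ≤ commutator ↥(Cfsg.isometryGroup F ⇑Q) := by
    rintro _ ⟨x, rfl⟩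
    rw [← Abelianization.ker_of, MonoidHom.mem_ker]
    have h6 := Abelianization.commutator_subset_ker ((Abelianization.of).comp (spHom5 Q hQ))
    rw [hperf] at h6
    exact MonoidHom.mem_ker.1 (h6 (Subgroup.mem_top x))
  have hker := spHom5_ker_le Q hQ
  have hZ : Nat.card ↥(Subgroup.center ↥(Matrix.symplecticGroup (Fin 2) F)) = 2 := by
    rw [Cfsg.Agent.S0246.result (F := F) rfl 2 (by norm_num)]
    apply Nat.gcd_eq_left
    obtain ⟨k, hk⟩ := hodd
    exact ⟨k, by omega⟩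
  have hSp := Cfsg.Agent.S0245.result (F := F) rfl 2
  have hO := Cfsg.Agent.S0286.result (F := F) rfl hodd 2
  have hQeq : Cfsg.quadFormOdd 2 F = ⇑Q := funext (fun v => (hQ v).symm)
  rw [hQeq] at hO
  have hOSp : Nat.card ↥(Cfsg.isometryGroup F ⇑Q)
      = 2 * Nat.card ↥(Matrix.symplecticGroup (Fin 2) F) := by
    rw [hO, hSp, mul_assoc]
  obtain ⟨Ψ, hΨs, hΨk⟩ := omega_charK h2 (Sum.inl () : Unit ⊕ (Fin 2 ⊕ Fin 2))
    (Sum.inr (Sum.inl 0)) (by simp) Q hnd
  have hidx : (commutator ↥(Cfsg.isometryGroup F ⇑Q)).index = 4 := by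
    rw [← hΨk, Subgroup.index_ker, MonoidHom.range_eq_top.2 hΨs, Subgroup.card_top,
      Nat.card_prod, Nat.card_eq_fintype_card, Fintype.card_units_int]
  have h1 := Subgroup.card_mul_index (commutator ↥(Cfsg.isometryGroup F ⇑Q))
  have h3 := Subgroup.card_eq_card_quotient_mul_card_subgroup (spHom5 Q hQ).ker
  have h5 := Nat.card_congr (QuotientGroup.quotientKerEquivRange (spHom5 Q hQ)).toEquiv
  rw [h5] at h3
  rw [hidx, hOSp, h3] at h1
  have hk2 : Nat.card ↥(spHom5 Q hQ).ker ≤ 2 := (Subgroup.card_le_of_le hker).trans_eq hZ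
  have hr : Nat.card ↥(spHom5 Q hQ).range ≤ Nat.card ↥(commutator ↥(Cfsg.isometryGroup F ⇑Q)) :=
    Subgroup.card_le_of_le hle
  have hpos : 0 < Nat.card ↥(commutator ↥(Cfsg.isometryGroup F ⇑Q)) := Nat.card_pos
  have hcount : Nat.card ↥(spHom5 Q hQ).ker = 2 ∧ Nat.card ↥(spHom5 Q hQ).range
      = Nat.card ↥(commutator ↥(Cfsg.isometryGroup F ⇑Q)) := by
    generalize Nat.card ↥(spHom5 Q hQ).ker = k at h1 hk2
    generalize Nat.card ↥(spHom5 Q hQ).range = r at h1 hr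
    generalize Nat.card ↥(commutator ↥(Cfsg.isometryGroup F ⇑Q)) = c at h1 hr hpos
    interval_cases k <;> omega
  have hkerEq : (spHom5 Q hQ).ker = Subgroup.center ↥(Matrix.symplecticGroup (Fin 2) F) :=
    Subgroup.eq_of_le_of_card_ge hker (by rw [hZ, hcount.1])
  have hrange : (spHom5 Q hQ).range = commutator ↥(Cfsg.isometryGroup F ⇑Q) :=
    Subgroup.eq_of_le_of_card_ge hle (by rw [hcount.2])
  have himg : ∀ x, spHom5 Q hQ x ∈ commutator ↥(Cfsg.isometryGroup F ⇑Q) := by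
    intro x
    rw [← hrange]
    exact ⟨x, rfl⟩
  obtain ⟨f, hf⟩ : ∃ f : ↥(Matrix.symplecticGroup (Fin 2) F) →*
      ↥(commutator ↥(Cfsg.isometryGroup F ⇑Q)),
      ∀ x, (f x : ↥(Cfsg.isometryGroup F ⇑Q)) = spHom5 Q hQ x :=
    ⟨(spHom5 Q hQ).codRestrict _ himg, fun _ => rfl⟩
  have hsurj : Function.Surjective f := by
    intro ω
    have h6 : (ω : ↥(Cfsg.isometryGroup F ⇑Q)) ∈ (spHom5 Q hQ).range := by
      rw [hrange]
      exact ω.2
    obtain ⟨x, hx⟩ := h6
    exact ⟨x, Subtype.ext ((hf x).trans hx)⟩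
  have hf1 : ∀ x, f x = 1 ↔ x ∈ Subgroup.center ↥(Matrix.symplecticGroup (Fin 2) F) := by
    intro x
    rw [← hkerEq, MonoidHom.mem_ker]
    constructor
    · intro h
      rw [← hf, h]
      rfl
    · intro h
      apply Subtype.ext
      rw [hf, h]
      rfl
  apply center_quot_iso f hsurj (QuotientGroup.mk' (Subgroup.center
    ↥(Matrix.symplecticGroup (Fin 2) F))) (QuotientGroup.mk'_surjective _)
  intro g
  rw [QuotientGroup.mk'_apply, QuotientGroup.eq_one_iff, ← hf1]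
  constructor
  · intro hg
    exact odd_center_trivial h2 (by norm_num) Q hQ hnd (f g) hg
  · intro hg
    rw [hg]
    exact one_mem _

end

end Cfsg.Agent.Helper5
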