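import Mathlib
import Cfsg.Prelude.Def_Classical
import Cfsg.Prelude.Def_ClassicalGeometry

/-!
Hyperbolic pair relations among the coordinate vectors for (a quadratic form agreeing with) the
minus-type form `Σ x_i y_i + (z₁² + a z₁ z₂ + b z₂²)`.
-/

set_option autoImplicit false

namespace Cfsg.Agent.Helper5

theorem minus_pair {F : Type*} [Field F] {k : ℕ} (a b : F)
    (𝒬 : QuadraticForm F ((Fin k ⊕ Fin k) ⊕ Fin 2 → F))
    (h𝒬 : ∀ v, 𝒬 v = Cfsg.quadFormMinus k F a b v) (j : Fin k) :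
    𝒬 (Pi.single (Sum.inl (Sum.inl j)) 1) = 0 ∧ 𝒬 (Pi.single (Sum.inl (Sum.inr j)) 1) = 0 ∧
    (∀ x, QuadraticMap.polar (⇑𝒬) (Pi.single (Sum.inl (Sum.inl j)) 1) x
      = x (Sum.inl (Sum.inr j))) ∧
    (∀ x, QuadraticMap.polar (⇑𝒬) (Pi.single (Sum.inl (Sum.inr j)) 1) x
      = x (Sum.inl (Sum.inl j))) := by
  refine ⟨?_, ?_, ?_, ?_⟩
  · rw [h𝒬]
    simp [Cfsg.quadFormMinus]
  · rw [h𝒬]
    simp [Cfsg.quadFormMinus]
  · intro x
    simp only [QuadraticMap.polar, h𝒬, Cfsg.quadFormMinus]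
    simp [Pi.single_apply, add_mul, Finset.sum_add_distrib]
  · intro x
    simp only [QuadraticMap.polar, h𝒬, Cfsg.quadFormMinus]
    simp [Pi.single_apply, mul_add, Finset.sum_add_distrib]

end Cfsg.Agent.Helper5
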