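import Mathlib
import Cfsg.Agent.Helper5.TensSL2
import Cfsg.Agent.Helper5.Dickson2
import Cfsg.Agent.Helper5.OmegaCharK
import Cfsg.Agent.S0288

set_option autoImplicit false

namespace Cfsg.Agent.Helper5

open scoped Matrix

/-- The quadratic algebra `F[ω]/(ω² - aω + b)`, elements `re + im ω`. -/
@[ext] structure QE (F : Type*) (a b : F) where
  re : F
  im : F

namespace QE

variable {F : Type*} [Field F] {a b : F}

instance : Zero (QE F a b) := ⟨⟨0, 0⟩⟩
instance : One (QE F a b) := ⟨⟨1, 0⟩⟩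
instance : Add (QE F a b) := ⟨fun x y => ⟨x.re + y.re, x.im + y.im⟩⟩
instance : Neg (QE F a b) := ⟨fun x => ⟨-x.re, -x.im⟩⟩
instance : Mul (QE F a b) :=
  ⟨fun x y => ⟨x.re * y.re - b * (x.im * y.im),
    x.re * y.im + x.im * y.re + a * (x.im * y.im)⟩⟩

@[simp] theorem zero_re : (0 : QE F a b).re = 0 := rfl
@[simp] theorem zero_im : (0 : QE F a b).im = 0 := rfl
@[simp] theorem one_re : (1 : QE F a b).re = 1 := rfl
@[simp] theorem one_im : (1 : QE F a b).im = 0 := rfl
@[simp] theorem add_re (x y : QE F a b) : (x + y).re = x.re + y.re := rfl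
@[simp] theorem add_im (x y : QE F a b) : (x + y).im = x.im + y.im := rfl
@[simp] theorem neg_re (x : QE F a b) : (-x).re = -x.re := rfl
@[simp] theorem neg_im (x : QE F a b) : (-x).im = -x.im := rfl
@[simp] theorem mul_re (x y : QE F a b) :
    (x * y).re = x.re * y.re - b * (x.im * y.im) := rfl
@[simp] theorem mul_im (x y : QE F a b) :
    (x * y).im = x.re * y.im + x.im * y.re + a * (x.im * y.im) := rfl

instance addCommGroup : AddCommGroup (QE F a b) := by
  refine
  { sub := fun x y => x + -y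
    nsmul := @nsmulRec (QE F a b) ⟨0⟩ ⟨(· + ·)⟩
    zsmul := @zsmulRec (QE F a b) ⟨0⟩ ⟨(· + ·)⟩ ⟨Neg.neg⟩ (@nsmulRec (QE F a b) ⟨0⟩ ⟨(· + ·)⟩)
    add_assoc := ?_
    zero_add := ?_
    add_zero := ?_
    neg_add_cancel := ?_
    add_comm := ?_ } <;>
  intros <;>
  ext <;>
  simp [add_comm, add_left_comm]

@[simp] theorem sub_re (x y : QE F a b) : (x - y).re = x.re - y.re :=
  (sub_eq_add_neg _ _).symm
@[simp] theorem sub_im (x y : QE F a b) : (x - y).im = x.im - y.im :=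
  (sub_eq_add_neg _ _).symm

instance commRing : CommRing (QE F a b) := by
  refine
  { QE.addCommGroup with
    npow := @npowRec (QE F a b) ⟨1⟩ ⟨(· * ·)⟩,
    add_comm := ?_
    left_distrib := ?_
    right_distrib := ?_
    zero_mul := ?_
    mul_zero := ?_
    mul_assoc := ?_
    one_mul := ?_
    mul_one := ?_
    mul_comm := ?_ } <;>
  intros <;>
  ext <;>
  simp <;>
  ring

/-- Conjugation `ω ↦ a - ω`. -/
def conj (z : QE F a b) : QE F a b := ⟨z.re + a * z.im, -z.im⟩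

@[simp] theorem conj_re (z : QE F a b) : (conj z).re = z.re + a * z.im := rfl
@[simp] theorem conj_im (z : QE F a b) : (conj z).im = -z.im := rfl

@[simp] theorem conj_one : conj (1 : QE F a b) = 1 := by ext <;> simp
@[simp] theorem conj_zero : conj (0 : QE F a b) = 0 := by ext <;> simp
@[simp] theorem conj_neg (z : QE F a b) : conj (-z) = -conj z := by ext <;> simp <;> ring

/-- Conjugation as a ring homomorphism. -/
def conjHom : QE F a b →+* QE F a b where
  toFun := conj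
  map_one' := conj_one
  map_mul' x y := by ext <;> simp <;> ring
  map_zero' := conj_zero
  map_add' x y := by ext <;> simp <;> ring

theorem conjHom_apply (z : QE F a b) : conjHom z = conj z := rfl

/-- The embedding of the base field. -/
def of (x : F) : QE F a b := ⟨x, 0⟩

@[simp] theorem of_re (x : F) : (of x : QE F a b).re = x := rfl
@[simp] theorem of_im (x : F) : (of x : QE F a b).im = 0 := rfl

theorem of_injective : Function.Injective (of : F → QE F a b) :=
  fun _ _ h => congrArg QE.re h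

/-- The norm form. -/
def nrm (z : QE F a b) : F := z.re ^ 2 + a * z.re * z.im + b * z.im ^ 2

noncomputable instance : Inv (QE F a b) :=
  ⟨fun z => ⟨(z.re + a * z.im) / nrm z, -z.im / nrm z⟩⟩

theorem inv_re (z : QE F a b) : (z⁻¹).re = (z.re + a * z.im) / nrm z := rfl
theorem inv_im (z : QE F a b) : (z⁻¹).im = -z.im / nrm z := rfl

instance : Nontrivial (QE F a b) :=
  ⟨⟨0, 1, fun h => zero_ne_one (α := F) (congrArg QE.re h)⟩⟩

noncomputable instance field
    [hF : Fact (∀ z₁ z₂ : F, z₁ ^ 2 + a * z₁ * z₂ + b * z₂ ^ 2 = 0 → z₁ = 0 ∧ z₂ = 0)] :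
    Field (QE F a b) where
  mul_inv_cancel := by
    intro z hz
    have hn : nrm z ≠ 0 := by
      intro h0
      obtain ⟨h1, h2⟩ := hF.out z.re z.im h0
      exact hz (QE.ext h1 h2)
    have hn' : (z.re ^ 2 + a * z.re * z.im + b * z.im ^ 2) * (nrm z)⁻¹ = 1 :=
      mul_inv_cancel₀ hn
    ext
    · rw [mul_re, inv_re, inv_im, one_re, div_eq_mul_inv, div_eq_mul_inv]
      linear_combination hn'
    · rw [mul_im, inv_re, inv_im, one_im, div_eq_mul_inv, div_eq_mul_inv]
      ring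
  inv_zero := by
    ext
    · rw [inv_re, zero_re, zero_im]
      simp
    · rw [inv_im, zero_im]
      simp
  nnqsmul := _
  nnqsmul_def := fun _ _ => rfl
  qsmul := _
  qsmul_def := fun _ _ => rfl

/-- Coordinates. -/
def equivProd : QE F a b ≃ F × F where
  toFun z := (z.re, z.im)
  invFun p := ⟨p.1, p.2⟩
  left_inv _ := rfl
  right_inv _ := rfl

noncomputable instance [Fintype F] : Fintype (QE F a b) :=
  Fintype.ofEquiv (F × F) equivProd.symm

theorem card_eq [Fintype F] : Fintype.card (QE F a b) = Fintype.card F ^ 2 := by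
  rw [Fintype.card_congr (equivProd (a := a) (b := b)), Fintype.card_prod, sq]

end QE

section Rep

variable {F : Type*} [Field F] (a b : F)

/-- The twisted-hermitian matrix of a vector. -/
def mH (v : (Fin 1 ⊕ Fin 1) ⊕ Fin 2 → F) : Matrix (Fin 2) (Fin 2) (QE F a b) :=
  !![QE.of (v (Sum.inl (Sum.inl 0))), (⟨v (Sum.inr 0), v (Sum.inr 1)⟩ : QE F a b);
     QE.conj (⟨v (Sum.inr 0), v (Sum.inr 1)⟩ : QE F a b), QE.of (-v (Sum.inl (Sum.inr 0)))]

theorem mH_00 (v : (Fin 1 ⊕ Fin 1) ⊕ Fin 2 → F) :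
    mH a b v 0 0 = QE.of (v (Sum.inl (Sum.inl 0))) := rfl
theorem mH_01 (v : (Fin 1 ⊕ Fin 1) ⊕ Fin 2 → F) :
    mH a b v 0 1 = ⟨v (Sum.inr 0), v (Sum.inr 1)⟩ := rfl
theorem mH_10 (v : (Fin 1 ⊕ Fin 1) ⊕ Fin 2 → F) :
    mH a b v 1 0 = QE.conj ⟨v (Sum.inr 0), v (Sum.inr 1)⟩ := rfl
theorem mH_11 (v : (Fin 1 ⊕ Fin 1) ⊕ Fin 2 → F) :
    mH a b v 1 1 = QE.of (-v (Sum.inl (Sum.inr 0))) := rfl

/-- Coordinates of a matrix. -/
def mL (M : Matrix (Fin 2) (Fin 2) (QE F a b)) : (Fin 1 ⊕ Fin 1) ⊕ Fin 2 → F :=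
  Sum.elim (Sum.elim (fun _ => (M 0 0).re) (fun _ => -(M 1 1).re)) ![(M 0 1).re, (M 0 1).im]

theorem mL_mH (v : (Fin 1 ⊕ Fin 1) ⊕ Fin 2 → F) : mL a b (mH a b v) = v := by
  funext k
  rcases k with (i | i) | j
  · obtain rfl : i = 0 := Subsingleton.elim _ _
    simp [mL, mH_00]
  · obtain rfl : i = 0 := Subsingleton.elim _ _
    simp [mL, mH_11]
  · fin_cases j
    · simp [mL, mH_01]
    · simp [mL, mH_01]

theorem mH_injective :
    Function.Injective (mH a b : ((Fin 1 ⊕ Fin 1) ⊕ Fin 2 → F) → _) := by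
  intro v w h
  rw [← mL_mH a b v, ← mL_mH a b w, h]

/-- Conjugate transpose. -/
def conjT (g : Matrix (Fin 2) (Fin 2) (QE F a b)) : Matrix (Fin 2) (Fin 2) (QE F a b) :=
  (QE.conjHom.mapMatrix g)ᵀ

theorem conjT_apply (g : Matrix (Fin 2) (Fin 2) (QE F a b)) (i j : Fin 2) :
    conjT a b g i j = QE.conj (g j i) := rfl

theorem conjT_mul (g h : Matrix (Fin 2) (Fin 2) (QE F a b)) :
    conjT a b (g * h) = conjT a b h * conjT a b g := by
  unfold conjT
  rw [map_mul, Matrix.transpose_mul]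

theorem conjT_one : conjT a b (1 : Matrix (Fin 2) (Fin 2) (QE F a b)) = 1 := by
  unfold conjT
  rw [map_one, Matrix.transpose_one]

theorem conjT_det (g : Matrix (Fin 2) (Fin 2) (QE F a b)) :
    (conjT a b g).det = QE.conj g.det := by
  unfold conjT
  rw [Matrix.det_transpose, ← RingHom.map_det]
  rfl

/-- The action `M ↦ g M ḡᵀ`. -/
def act (g M : Matrix (Fin 2) (Fin 2) (QE F a b)) : Matrix (Fin 2) (Fin 2) (QE F a b) :=
  g * M * conjT a b g

theorem act_apply (g M : Matrix (Fin 2) (Fin 2) (QE F a b)) (i j : Fin 2) :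
    act a b g M i j = g i 0 * M 0 0 * QE.conj (g j 0) + g i 0 * M 0 1 * QE.conj (g j 1)
      + g i 1 * M 1 0 * QE.conj (g j 0) + g i 1 * M 1 1 * QE.conj (g j 1) := by
  simp only [act, Matrix.mul_apply, Fin.sum_univ_two, conjT_apply]
  ring

theorem act_mul (g h M : Matrix (Fin 2) (Fin 2) (QE F a b)) :
    act a b (g * h) M = act a b g (act a b h M) := by
  unfold act
  rw [conjT_mul]
  simp only [Matrix.mul_assoc]

theorem act_one (M : Matrix (Fin 2) (Fin 2) (QE F a b)) : act a b 1 M = M := by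
  unfold act
  rw [conjT_one, Matrix.one_mul, Matrix.mul_one]

theorem det_act (g M : Matrix (Fin 2) (Fin 2) (QE F a b)) (hg : g.det = 1) :
    (act a b g M).det = M.det := by
  unfold act
  rw [Matrix.det_mul, Matrix.det_mul, conjT_det, hg, QE.conj_one, one_mul, mul_one]

/-- The induced map on vectors. -/
def rho (g : Matrix (Fin 2) (Fin 2) (QE F a b)) (v : (Fin 1 ⊕ Fin 1) ⊕ Fin 2 → F) :
    (Fin 1 ⊕ Fin 1) ⊕ Fin 2 → F :=
  mL a b (act a b g (mH a b v))

theorem mH_rho (g : Matrix (Fin 2) (Fin 2) (QE F a b)) (v : (Fin 1 ⊕ Fin 1) ⊕ Fin 2 → F) :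
    mH a b (rho a b g v) = act a b g (mH a b v) := by
  refine Matrix.ext fun i j => QE.ext ?_ ?_
  · fin_cases i <;> fin_cases j <;>
      simp [rho, mL, mH_00, mH_01, mH_10, mH_11, act_apply] <;> ring
  · fin_cases i <;> fin_cases j <;>
      simp [rho, mL, mH_00, mH_01, mH_10, mH_11, act_apply] <;> ring

theorem det_mH (v : (Fin 1 ⊕ Fin 1) ⊕ Fin 2 → F) :
    (mH a b v).det = QE.of (-(Cfsg.quadFormMinus 1 F a b v)) := by
  rw [Matrix.det_fin_two, mH_00, mH_01, mH_10, mH_11]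
  ext <;> simp [Cfsg.quadFormMinus, Fin.sum_univ_one] <;> ring

theorem rho_isom (g : Matrix (Fin 2) (Fin 2) (QE F a b)) (hg : g.det = 1)
    (v : (Fin 1 ⊕ Fin 1) ⊕ Fin 2 → F) :
    Cfsg.quadFormMinus 1 F a b (rho a b g v) = Cfsg.quadFormMinus 1 F a b v := by
  have h := det_mH a b (rho a b g v)
  rw [mH_rho, det_act a b g _ hg, det_mH] at h
  exact (neg_inj.1 (QE.of_injective h)).symm

theorem rho_mul (g h : Matrix (Fin 2) (Fin 2) (QE F a b)) (v : (Fin 1 ⊕ Fin 1) ⊕ Fin 2 → F) :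
    rho a b (g * h) v = rho a b g (rho a b h v) := by
  apply mH_injective a b
  rw [mH_rho, mH_rho, mH_rho, act_mul]

theorem rho_one (v : (Fin 1 ⊕ Fin 1) ⊕ Fin 2 → F) :
    rho a b (1 : Matrix (Fin 2) (Fin 2) (QE F a b)) v = v := by
  apply mH_injective a b
  rw [mH_rho, act_one]

theorem rho_add (g : Matrix (Fin 2) (Fin 2) (QE F a b)) (v w : (Fin 1 ⊕ Fin 1) ⊕ Fin 2 → F) :
    rho a b g (v + w) = rho a b g v + rho a b g w := by
  funext k
  rcases k with (i | i) | j
  · simp [rho, mL, mH_00, mH_01, mH_10, mH_11, act_apply] <;> ring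
  · simp [rho, mL, mH_00, mH_01, mH_10, mH_11, act_apply] <;> ring
  · fin_cases j <;> simp [rho, mL, mH_00, mH_01, mH_10, mH_11, act_apply] <;> ring

theorem rho_smul (g : Matrix (Fin 2) (Fin 2) (QE F a b)) (c : F)
    (v : (Fin 1 ⊕ Fin 1) ⊕ Fin 2 → F) :
    rho a b g (c • v) = c • rho a b g v := by
  funext k
  rcases k with (i | i) | j
  · simp [rho, mL, mH_00, mH_01, mH_10, mH_11, act_apply] <;> ring
  · simp [rho, mL, mH_00, mH_01, mH_10, mH_11, act_apply] <;> ring
  · fin_cases j <;> simp [rho, mL, mH_00, mH_01, mH_10, mH_11, act_apply] <;> ring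

/-- `rho g` as a linear map. -/
def rhoLin (g : Matrix (Fin 2) (Fin 2) (QE F a b)) :
    ((Fin 1 ⊕ Fin 1) ⊕ Fin 2 → F) →ₗ[F] ((Fin 1 ⊕ Fin 1) ⊕ Fin 2 → F) where
  toFun := rho a b g
  map_add' := rho_add a b g
  map_smul' := rho_smul a b g

/-- The matrix of `rho g`. -/
noncomputable def rhoMat (g : Matrix (Fin 2) (Fin 2) (QE F a b)) :
    Matrix ((Fin 1 ⊕ Fin 1) ⊕ Fin 2) ((Fin 1 ⊕ Fin 1) ⊕ Fin 2) F :=
  LinearMap.toMatrix' (rhoLin a b g)

theorem rhoMat_mulVec (g : Matrix (Fin 2) (Fin 2) (QE F a b))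
    (v : (Fin 1 ⊕ Fin 1) ⊕ Fin 2 → F) : rhoMat a b g *ᵥ v = rho a b g v :=
  LinearMap.toMatrix'_mulVec (rhoLin a b g) v

theorem rhoMat_mul (g h : Matrix (Fin 2) (Fin 2) (QE F a b)) :
    rhoMat a b (g * h) = rhoMat a b g * rhoMat a b h := by
  have e : rhoLin a b (g * h) = (rhoLin a b g).comp (rhoLin a b h) :=
    LinearMap.ext (fun v => rho_mul a b g h v)
  unfold rhoMat
  rw [e, LinearMap.toMatrix'_comp]

theorem rhoMat_one : rhoMat a b (1 : Matrix (Fin 2) (Fin 2) (QE F a b)) = 1 := by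
  have e : rhoLin a b (1 : Matrix (Fin 2) (Fin 2) (QE F a b)) = LinearMap.id :=
    LinearMap.ext (fun v => rho_one a b v)
  unfold rhoMat
  rw [e, LinearMap.toMatrix'_id]

/-- The homomorphism `SL₂(QE) → O(Q)`. -/
noncomputable def rhoHom (Q : QuadraticForm F ((Fin 1 ⊕ Fin 1) ⊕ Fin 2 → F))
    (hQ : ∀ v, Q v = Cfsg.quadFormMinus 1 F a b v) :
    Matrix.SpecialLinearGroup (Fin 2) (QE F a b) →* ↥(Cfsg.isometryGroup F ⇑Q) where
  toFun g := ⟨⟨rhoMat a b g.1, rhoMat a b (g⁻¹).1,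
      by rw [← rhoMat_mul, ← Matrix.SpecialLinearGroup.coe_mul, mul_inv_cancel,
        Matrix.SpecialLinearGroup.coe_one, rhoMat_one],
      by rw [← rhoMat_mul, ← Matrix.SpecialLinearGroup.coe_mul, inv_mul_cancel,
        Matrix.SpecialLinearGroup.coe_one, rhoMat_one]⟩,
    by
      rw [Cfsg.Agent.Helper6.isometry_mem_iff]
      intro v
      rw [hQ, hQ]
      show Cfsg.quadFormMinus 1 F a b (rhoMat a b g.1 *ᵥ v) = Cfsg.quadFormMinus 1 F a b v
      rw [rhoMat_mulVec]
      exact rho_isom a b g.1 g.2 v⟩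
  map_one' := by
    apply Subtype.ext
    apply Units.ext
    exact rhoMat_one a b
  map_mul' g h := by
    apply Subtype.ext
    apply Units.ext
    exact rhoMat_mul a b g.1 h.1

theorem rhoHom_coe (Q : QuadraticForm F ((Fin 1 ⊕ Fin 1) ⊕ Fin 2 → F))
    (hQ : ∀ v, Q v = Cfsg.quadFormMinus 1 F a b v)
    (g : Matrix.SpecialLinearGroup (Fin 2) (QE F a b)) :
    (((rhoHom a b Q hQ g : ↥(Cfsg.isometryGroup F ⇑Q)) :
      Matrix.GeneralLinearGroup ((Fin 1 ⊕ Fin 1) ⊕ Fin 2) F) :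
      Matrix ((Fin 1 ⊕ Fin 1) ⊕ Fin 2) ((Fin 1 ⊕ Fin 1) ⊕ Fin 2) F) = rhoMat a b g.1 := rfl

theorem rhoMat_eq_one
    (hab : ∀ z₁ z₂ : F, z₁ ^ 2 + a * z₁ * z₂ + b * z₂ ^ 2 = 0 → z₁ = 0 ∧ z₂ = 0)
    (g : Matrix.SpecialLinearGroup (Fin 2) (QE F a b)) (h : rhoMat a b g.1 = 1) :
    g ∈ Subgroup.center (Matrix.SpecialLinearGroup (Fin 2) (QE F a b)) := by
  have hfix : ∀ v, act a b g.1 (mH a b v) = mH a b v := by
    intro v
    rw [← mH_rho, ← rhoMat_mulVec, h, Matrix.one_mulVec]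
  have hγn : QE.nrm (g.1 1 0) = 0 := by
    calc QE.nrm (g.1 1 0)
        = (act a b g.1 (mH a b (Pi.single (Sum.inl (Sum.inl 0)) 1)) 1 1).re := by
          rw [act_apply]
          simp [mH_00, mH_01, mH_10, mH_11, QE.nrm, Pi.single_apply] <;> ring
      _ = (mH a b (Pi.single (Sum.inl (Sum.inl 0)) 1) 1 1).re := by rw [hfix]
      _ = 0 := by simp [mH_11, Pi.single_apply]
  have hβn : QE.nrm (g.1 0 1) = 0 := by
    calc QE.nrm (g.1 0 1)
        = -(act a b g.1 (mH a b (Pi.single (Sum.inl (Sum.inr 0)) 1)) 0 0).re := by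
          rw [act_apply]
          simp [mH_00, mH_01, mH_10, mH_11, QE.nrm, Pi.single_apply] <;> ring
      _ = -(mH a b (Pi.single (Sum.inl (Sum.inr 0)) 1) 0 0).re := by rw [hfix]
      _ = 0 := by simp [mH_00, Pi.single_apply]
  have hγ : g.1 1 0 = 0 := by
    obtain ⟨h1, h2⟩ := hab (g.1 1 0).re (g.1 1 0).im hγn
    exact QE.ext h1 h2
  have hβ : g.1 0 1 = 0 := by
    obtain ⟨h1, h2⟩ := hab (g.1 0 1).re (g.1 0 1).im hβn
    exact QE.ext h1 h2
  have hdet := g.2
  rw [Matrix.det_fin_two, hβ, hγ, mul_zero, sub_zero] at hdet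
  have h4 : g.1 1 1 * QE.conj (g.1 1 1) = 1 := by
    calc g.1 1 1 * QE.conj (g.1 1 1)
        = -(act a b g.1 (mH a b (Pi.single (Sum.inl (Sum.inr 0)) 1)) 1 1) := by
          rw [act_apply]
          ext <;> simp [mH_00, mH_01, mH_10, mH_11, Pi.single_apply] <;> ring
      _ = -(mH a b (Pi.single (Sum.inl (Sum.inr 0)) 1) 1 1) := by rw [hfix]
      _ = 1 := by
          ext <;> simp [mH_11, Pi.single_apply]
  have h5 : g.1 0 0 * QE.conj (g.1 1 1) = 1 := by
    calc g.1 0 0 * QE.conj (g.1 1 1)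
        = act a b g.1 (mH a b (Pi.single (Sum.inr 0) 1)) 0 1 := by
          rw [act_apply, hβ]
          ext <;> simp [mH_00, mH_01, mH_10, mH_11, Pi.single_apply] <;> ring
      _ = mH a b (Pi.single (Sum.inr 0) 1) 0 1 := by rw [hfix]
      _ = 1 := by
          ext <;> simp [mH_01, Pi.single_apply]
  have hc : QE.conj (g.1 1 1) = g.1 0 0 := by
    linear_combination (g.1 0 0) * h4 - QE.conj (g.1 1 1) * hdet
  have hα2 : g.1 0 0 * g.1 0 0 = 1 := by
    rw [hc] at h5
    exact h5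
  have hδ : g.1 1 1 = g.1 0 0 := by
    linear_combination (g.1 0 0) * hdet - (g.1 1 1) * hα2
  rw [Matrix.SpecialLinearGroup.mem_center_iff]
  refine ⟨g.1 0 0, ?_, ?_⟩
  · rw [Fintype.card_fin, sq]
    exact hα2
  · refine Matrix.ext fun i j => ?_
    fin_cases i <;> fin_cases j <;> simp [hβ, hγ, hδ]

theorem rhoMat_of_center
    [Fact (∀ z₁ z₂ : F, z₁ ^ 2 + a * z₁ * z₂ + b * z₂ ^ 2 = 0 → z₁ = 0 ∧ z₂ = 0)]
    (g : Matrix.SpecialLinearGroup (Fin 2) (QE F a b))
    (hg : g ∈ Subgroup.center (Matrix.SpecialLinearGroup (Fin 2) (QE F a b))) :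
    rhoMat a b g.1 = 1 := by
  obtain ⟨ε, hε, e00, e01, e10, e11⟩ := Cfsg.Agent.Helper13.entries_of_mem_center_SL2 hg
  have hfun : ∀ v, rho a b g.1 v = v := by
    intro v
    apply mH_injective a b
    rw [mH_rho]
    rcases hε with rfl | rfl
    · refine Matrix.ext fun i j => ?_
      fin_cases i <;> fin_cases j <;> simp [act_apply, e00, e01, e10, e11]
    · refine Matrix.ext fun i j => ?_
      fin_cases i <;> fin_cases j <;> simp [act_apply, e00, e01, e10, e11]
  have e : rhoLin a b g.1 = LinearMap.id := LinearMap.ext hfun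
  unfold rhoMat
  rw [e, LinearMap.toMatrix'_id]

end Rep

/-- An element of `SL₂` commuting with everything up to the centre is central (any field). -/
theorem sl2_second_center_any {L : Type*} [Field L] (g : Matrix.SpecialLinearGroup (Fin 2) L)
    (hg : ∀ h : Matrix.SpecialLinearGroup (Fin 2) L,
      g * h * (h * g)⁻¹ ∈ Subgroup.center (Matrix.SpecialLinearGroup (Fin 2) L)) :
    g ∈ Subgroup.center (Matrix.SpecialLinearGroup (Fin 2) L) := by
  by_cases h2 : (2 : L) = 0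
  · haveI : CharP L 2 := CharTwo.of_one_ne_zero_of_two_eq_zero one_ne_zero h2
    rw [Subgroup.mem_center_iff]
    intro h
    have h1 := Cfsg.Agent.Helper13.center_SL2_trivial_of_charTwo (hg h)
    have h3 : g * h = h * g := mul_inv_eq_one.1 h1
    exact h3.symm
  · exact sl2_second_center h2 g hg

/-- `PSL₂` of isomorphic fields. -/
theorem psl2_congr {L K : Type*} [Field L] [Field K] (e : L ≃+* K) :
    Nonempty (Matrix.ProjectiveSpecialLinearGroup (Fin 2) L ≃*
      Matrix.ProjectiveSpecialLinearGroup (Fin 2) K) := by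
  obtain ⟨E, hE⟩ : ∃ E : Matrix.SpecialLinearGroup (Fin 2) K →*
      Matrix.SpecialLinearGroup (Fin 2) L, ∀ g i j, (E g).1 i j = e.symm (g.1 i j) :=
    ⟨Matrix.SpecialLinearGroup.map (e.symm : K →+* L), fun g i j => rfl⟩
  obtain ⟨E', hE'⟩ : ∃ E' : Matrix.SpecialLinearGroup (Fin 2) L →*
      Matrix.SpecialLinearGroup (Fin 2) K, ∀ g i j, (E' g).1 i j = e (g.1 i j) :=
    ⟨Matrix.SpecialLinearGroup.map (e : L →+* K), fun g i j => rfl⟩
  have h1 : ∀ g, E (E' g) = g := fun g =>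
    Subtype.ext (Matrix.ext fun i j => by rw [hE, hE', e.symm_apply_apply])
  have h2 : ∀ g, E' (E g) = g := fun g =>
    Subtype.ext (Matrix.ext fun i j => by rw [hE', hE, e.apply_symm_apply])
  apply center_quot_iso E (fun g => ⟨E' g, h1 g⟩)
    (QuotientGroup.mk' (Subgroup.center (Matrix.SpecialLinearGroup (Fin 2) K)))
    (QuotientGroup.mk'_surjective _)
  intro g
  rw [QuotientGroup.mk'_apply, QuotientGroup.eq_one_iff, Subgroup.mem_center_iff,
    Subgroup.mem_center_iff]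
  constructor
  · intro hg x
    have h3 := hg (E x)
    rw [← map_mul, ← map_mul] at h3
    have h4 := congrArg E' h3
    rwa [h2, h2] at h4
  · intro hg x
    rw [← h1 x, ← map_mul, ← map_mul, hg (E' x)]

/-- `PΩ⁻₄(q) ≃ PSL₂(q²)`. -/
theorem pomega4m_iso {F K : Type*} [Field F] [Fintype F] [Field K] [Fintype K]
    (hK : Fintype.card K = Fintype.card F ^ 2) (a b : F)
    (hab : ∀ z₁ z₂ : F, z₁ ^ 2 + a * z₁ * z₂ + b * z₂ ^ 2 = 0 → z₁ = 0 ∧ z₂ = 0) :
    Nonempty (Cfsg.POmega F (Cfsg.quadFormMinus 1 F a b) ≃*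
      Matrix.ProjectiveSpecialLinearGroup (Fin 2) K) := by
  haveI : Fact (∀ z₁ z₂ : F, z₁ ^ 2 + a * z₁ * z₂ + b * z₂ ^ 2 = 0 → z₁ = 0 ∧ z₂ = 0) := ⟨hab⟩
  obtain ⟨𝒬, h𝒬, hnd⟩ := Cfsg.Agent.S0288.minus_model F a b hab 1
  have hQeq : Cfsg.quadFormMinus 1 F a b = ⇑𝒬 := funext (fun v => (h𝒬 v).symm)
  have hO' : Nat.card ↥(Cfsg.isometryGroup F ⇑𝒬)
      = 2 * Fintype.card F ^ 2 * (Fintype.card F ^ 2 + 1) * (Fintype.card F ^ 2 - 1) := by
    have h := Cfsg.Agent.S0288.minus_card F a b hab 1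
    rw [hQeq] at h
    simpa using h
  rw [hQeq]
  have hLcard : Fintype.card (QE F a b) = Fintype.card F ^ 2 := QE.card_eq
  have hq1 : 1 < Fintype.card F := Fintype.one_lt_card
  have h4 : 4 ≤ Fintype.card (QE F a b) := by
    rw [hLcard]
    nlinarith
  obtain ⟨c, hc, hc2⟩ := exists_ne_zero_sq_ne_one h4
  have hperf : commutator (Matrix.SpecialLinearGroup (Fin 2) (QE F a b)) = ⊤ :=
    Matrix.SL2.commutator_eq_top hc hc2
  have himg : ∀ g, rhoHom a b 𝒬 h𝒬 g ∈ commutator ↥(Cfsg.isometryGroup F ⇑𝒬) := by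
    intro g
    rw [← Abelianization.ker_of, MonoidHom.mem_ker]
    have h6 := Abelianization.commutator_subset_ker
      ((Abelianization.of).comp (rhoHom a b 𝒬 h𝒬))
    rw [hperf] at h6
    exact MonoidHom.mem_ker.1 (h6 (Subgroup.mem_top g))
  obtain ⟨f, hf⟩ : ∃ f : Matrix.SpecialLinearGroup (Fin 2) (QE F a b) →*
      ↥(commutator ↥(Cfsg.isometryGroup F ⇑𝒬)),
      ∀ g, (f g : ↥(Cfsg.isometryGroup F ⇑𝒬)) = rhoHom a b 𝒬 h𝒬 g :=
    ⟨(rhoHom a b 𝒬 h𝒬).codRestrict _ himg, fun g => rfl⟩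
  have hker : f.ker = Subgroup.center (Matrix.SpecialLinearGroup (Fin 2) (QE F a b)) := by
    ext g
    rw [MonoidHom.mem_ker]
    constructor
    · intro hg
      apply rhoMat_eq_one a b hab
      rw [← rhoHom_coe a b 𝒬 h𝒬, ← hf, hg]
      rfl
    · intro hg
      apply Subtype.ext
      rw [hf]
      apply Subtype.ext
      apply Units.ext
      rw [rhoHom_coe]
      exact rhoMat_of_center a b g hg
  have hSL := Cfsg.Agent.S2301.card_SL2 (F := QE F a b)
  rw [hLcard] at hSL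
  have h3 := Subgroup.card_eq_card_quotient_mul_card_subgroup f.ker
  have h5 := Nat.card_congr (QuotientGroup.quotientKerEquivRange f).toEquiv
  have hkey : (Fintype.card F ^ 2) ^ 2 - 1
      = (Fintype.card F ^ 2 + 1) * (Fintype.card F ^ 2 - 1) := by
    obtain ⟨s, hs⟩ : ∃ s, Fintype.card F ^ 2 = s + 1 :=
      ⟨Fintype.card F ^ 2 - 1, by
        have : 0 < Fintype.card F ^ 2 := by positivity
        omega⟩
    rw [hs]
    have hs2 : (s + 1) ^ 2 = (s + 1 + 1) * s + 1 := by ring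
    rw [hs2, Nat.add_sub_cancel, Nat.add_sub_cancel]
  have hrange : f.range = ⊤ := by
    rcases Nat.even_or_odd (Fintype.card F) with heven | hodd
    · have hchar : CharP F 2 :=
        ringChar.of_eq (FiniteField.even_card_iff_char_two.2 (Nat.even_iff.1 heven))
      have h2 : (2 : F) = 0 := by exact_mod_cast CharP.cast_eq_zero F 2
      have hle : commutator ↥(Cfsg.isometryGroup F ⇑𝒬) ≤ (dick2 h2 𝒬 hnd).ker :=
        fun g hg => MonoidHom.mem_ker.2 (dick2_comm h2 𝒬 hnd g hg)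
      obtain ⟨w, hw⟩ : ∃ w, 𝒬 w ≠ 0 :=
        ⟨Pi.single (Sum.inr 0) 1, by
          rw [h𝒬]
          simp [Cfsg.quadFormMinus, Pi.single_apply]⟩
      have hsurj : Function.Surjective (dick2 h2 𝒬 hnd) := by
        intro u
        rcases Int.units_eq_one_or u with rfl | rfl
        · exact ⟨1, map_one _⟩
        · exact ⟨reflEl 𝒬 w hw, dick2_refl h2 𝒬 hnd _ w hw (actsRefl_reflEl 𝒬 w hw)⟩
      have hidx : (dick2 h2 𝒬 hnd).ker.index = 2 := by
        rw [Subgroup.index_ker, MonoidHom.range_eq_top.2 hsurj, Subgroup.card_top,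
          Nat.card_eq_fintype_card, Fintype.card_units_int]
      have h1 := Subgroup.card_mul_index (dick2 h2 𝒬 hnd).ker
      rw [hidx, hO'] at h1
      have hle' := Subgroup.card_le_of_le hle
      haveI : CharP (QE F a b) 2 :=
        ringChar.of_eq (FiniteField.even_card_iff_char_two.2 (by
          rw [hLcard]
          exact Nat.even_iff.1 (Nat.even_pow.2 ⟨heven, by norm_num⟩)))
      have h4c : Nat.card ↥f.ker = 1 := by
        rw [hker]
        have hbot : Subgroup.center (Matrix.SpecialLinearGroup (Fin 2) (QE F a b)) = ⊥ := by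
          rw [Subgroup.eq_bot_iff_forall]
          intro z hz
          exact Cfsg.Agent.Helper13.center_SL2_trivial_of_charTwo hz
        rw [hbot]
        exact Subgroup.card_bot
      rw [h4c, h5, hSL, hkey] at h3
      apply Subgroup.eq_top_of_le_card
      rw [mul_assoc, mul_assoc] at h1
      generalize Fintype.card F ^ 2 * ((Fintype.card F ^ 2 + 1) * (Fintype.card F ^ 2 - 1))
        = W at h1 h3
      omega
    · have h2 : (2 : F) ≠ 0 := two_ne_zero_of_odd hodd
      obtain ⟨Ψ, hΨs, hΨk⟩ := omega_charK h2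
        (Sum.inl (Sum.inl 0) : (Fin 1 ⊕ Fin 1) ⊕ Fin 2) (Sum.inl (Sum.inr 0)) (by simp) 𝒬 hnd
      have hidx : (commutator ↥(Cfsg.isometryGroup F ⇑𝒬)).index = 4 := by
        rw [← hΨk, Subgroup.index_ker, MonoidHom.range_eq_top.2 hΨs, Subgroup.card_top,
          Nat.card_prod, Nat.card_eq_fintype_card, Fintype.card_units_int]
      have h1 := Subgroup.card_mul_index (commutator ↥(Cfsg.isometryGroup F ⇑𝒬))
      rw [hidx, hO'] at h1
      have hoddL : Odd (Fintype.card (QE F a b)) := by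
        rw [hLcard]
        exact hodd.pow
      have h4c : Nat.card ↥f.ker = 2 := by
        rw [hker]
        exact Cfsg.Agent.Helper13.card_center_SL2_of_odd hoddL
      rw [h4c, h5, hSL, hkey] at h3
      apply Subgroup.eq_top_of_card_eq
      rw [mul_assoc, mul_assoc] at h1
      generalize Fintype.card F ^ 2 * ((Fintype.card F ^ 2 + 1) * (Fintype.card F ^ 2 - 1))
        = W at h1 h3
      omega
  have hsurj : Function.Surjective f := MonoidHom.range_eq_top.1 hrange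
  have hiso : Nonempty (Cfsg.POmega F ⇑𝒬 ≃*
      Matrix.ProjectiveSpecialLinearGroup (Fin 2) (QE F a b)) := by
    apply center_quot_iso f hsurj (QuotientGroup.mk' (Subgroup.center
      (Matrix.SpecialLinearGroup (Fin 2) (QE F a b)))) (QuotientGroup.mk'_surjective _)
    intro g
    rw [QuotientGroup.mk'_apply, QuotientGroup.eq_one_iff]
    constructor
    · intro hg
      apply sl2_second_center_any
      intro h
      rw [← hker, MonoidHom.mem_ker, map_mul, map_inv, map_mul, map_mul,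
        Subgroup.mem_center_iff.1 hg (f h), mul_inv_cancel]
    · intro hg
      have h6 : f g = 1 := by
        rw [← MonoidHom.mem_ker, hker]
        exact hg
      rw [h6]
      exact one_mem _
  obtain ⟨i1⟩ := hiso
  obtain ⟨i2⟩ := psl2_congr (FiniteField.ringEquivOfCardEq (hLcard.trans hK.symm))
  exact ⟨i1.trans i2⟩

end Cfsg.Agent.Helper5
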