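import Mathlib

namespace Cfsg.Agent.Helper5

open MulAction

/-- A block (for the pointwise stabiliser of `s`) disjoint from `s` is trivial on the complement
of `s` when that stabiliser is primitive there. -/
theorem block_trivial_of_preprim {G α : Type*} [Group G] [MulAction G α] (s : Set α)
    (hp : IsPreprimitive (fixingSubgroup G s) (SubMulAction.ofFixingSubgroup G s))
    (B : Set α) (hB : IsBlock (fixingSubgroup G s) B) (hBs : ∀ x ∈ B, x ∉ s) :
    B.Subsingleton ∨ ∀ x, x ∉ s → x ∈ B := by
  have h1 : IsBlock (fixingSubgroup G s)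
      (Subtype.val ⁻¹' B : Set (SubMulAction.ofFixingSubgroup G s)) :=
    hB.subtype_val_preimage
  rcases hp.isTrivialBlock_of_isBlock h1 with h | h
  · left
    intro x hx y hy
    have := @h ⟨x, hBs x hx⟩ hx ⟨y, hBs y hy⟩ hy
    exact congrArg Subtype.val this
  · right
    intro x hx
    have : (⟨x, hx⟩ : SubMulAction.ofFixingSubgroup G s) ∈
        (Subtype.val ⁻¹' B : Set (SubMulAction.ofFixingSubgroup G s)) := by rw [h]; trivial
    exact this

end Cfsg.Agent.Helper5
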