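import Mathlib
import Cfsg.Agent.Helper5.SpinorList
import Cfsg.Agent.Helper5.Disc

/-!
The scalar `-1` as a product of reflections in an orthogonal basis (odd characteristic), and
the resulting criterion: `-1` lies in the commutator subgroup of the isometry group (even
number of coordinates) iff the discriminant is a square.
-/

set_option autoImplicit false

open scoped Matrix

namespace Cfsg.Agent.Helper5

section

variable {F : Type*} [Field F] {κ : Type} [Fintype κ] [DecidableEq κ]

/-- A product of reflections fixes every vector orthogonal to all the reflecting vectors. -/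
theorem refl_list_fix (Q : QuadraticForm F (κ → F)) (vs : List (κ → F)) (x : κ → F)
    (h : ∀ w ∈ vs, QuadraticMap.polar (⇑Q) w x = 0) :
    (vs.map (fun v => Cfsg.reflectionMatrix ⇑Q v)).prod *ᵥ x = x := by
  induction vs with
  | nil => simp
  | cons v vs ih =>
    rw [List.map_cons, List.prod_cons, ← Matrix.mulVec_mulVec,
      ih (fun w hw => h w (List.mem_cons_of_mem _ hw)),
      Cfsg.Agent.Helper6.reflectionMatrix_mulVec_of_polar_eq_zero Q v x (h v List.mem_cons_self)]

/-- A product of reflections in pairwise orthogonal vectors negates each of them. -/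
theorem refl_list_neg (Q : QuadraticForm F (κ → F)) (vs : List (κ → F))
    (hvs : ∀ v ∈ vs, Q v ≠ 0)
    (hp : vs.Pairwise (fun a b => QuadraticMap.polar (⇑Q) a b = 0)) (x : κ → F) (hx : x ∈ vs) :
    (vs.map (fun v => Cfsg.reflectionMatrix ⇑Q v)).prod *ᵥ x = -x := by
  induction vs with
  | nil => simp at hx
  | cons v vs ih =>
    rw [List.pairwise_cons] at hp
    obtain ⟨hp1, hp2⟩ := hp
    rw [List.map_cons, List.prod_cons, ← Matrix.mulVec_mulVec]
    rcases List.mem_cons.1 hx with hxv | hx'
    · rw [hxv, refl_list_fix Q vs v (fun w hw => by rw [QuadraticMap.polar_comm]; exact hp1 w hw),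
        Cfsg.Agent.Helper6.reflectionMatrix_mulVec_self Q v (hvs v List.mem_cons_self)]
    · rw [ih (fun w hw => hvs w (List.mem_cons_of_mem _ hw)) hp2 hx', Matrix.mulVec_neg,
        Cfsg.Agent.Helper6.reflectionMatrix_mulVec_of_polar_eq_zero Q v x (hp1 x hx')]

variable [Fintype F]

/-- `-1` lies in the commutator subgroup of the isometry group (even number of coordinates, odd
characteristic) iff the discriminant is a square. -/
theorem neg_one_mem_omega_iff_disc (h2 : (2 : F) ≠ 0) (i₀ i₁ : κ) (hi : i₀ ≠ i₁)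
    (Q : QuadraticForm F (κ → F)) (hQ : (QuadraticMap.polarBilin Q).Nondegenerate)
    (hcard : Even (Fintype.card κ)) :
    (∃ g : ↥(Cfsg.isometryGroup F ⇑Q), g ∈ Cfsg.Omega F ⇑Q ∧
      ((g : Matrix.GeneralLinearGroup κ F) : Matrix κ κ F) = -1)
      ↔ IsSquare (Matrix.of (fun i j : κ =>
          QuadraticMap.polar ⇑Q (Pi.single i 1) (Pi.single j 1))).det := by
  classical
  have hinv : Invertible (2 : F) := invertibleOfNonzero h2
  have hsymm : LinearMap.IsSymm (QuadraticMap.polarBilin Q) :=
    ⟨fun x y => QuadraticMap.polar_comm _ x y⟩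
  obtain ⟨v, hv⟩ := LinearMap.BilinForm.exists_orthogonal_basis hsymm
  have hNc : Module.finrank F (κ → F) = Fintype.card κ := Module.finrank_fintype_fun_eq_card F
  have hortho : ∀ i j, i ≠ j → QuadraticMap.polar (⇑Q) (v i) (v j) = 0 :=
    fun i j hij => LinearMap.isOrthoᵢ_def.1 hv i j hij
  have hQv : ∀ i, Q (v i) ≠ 0 := by
    intro i h0
    apply hv.not_isOrtho_basis_self_of_separatingLeft hQ.1 i
    change QuadraticMap.polar (⇑Q) (v i) (v i) = 0
    rw [QuadraticMap.polar_self, h0, smul_zero]
  obtain ⟨L, hLdef⟩ : ∃ L : List (κ → F), L = List.ofFn (fun i => (v i : κ → F)) := ⟨_, rfl⟩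
  have hmem : ∀ j, (v j : κ → F) ∈ L := by
    intro j
    rw [hLdef, List.mem_ofFn']
    exact ⟨j, rfl⟩
  have hL1 : ∀ w ∈ L, Q w ≠ 0 := by
    intro w hw
    rw [hLdef, List.mem_ofFn'] at hw
    obtain ⟨i, rfl⟩ := hw
    exact hQv i
  have hL2 : L.Pairwise (fun a b => QuadraticMap.polar (⇑Q) a b = 0) := by
    rw [hLdef, List.pairwise_ofFn]
    intro i j hij
    exact hortho i j (ne_of_lt hij)
  have hLlen : L.length = Fintype.card κ := by
    rw [hLdef, List.length_ofFn, hNc]
  have hP : (L.map (fun w => Cfsg.reflectionMatrix ⇑Q w)).prod = -1 := by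
    apply Matrix.toLin'.injective
    apply v.ext
    intro j
    rw [Matrix.toLin'_apply, Matrix.toLin'_apply, refl_list_neg Q L hL1 hL2 (v j) (hmem j),
      Matrix.neg_mulVec, Matrix.one_mulVec]
  have hprod : (L.map (fun w => Q w)).prod = ∏ i, Q (v i) := by
    rw [hLdef, List.map_ofFn, List.prod_ofFn]
    rfl
  have hdisc : IsSquare (Matrix.of (fun i j : κ =>
      QuadraticMap.polar ⇑Q (Pi.single i 1) (Pi.single j 1))).det ↔ IsSquare (∏ i, Q (v i)) := by
    have hstd : Matrix.of (fun i j : κ => QuadraticMap.polar ⇑Q (Pi.single i 1) (Pi.single j 1))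
        = LinearMap.BilinForm.toMatrix (Pi.basisFun F κ) (QuadraticMap.polarBilin Q) := by
      ext i j
      rw [LinearMap.BilinForm.toMatrix_apply, Pi.basisFun_apply, Pi.basisFun_apply]
      rfl
    have hdiag : LinearMap.BilinForm.toMatrix v (QuadraticMap.polarBilin Q)
        = Matrix.diagonal (fun i => 2 * Q (v i)) := by
      ext i j
      rw [LinearMap.BilinForm.toMatrix_apply]
      by_cases hij : i = j
      · subst hij
        rw [Matrix.diagonal_apply_eq]
        change QuadraticMap.polar (⇑Q) (v i) (v i) = _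
        rw [QuadraticMap.polar_self, two_smul, two_mul]
      · rw [Matrix.diagonal_apply_ne _ hij]
        exact hortho i j hij
    have hdet : (LinearMap.BilinForm.toMatrix v (QuadraticMap.polarBilin Q)).det
        = 2 ^ (Fintype.card κ) * ∏ i, Q (v i) := by
      have h2pow : (2 : F) ^ (Module.finrank F (κ → F)) = 2 ^ Fintype.card κ := by rw [hNc]
      rw [hdiag, Matrix.det_diagonal, Finset.prod_mul_distrib, Finset.prod_const,
        Finset.card_univ, Fintype.card_fin, h2pow]
    obtain ⟨k, hk⟩ := hcard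
    have h2N : (2 : F) ^ (Fintype.card κ) = (2 ^ k) * (2 ^ k) := by rw [hk, pow_add]
    have h2k : (2 : F) ^ k ≠ 0 := pow_ne_zero _ h2
    rw [hstd]
    constructor
    · intro h
      have h' := disc_basis_change (QuadraticMap.polarBilin Q) (Pi.basisFun F κ) v 1
        (by rwa [one_mul])
      rw [one_mul, hdet, h2N] at h'
      obtain ⟨r, hr⟩ := h'
      refine ⟨r / 2 ^ k, ?_⟩
      field_simp
      linear_combination hr
    · intro h
      have h' : IsSquare (1 * (LinearMap.BilinForm.toMatrix v (QuadraticMap.polarBilin Q)).det) := by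
        rw [one_mul, hdet, h2N]
        obtain ⟨r, hr⟩ := h
        exact ⟨2 ^ k * r, by rw [hr]; ring⟩
      have h3 := disc_basis_change (QuadraticMap.polarBilin Q) v (Pi.basisFun F κ) 1 h'
      rwa [one_mul] at h3
  rw [hdisc, ← hprod]
  constructor
  · rintro ⟨g, hgΩ, hg⟩
    exact ((spinor_list h2 i₀ i₁ hi Q hQ g L hL1 (hg.trans hP.symm)).1 hgΩ).2
  · intro hsq
    obtain ⟨g, hg⟩ := exists_iso_of_refl_list Q L hL1
    exact ⟨g, (spinor_list h2 i₀ i₁ hi Q hQ g L hL1 hg).2 ⟨by rw [hLlen]; exact hcard, hsq⟩,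
      hg.trans hP⟩

end

end Cfsg.Agent.Helper5
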