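import Mathlib
import Cfsg.Prelude.Def_Classical
import Cfsg.Prelude.Def_ClassicalGeometry
import Cfsg.Agent.Helper6.Symp
import Cfsg.Agent.Helper5.SympGen

set_option autoImplicit false

namespace Cfsg.Agent.Helper5

open scoped Matrix

theorem sympForm_sum {F : Type*} [CommRing F] (m : ℕ) (u v : Fin m ⊕ Fin m → F) :
    Cfsg.sympForm m F u v
      = ∑ i, (u (Sum.inr i) * v (Sum.inl i) - u (Sum.inl i) * v (Sum.inr i)) := by
  unfold Cfsg.sympForm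
  simp only [dotProduct, Fintype.sum_sum_type, Cfsg.Agent.Helper6.J_mulVec_apply_inl,
    Cfsg.Agent.Helper6.J_mulVec_apply_inr]
  rw [← Finset.sum_add_distrib]
  exact Finset.sum_congr rfl (fun i _ => by ring)

theorem plus_polar_char2 {F : Type*} [Field F] [CharP F 2] (m : ℕ)
    (u v : Fin m ⊕ Fin m → F) :
    Cfsg.quadFormPlus m F (u + v)
      = Cfsg.quadFormPlus m F u + Cfsg.quadFormPlus m F v + Cfsg.sympForm m F u v := by
  rw [sympForm_sum]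
  unfold Cfsg.quadFormPlus
  rw [← Finset.sum_add_distrib, ← Finset.sum_add_distrib]
  refine Finset.sum_congr rfl (fun i _ => ?_)
  simp only [Pi.add_apply]
  have h2 : (2 : F) = 0 := CharTwo.two_eq_zero
  linear_combination (u (Sum.inl i) * v (Sum.inr i)) * h2

theorem sp_mem_of_preserves {F : Type*} [Field F] (m : ℕ)
    (M : Matrix (Fin m ⊕ Fin m) (Fin m ⊕ Fin m) F)
    (hp : ∀ u v, Cfsg.sympForm m F (M *ᵥ u) (M *ᵥ v) = Cfsg.sympForm m F u v) :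
    M ∈ Matrix.symplecticGroup (Fin m) F := by
  rw [SymplecticGroup.mem_iff']
  have h1 : (Matrix.toBilin' (Matrix.J (Fin m) F)).comp (Matrix.toLin' M) (Matrix.toLin' M)
      = Matrix.toBilin' (Matrix.J (Fin m) F) := by
    refine LinearMap.ext₂ fun u v => ?_
    rw [LinearMap.BilinForm.comp_apply, Matrix.toLin'_apply, Matrix.toLin'_apply,
      Matrix.toBilin'_apply', Matrix.toBilin'_apply']
    exact hp u v
  rw [Matrix.toBilin'_comp] at h1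
  exact Matrix.toBilin'.injective h1

theorem unitBlock_mulVec_inl {κ : Type*} [Fintype κ] {F : Type*} [Field F]
    (M : Matrix (Unit ⊕ κ) (Unit ⊕ κ) F) (v : Unit ⊕ κ → F) :
    (M *ᵥ v) (Sum.inl ()) = M (Sum.inl ()) (Sum.inl ()) * v (Sum.inl ())
      + ∑ j, M (Sum.inl ()) (Sum.inr j) * v (Sum.inr j) := by
  simp [Matrix.mulVec, dotProduct, Fintype.sum_sum_type]

theorem unitBlock_mulVec_inr {κ : Type*} [Fintype κ] {F : Type*} [Field F]
    (M : Matrix (Unit ⊕ κ) (Unit ⊕ κ) F) (v : Unit ⊕ κ → F) (i : κ) :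
    (M *ᵥ v) (Sum.inr i) = M (Sum.inr i) (Sum.inl ()) * v (Sum.inl ())
      + ∑ j, M (Sum.inr i) (Sum.inr j) * v (Sum.inr j) := by
  simp [Matrix.mulVec, dotProduct, Fintype.sum_sum_type]

theorem toBlocks₂₂_mul_of_col {κ : Type*} [Fintype κ] {F : Type*} [Field F]
    (M N : Matrix (Unit ⊕ κ) (Unit ⊕ κ) F) (hM : ∀ k, M (Sum.inr k) (Sum.inl ()) = 0) :
    (M * N).toBlocks₂₂ = M.toBlocks₂₂ * N.toBlocks₂₂ := by
  ext i j
  show (M * N) (Sum.inr i) (Sum.inr j)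
    = ∑ k, M (Sum.inr i) (Sum.inr k) * N (Sum.inr k) (Sum.inr j)
  rw [Matrix.mul_apply, Fintype.sum_sum_type]
  simp [hM]

theorem oddsp_quad_polar {F : Type*} [Field F] [CharP F 2] (m : ℕ)
    (u v : Unit ⊕ (Fin m ⊕ Fin m) → F) :
    Cfsg.quadFormOdd m F (u + v) = Cfsg.quadFormOdd m F u + Cfsg.quadFormOdd m F v
      + Cfsg.sympForm m F (fun k => u (Sum.inr k)) (fun k => v (Sum.inr k)) := by
  have hQ : ∀ v : Unit ⊕ (Fin m ⊕ Fin m) → F, Cfsg.quadFormOdd m F v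
      = v (Sum.inl ()) ^ 2 + Cfsg.quadFormPlus m F (fun k => v (Sum.inr k)) := fun v => rfl
  rw [hQ, hQ u, hQ v]
  have h1 : (fun k => (u + v) (Sum.inr k))
      = (fun k => u (Sum.inr k)) + (fun k => v (Sum.inr k)) := rfl
  rw [h1, plus_polar_char2, Pi.add_apply, CharTwo.add_sq]
  ring

theorem odd_pres {F : Type*} [Field F] [CharP F 2] (m : ℕ)
    (M : Matrix (Unit ⊕ (Fin m ⊕ Fin m)) (Unit ⊕ (Fin m ⊕ Fin m)) F)
    (hM : ∀ v, Cfsg.quadFormOdd m F (M *ᵥ v) = Cfsg.quadFormOdd m F v)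
    (u v : Unit ⊕ (Fin m ⊕ Fin m) → F) :
    Cfsg.sympForm m F (fun k => (M *ᵥ u) (Sum.inr k)) (fun k => (M *ᵥ v) (Sum.inr k))
      = Cfsg.sympForm m F (fun k => u (Sum.inr k)) (fun k => v (Sum.inr k)) := by
  have h1 := hM (u + v)
  rw [Matrix.mulVec_add, oddsp_quad_polar, oddsp_quad_polar, hM, hM] at h1
  exact add_left_cancel h1

theorem odd_first_col {F : Type*} [Field F] [CharP F 2] (m : ℕ)
    (M N : Matrix (Unit ⊕ (Fin m ⊕ Fin m)) (Unit ⊕ (Fin m ⊕ Fin m)) F) (hMN : M * N = 1)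
    (hM : ∀ v, Cfsg.quadFormOdd m F (M *ᵥ v) = Cfsg.quadFormOdd m F v) :
    M (Sum.inl ()) (Sum.inl ()) = 1 ∧ ∀ k, M (Sum.inr k) (Sum.inl ()) = 0 := by
  classical
  have h2 : (2 : F) = 0 := CharTwo.two_eq_zero
  obtain ⟨e0, he0⟩ : ∃ e0 : Unit ⊕ (Fin m ⊕ Fin m) → F, e0 = Pi.single (Sum.inl ()) 1 :=
    ⟨_, rfl⟩
  have he0r : (fun k => e0 (Sum.inr k)) = (0 : Fin m ⊕ Fin m → F) := by
    funext k
    rw [he0]
    simp
  have hcol : ∀ k, (M *ᵥ e0) k = M k (Sum.inl ()) := by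
    intro k
    rw [he0, Matrix.mulVec_single_one]
    rfl
  have hz : (fun k => (M *ᵥ e0) (Sum.inr k)) = (0 : Fin m ⊕ Fin m → F) := by
    apply (sB_nondeg (F := F) m).1
    intro w
    rw [sB_apply]
    have h1 := odd_pres m M hM e0 (N *ᵥ (Sum.elim (fun _ => 0) w))
    rw [Matrix.mulVec_mulVec, hMN, Matrix.one_mulVec, he0r] at h1
    have h3 : Cfsg.sympForm m F (0 : Fin m ⊕ Fin m → F)
        (fun k => (N *ᵥ (Sum.elim (fun _ => 0) w)) (Sum.inr k)) = 0 := by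
      unfold Cfsg.sympForm
      rw [zero_dotProduct]
    rw [h3] at h1
    exact h1
  have hk0 : ∀ k, M (Sum.inr k) (Sum.inl ()) = 0 := by
    intro k
    rw [← hcol]
    exact congrFun hz k
  refine ⟨?_, hk0⟩
  have h4 := hM e0
  have hQ : ∀ v : Unit ⊕ (Fin m ⊕ Fin m) → F, Cfsg.quadFormOdd m F v
      = v (Sum.inl ()) ^ 2 + Cfsg.quadFormPlus m F (fun k => v (Sum.inr k)) := fun v => rfl
  rw [hQ, hQ e0, hz, he0r, hcol] at h4
  have hp0 : Cfsg.quadFormPlus m F (0 : Fin m ⊕ Fin m → F) = 0 := by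
    simp [Cfsg.quadFormPlus]
  have he00 : e0 (Sum.inl ()) = 1 := by
    rw [he0]
    simp
  rw [hp0, he00] at h4
  have h5 : (M (Sum.inl ()) (Sum.inl ()) - 1) ^ 2 = 0 := by
    linear_combination h4 + (1 - M (Sum.inl ()) (Sum.inl ())) * h2
  exact sub_eq_zero.1 ((pow_eq_zero_iff (by norm_num)).1 h5)

theorem odd_block {F : Type*} [Field F] [CharP F 2] (m : ℕ)
    (M : Matrix (Unit ⊕ (Fin m ⊕ Fin m)) (Unit ⊕ (Fin m ⊕ Fin m)) F)
    (hM : ∀ v, Cfsg.quadFormOdd m F (M *ᵥ v) = Cfsg.quadFormOdd m F v)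
    (hcol : ∀ k, M (Sum.inr k) (Sum.inl ()) = 0) :
    (∀ w : Fin m ⊕ Fin m → F, (∑ j, M (Sum.inl ()) (Sum.inr j) * w j) ^ 2
        + Cfsg.quadFormPlus m F (M.toBlocks₂₂ *ᵥ w) = Cfsg.quadFormPlus m F w)
    ∧ M.toBlocks₂₂ ∈ Matrix.symplecticGroup (Fin m) F := by
  have hex : ∀ w : Fin m ⊕ Fin m → F,
      (M *ᵥ (Sum.elim (fun _ => 0) w : Unit ⊕ (Fin m ⊕ Fin m) → F)) (Sum.inl ())
        = ∑ j, M (Sum.inl ()) (Sum.inr j) * w j
      ∧ (fun k => (M *ᵥ (Sum.elim (fun _ => 0) w : Unit ⊕ (Fin m ⊕ Fin m) → F)) (Sum.inr k))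
        = M.toBlocks₂₂ *ᵥ w := by
    intro w
    constructor
    · rw [unitBlock_mulVec_inl]
      show M (Sum.inl ()) (Sum.inl ()) * 0 + ∑ j, M (Sum.inl ()) (Sum.inr j) * w j = _
      rw [mul_zero, zero_add]
    · funext k
      rw [unitBlock_mulVec_inr, hcol]
      show 0 * (0 : F) + ∑ j, M (Sum.inr k) (Sum.inr j) * w j = _
      rw [zero_mul, zero_add]
      rfl
  constructor
  · intro w
    have h1 := hM (Sum.elim (fun _ => 0) w)
    have hQ : ∀ v : Unit ⊕ (Fin m ⊕ Fin m) → F, Cfsg.quadFormOdd m F v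
        = v (Sum.inl ()) ^ 2 + Cfsg.quadFormPlus m F (fun k => v (Sum.inr k)) := fun v => rfl
    rw [hQ, hQ (Sum.elim (fun _ => 0) w), (hex w).1, (hex w).2] at h1
    have h3 : ((Sum.elim (fun _ => 0) w : Unit ⊕ (Fin m ⊕ Fin m) → F) (Sum.inl ())) ^ 2
        + Cfsg.quadFormPlus m F
          (fun k => (Sum.elim (fun _ => 0) w : Unit ⊕ (Fin m ⊕ Fin m) → F) (Sum.inr k))
        = Cfsg.quadFormPlus m F w := by
      show (0 : F) ^ 2 + Cfsg.quadFormPlus m F w = _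
      ring
    rw [h3] at h1
    exact h1
  · apply sp_mem_of_preserves
    intro u v
    have h1 := odd_pres m M hM (Sum.elim (fun _ => 0) u) (Sum.elim (fun _ => 0) v)
    rw [(hex u).2, (hex v).2] at h1
    exact h1

theorem odd_lift {F : Type*} [Field F] [Fintype F] [CharP F 2] (m : ℕ)
    (A : Matrix (Fin m ⊕ Fin m) (Fin m ⊕ Fin m) F)
    (hA : A ∈ Matrix.symplecticGroup (Fin m) F) :
    ∃ M : Matrix (Unit ⊕ (Fin m ⊕ Fin m)) (Unit ⊕ (Fin m ⊕ Fin m)) F,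
      M.det ≠ 0 ∧ (∀ v, Cfsg.quadFormOdd m F (M *ᵥ v) = Cfsg.quadFormOdd m F v)
        ∧ M.toBlocks₂₂ = A := by
  classical
  have h2 : (2 : F) = 0 := CharTwo.two_eq_zero
  have hsp : ∀ u w, Cfsg.sympForm m F (A *ᵥ u) (A *ᵥ w) = Cfsg.sympForm m F u w := by
    intro u w
    rw [← sB_apply, ← sB_apply]
    exact sp_preserves m A hA u w
  obtain ⟨D, hD⟩ : ∃ D : (Fin m ⊕ Fin m → F) → F,
      ∀ w, D w = Cfsg.quadFormPlus m F w + Cfsg.quadFormPlus m F (A *ᵥ w) :=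
    ⟨_, fun w => rfl⟩
  have hDadd : ∀ u w, D (u + w) = D u + D w := by
    intro u w
    rw [hD, hD, hD, Matrix.mulVec_add, plus_polar_char2, plus_polar_char2, hsp]
    linear_combination (Cfsg.sympForm m F u w) * h2
  have hDsmul : ∀ (c : F) w, D (c • w) = c ^ 2 * D w := by
    intro c w
    have h1 : ∀ w' : Fin m ⊕ Fin m → F,
        Cfsg.quadFormPlus m F (c • w') = c ^ 2 * Cfsg.quadFormPlus m F w' := by
      intro w'
      unfold Cfsg.quadFormPlus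
      rw [Finset.mul_sum]
      refine Finset.sum_congr rfl (fun i _ => ?_)
      simp only [Pi.smul_apply, smul_eq_mul]
      ring
    rw [hD, hD, Matrix.mulVec_smul, h1, h1]
    ring
  obtain ⟨Dh, hDh⟩ : ∃ Dh : (Fin m ⊕ Fin m → F) →+ F, ∀ w, Dh w = D w :=
    ⟨AddMonoidHom.mk' D hDadd, fun w => rfl⟩
  have hsq : ∀ x : F, ∃ r : F, r ^ 2 = x := by
    intro x
    obtain ⟨r, hr⟩ := FiniteField.isSquare_of_char_two (ringChar.eq F 2) x
    exact ⟨r, by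
      rw [hr]
      ring⟩
  choose α hα using fun j : Fin m ⊕ Fin m => hsq (D (Pi.single j 1))
  have hkey : ∀ w : Fin m ⊕ Fin m → F, (∑ j, α j * w j) ^ 2 = D w := by
    intro w
    rw [CharTwo.sum_sq]
    have h1 : D w = ∑ j, w j ^ 2 * D (Pi.single j 1) := by
      conv_lhs => rw [← Finset.univ_sum_single w]
      rw [← hDh, map_sum]
      refine Finset.sum_congr rfl (fun j _ => ?_)
      rw [hDh]
      have h3 : (Pi.single j (w j) : Fin m ⊕ Fin m → F) = w j • Pi.single j 1 := by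
        rw [← Pi.single_smul, smul_eq_mul, mul_one]
      rw [h3, hDsmul]
    rw [h1]
    refine Finset.sum_congr rfl (fun j _ => ?_)
    rw [mul_pow, hα]
    ring
  refine ⟨Matrix.fromBlocks (1 : Matrix Unit Unit F) (Matrix.of fun (_ : Unit) j => α j) 0 A,
    ?_, ?_, rfl⟩
  · rw [Matrix.det_fromBlocks_zero₂₁, Matrix.det_one, one_mul]
    exact (SymplecticGroup.symplectic_det hA).ne_zero
  · intro v
    have hQ : ∀ v : Unit ⊕ (Fin m ⊕ Fin m) → F, Cfsg.quadFormOdd m F v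
        = v (Sum.inl ()) ^ 2 + Cfsg.quadFormPlus m F (fun k => v (Sum.inr k)) := fun v => rfl
    have e1 : ((Matrix.fromBlocks (1 : Matrix Unit Unit F)
        (Matrix.of fun (_ : Unit) j => α j) 0 A) *ᵥ v) (Sum.inl ())
        = v (Sum.inl ()) + ∑ j, α j * v (Sum.inr j) := by
      rw [unitBlock_mulVec_inl]
      show (1 : Matrix Unit Unit F) () () * v (Sum.inl ()) + ∑ j, α j * v (Sum.inr j) = _
      rw [Matrix.one_apply_eq, one_mul]
    have e2 : (fun k => ((Matrix.fromBlocks (1 : Matrix Unit Unit F)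
        (Matrix.of fun (_ : Unit) j => α j) 0 A) *ᵥ v) (Sum.inr k))
        = A *ᵥ (fun k => v (Sum.inr k)) := by
      funext k
      rw [unitBlock_mulVec_inr]
      show (0 : F) * v (Sum.inl ()) + ∑ j, A k j * v (Sum.inr j) = _
      rw [zero_mul, zero_add]
      rfl
    rw [hQ, hQ v, e1, e2, CharTwo.add_sq, hkey, hD]
    linear_combination (Cfsg.quadFormPlus m F (A *ᵥ fun k => v (Sum.inr k))) * h2

/-- In characteristic 2, `O_{2m+1}(q) ≅ Sp_{2m}(q)`. -/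
theorem odd_iso_sp {F : Type*} [Field F] [Fintype F] [CharP F 2] (m : ℕ) :
    Nonempty (↥(Cfsg.isometryGroup F (Cfsg.quadFormOdd m F))
      ≃* ↥(Matrix.symplecticGroup (Fin m) F)) := by
  classical
  have h2 : (2 : F) = 0 := CharTwo.two_eq_zero
  have hiso : ∀ (g : ↥(Cfsg.isometryGroup F (Cfsg.quadFormOdd m F)))
      (v : Unit ⊕ (Fin m ⊕ Fin m) → F),
      Cfsg.quadFormOdd m F (((g : Matrix.GeneralLinearGroup (Unit ⊕ (Fin m ⊕ Fin m)) F) :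
        Matrix (Unit ⊕ (Fin m ⊕ Fin m)) (Unit ⊕ (Fin m ⊕ Fin m)) F) *ᵥ v)
        = Cfsg.quadFormOdd m F v :=
    fun g v => g.2 v 0
  have hcol : ∀ g : ↥(Cfsg.isometryGroup F (Cfsg.quadFormOdd m F)),
      ((g : Matrix.GeneralLinearGroup (Unit ⊕ (Fin m ⊕ Fin m)) F) :
        Matrix (Unit ⊕ (Fin m ⊕ Fin m)) (Unit ⊕ (Fin m ⊕ Fin m)) F) (Sum.inl ()) (Sum.inl ()) = 1
      ∧ ∀ k, ((g : Matrix.GeneralLinearGroup (Unit ⊕ (Fin m ⊕ Fin m)) F) :
        Matrix (Unit ⊕ (Fin m ⊕ Fin m)) (Unit ⊕ (Fin m ⊕ Fin m)) F) (Sum.inr k) (Sum.inl ()) = 0 :=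
    fun g => odd_first_col m _
      (((g : Matrix.GeneralLinearGroup (Unit ⊕ (Fin m ⊕ Fin m)) F)⁻¹ :
        Matrix.GeneralLinearGroup (Unit ⊕ (Fin m ⊕ Fin m)) F) :
        Matrix (Unit ⊕ (Fin m ⊕ Fin m)) (Unit ⊕ (Fin m ⊕ Fin m)) F)
      (Units.mul_inv _) (hiso g)
  have hblk := fun g : ↥(Cfsg.isometryGroup F (Cfsg.quadFormOdd m F)) =>
    odd_block m _ (hiso g) (hcol g).2
  obtain ⟨Φ, hΦ⟩ : ∃ Φ : ↥(Cfsg.isometryGroup F (Cfsg.quadFormOdd m F))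
      →* ↥(Matrix.symplecticGroup (Fin m) F),
      ∀ g, ((Φ g : ↥(Matrix.symplecticGroup (Fin m) F)) :
          Matrix (Fin m ⊕ Fin m) (Fin m ⊕ Fin m) F)
        = ((g : Matrix.GeneralLinearGroup (Unit ⊕ (Fin m ⊕ Fin m)) F) :
          Matrix (Unit ⊕ (Fin m ⊕ Fin m)) (Unit ⊕ (Fin m ⊕ Fin m)) F).toBlocks₂₂ :=
    ⟨MonoidHom.mk' (fun g => ⟨((g : Matrix.GeneralLinearGroup (Unit ⊕ (Fin m ⊕ Fin m)) F) :
        Matrix (Unit ⊕ (Fin m ⊕ Fin m)) (Unit ⊕ (Fin m ⊕ Fin m)) F).toBlocks₂₂, (hblk g).2⟩)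
      (fun g g' => Subtype.ext (toBlocks₂₂_mul_of_col _ _ (hcol g).2)), fun g => rfl⟩
  refine ⟨MulEquiv.ofBijective Φ ⟨?_, ?_⟩⟩
  · intro g g' hgg
    have hh : ((g : Matrix.GeneralLinearGroup (Unit ⊕ (Fin m ⊕ Fin m)) F) :
          Matrix (Unit ⊕ (Fin m ⊕ Fin m)) (Unit ⊕ (Fin m ⊕ Fin m)) F).toBlocks₂₂
        = ((g' : Matrix.GeneralLinearGroup (Unit ⊕ (Fin m ⊕ Fin m)) F) :
          Matrix (Unit ⊕ (Fin m ⊕ Fin m)) (Unit ⊕ (Fin m ⊕ Fin m)) F).toBlocks₂₂ := by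
      rw [← hΦ, ← hΦ, hgg]
    apply Subtype.ext
    apply Units.ext
    ext i j
    rcases i with ⟨⟩ | i <;> rcases j with ⟨⟩ | j
    · rw [(hcol g).1, (hcol g').1]
    · have k1 := (hblk g).1 (Pi.single j 1)
      have k2 := (hblk g').1 (Pi.single j 1)
      rw [hh] at k1
      have hs : ∀ M : Matrix (Unit ⊕ (Fin m ⊕ Fin m)) (Unit ⊕ (Fin m ⊕ Fin m)) F,
          ∑ j', M (Sum.inl ()) (Sum.inr j') * (Pi.single j (1 : F) : Fin m ⊕ Fin m → F) j'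
            = M (Sum.inl ()) (Sum.inr j) := by
        intro M
        simp [Pi.single_apply]
      rw [hs] at k1 k2
      have hsq := add_right_cancel (k1.trans k2.symm)
      have h5 : (((g : Matrix.GeneralLinearGroup (Unit ⊕ (Fin m ⊕ Fin m)) F) :
          Matrix (Unit ⊕ (Fin m ⊕ Fin m)) (Unit ⊕ (Fin m ⊕ Fin m)) F) (Sum.inl ()) (Sum.inr j)
          - ((g' : Matrix.GeneralLinearGroup (Unit ⊕ (Fin m ⊕ Fin m)) F) :
          Matrix (Unit ⊕ (Fin m ⊕ Fin m)) (Unit ⊕ (Fin m ⊕ Fin m)) F) (Sum.inl ()) (Sum.inr j))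
          ^ 2 = 0 := by
        linear_combination (-1 : F) * hsq
          + (((g : Matrix.GeneralLinearGroup (Unit ⊕ (Fin m ⊕ Fin m)) F) :
          Matrix (Unit ⊕ (Fin m ⊕ Fin m)) (Unit ⊕ (Fin m ⊕ Fin m)) F) (Sum.inl ()) (Sum.inr j)
            ^ 2
          - ((g : Matrix.GeneralLinearGroup (Unit ⊕ (Fin m ⊕ Fin m)) F) :
          Matrix (Unit ⊕ (Fin m ⊕ Fin m)) (Unit ⊕ (Fin m ⊕ Fin m)) F) (Sum.inl ()) (Sum.inr j)
          * ((g' : Matrix.GeneralLinearGroup (Unit ⊕ (Fin m ⊕ Fin m)) F) :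
          Matrix (Unit ⊕ (Fin m ⊕ Fin m)) (Unit ⊕ (Fin m ⊕ Fin m)) F) (Sum.inl ()) (Sum.inr j))
          * h2
      exact sub_eq_zero.1 ((pow_eq_zero_iff (by norm_num)).1 h5)
    · rw [(hcol g).2 i, (hcol g').2 i]
    · exact congrFun (congrFun hh i) j
  · intro h
    obtain ⟨M, hdet, hM, hblock⟩ := odd_lift m h.1 h.2
    refine ⟨⟨Matrix.GeneralLinearGroup.mkOfDetNeZero M hdet, fun u v => hM u⟩, ?_⟩
    apply Subtype.ext
    rw [hΦ]
    exact hblock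

end Cfsg.Agent.Helper5
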