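import Mathlib
import Cfsg.Prelude.Def_Classical
import Cfsg.Agent.Helper5.OrthMinus
import Cfsg.Agent.Helper4.Dih

set_option autoImplicit false

namespace Cfsg.Agent.Helper5

open scoped Matrix
open Polynomial

/-- A finite group of order `2k` with two distinct involutions whose product has order `k`
is dihedral. -/
theorem dihedral_of_two_involutions {G : Type*} [Group G] [Finite G] (k : ℕ) (x y : G)
    (hx2 : x * x = 1) (hy2 : y * y = 1) (hx1 : x ≠ 1) (hy1 : y ≠ 1) (hxy : x ≠ y)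
    (hord : orderOf (x * y) = k) (hcard : Nat.card G = 2 * k) :
    Nonempty (G ≃* DihedralGroup k) := by
  subst hord
  obtain ⟨e⟩ := Cfsg.Agent.Helper4.closure_pair_mulEquiv_dihedral x y hx2 hy2 hx1 hy1 hxy
  have hcl : Nat.card (Subgroup.closure ({x, y} : Set G)) = Nat.card G := by
    rw [Nat.card_congr e.toEquiv, DihedralGroup.nat_card, hcard]
  have htop : Subgroup.closure ({x, y} : Set G) = ⊤ := Subgroup.eq_top_of_card_eq _ hcl
  exact ⟨(Subgroup.topEquiv.symm.trans (MulEquiv.subgroupCongr htop.symm)).trans e⟩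

/-- Reindexing gives an isomorphism of isometry groups. -/
theorem iso_reindex_mulEquiv {κ κ' : Type} [Fintype κ] [Fintype κ'] [DecidableEq κ]
    [DecidableEq κ'] {F : Type*} [Field F] (e : κ ≃ κ') (Q : (κ → F) → F)
    (Q' : (κ' → F) → F) (hQ' : ∀ v, Q' v = Q (fun k => v (e k))) :
    Nonempty (↥(Cfsg.isometryGroup F Q) ≃* ↥(Cfsg.isometryGroup F Q')) := by
  classical
  have hQ : ∀ v, Q v = Q' (fun k' => v (e.symm k')) := by
    intro v
    rw [hQ']
    simp
  obtain ⟨φ, hφ⟩ : ∃ φ : Matrix.GeneralLinearGroup κ F ≃* Matrix.GeneralLinearGroup κ' F,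
      ∀ g, ((φ g : Matrix.GeneralLinearGroup κ' F) : Matrix κ' κ' F)
        = Matrix.reindex e e (g : Matrix κ κ F) :=
    ⟨Units.mapEquiv (Matrix.reindexAlgEquiv F F e).toRingEquiv.toMulEquiv, fun g => rfl⟩
  have hφs : ∀ g', ((φ.symm g' : Matrix.GeneralLinearGroup κ F) : Matrix κ κ F)
      = Matrix.reindex e.symm e.symm (g' : Matrix κ' κ' F) := by
    intro g'
    have h1 := hφ (φ.symm g')
    rw [φ.apply_symm_apply] at h1
    rw [h1]
    simp
  have hmem : ∀ g : ↥(Cfsg.isometryGroup F Q), φ g.1 ∈ Cfsg.isometryGroup F Q' := by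
    intro g
    obtain ⟨g', hg', hmat⟩ := iso_reindex_mem e Q Q' hQ' g.1 g.2
    have h1 : φ g.1 = g' := Units.ext (by rw [hφ, hmat])
    rw [h1]
    exact hg'
  have hmem' : ∀ g' : ↥(Cfsg.isometryGroup F Q'), φ.symm g'.1 ∈ Cfsg.isometryGroup F Q := by
    intro g'
    obtain ⟨g, hg, hmat⟩ := iso_reindex_mem e.symm Q' Q hQ g'.1 g'.2
    have h1 : φ.symm g'.1 = g := Units.ext (by rw [hφs, hmat])
    rw [h1]
    exact hg
  exact ⟨{ toFun := fun g => ⟨φ g.1, hmem g⟩
           invFun := fun g' => ⟨φ.symm g'.1, hmem' g'⟩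
           left_inv := fun g => Subtype.ext (φ.symm_apply_apply g.1)
           right_inv := fun g' => Subtype.ext (φ.apply_symm_apply g'.1)
           map_mul' := fun g h => Subtype.ext (map_mul φ g.1 h.1) }⟩

theorem mat2_ext {α : Type*} (x1 x2 x3 x4 y1 y2 y3 y4 : α) (h1 : x1 = y1) (h2 : x2 = y2)
    (h3 : x3 = y3) (h4 : x4 = y4) :
    (!![x1, x2; x3, x4] : Matrix (Fin 2) (Fin 2) α) = !![y1, y2; y3, y4] := by
  subst h1 h2 h3 h4
  rfl

theorem binForm_iso_of_cols {F : Type*} [Field F] (a b p s r t : F)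
    (h1 : p ^ 2 + a * p * r + b * r ^ 2 = 1) (h2 : s ^ 2 + a * s * t + b * t ^ 2 = b)
    (h3 : 2 * p * s + a * (p * t + r * s) + 2 * b * r * t = a) (v : Fin 2 → F) :
    binForm a b ((!![p, s; r, t] : Matrix (Fin 2) (Fin 2) F) *ᵥ v) = binForm a b v := by
  rw [mulVec_fin2, binForm_mk]
  show (p * v 0 + s * v 1) ^ 2 + a * (p * v 0 + s * v 1) * (r * v 0 + t * v 1)
      + b * (r * v 0 + t * v 1) ^ 2 = v 0 ^ 2 + a * v 0 * v 1 + b * v 1 ^ 2
  linear_combination (v 0 ^ 2) * h1 + (v 1 ^ 2) * h2 + (v 0 * v 1) * h3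

theorem theta_mul {F K : Type*} [Field F] [CommRing K] (φ : F →+* K) (a b : F) (r : K)
    (hr : r ^ 2 - φ a * r + φ b = 0) (A B : Matrix (Fin 2) (Fin 2) F)
    (h1 : A 0 1 = -(b * A 1 0)) (h2 : A 1 1 = A 0 0 + a * A 1 0) :
    φ ((A * B) 0 0) + φ ((A * B) 1 0) * r
      = (φ (A 0 0) + φ (A 1 0) * r) * (φ (B 0 0) + φ (B 1 0) * r) := by
  rw [Matrix.mul_apply, Matrix.mul_apply, Fin.sum_univ_two, Fin.sum_univ_two, h1, h2]
  simp only [map_add, map_mul, map_neg]
  linear_combination (-(φ (A 1 0) * φ (B 1 0))) * hr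

theorem theta_inj {F K : Type*} [Field F] [Field K] (φ : F →+* K) (r : K)
    (hrF : ∀ c : F, r ≠ φ c) (x y x' y' : F) (h : φ x + φ y * r = φ x' + φ y' * r) :
    x = x' ∧ y = y' := by
  have hinj : Function.Injective φ := φ.injective
  by_cases hy : y = y'
  · subst hy
    exact ⟨hinj (add_right_cancel h), rfl⟩
  · exfalso
    have hne : φ (y - y') ≠ 0 := by
      intro h0
      exact hy (sub_eq_zero.1 (hinj (by rw [h0, map_zero])))
    apply hrF ((x' - x) / (y - y'))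
    rw [map_div₀, eq_div_iff hne, map_sub, map_sub]
    linear_combination h

theorem mat2_eq_of_T {F : Type*} [Field F] (a b : F) (A B : Matrix (Fin 2) (Fin 2) F)
    (hA1 : A 0 1 = -(b * A 1 0)) (hA2 : A 1 1 = A 0 0 + a * A 1 0)
    (hB1 : B 0 1 = -(b * B 1 0)) (hB2 : B 1 1 = B 0 0 + a * B 1 0)
    (e0 : A 0 0 = B 0 0) (e1 : A 1 0 = B 1 0) : A = B := by
  rw [Matrix.eta_fin_two A, Matrix.eta_fin_two B, hA1, hA2, hB1, hB2, e0, e1]

theorem comm_J_entries {F : Type*} [Field F] (a b : F) (A : Matrix (Fin 2) (Fin 2) F)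
    (h : A * !![0, -b; 1, a] = !![0, -b; 1, a] * A) :
    A 0 1 = -(b * A 1 0) ∧ A 1 1 = A 0 0 + a * A 1 0 := by
  rw [Matrix.eta_fin_two A, Matrix.mul_fin_two, Matrix.mul_fin_two] at h
  have e00 : A 0 0 * 0 + A 0 1 * 1 = 0 * A 0 0 + -b * A 1 0 := congrFun (congrFun h 0) 0
  have e10 : A 1 0 * 0 + A 1 1 * 1 = 1 * A 0 0 + a * A 1 0 := congrFun (congrFun h 1) 0
  exact ⟨by linear_combination e00, by linear_combination e10⟩

/-- The isometry group of an anisotropic binary form over `𝔽_q` is dihedral of order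
`2 (q + 1)`. -/
theorem dihedral_binForm {F : Type*} [Field F] [Fintype F] (a b : F)
    (hab : ∀ z₁ z₂ : F, z₁ ^ 2 + a * z₁ * z₂ + b * z₂ ^ 2 = 0 → z₁ = 0 ∧ z₂ = 0) :
    Nonempty (↥(Cfsg.isometryGroup F (binForm a b)) ≃* DihedralGroup (Fintype.card F + 1)) := by
  classical
  have hD' := aniso_not_two_a a b hab
  have hb : b ≠ 0 := by
    intro hb
    have h := hab 0 1 (by
      rw [hb]
      ring)
    exact one_ne_zero h.2
  obtain ⟨P, hP⟩ : ∃ P : F[X], P = C (1 : F) * X ^ 2 + C (-a) * X + C b := ⟨_, rfl⟩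
  have hirr : Irreducible P := by
    apply Polynomial.irreducible_of_degree_le_three_of_not_isRoot
    · rw [hP, Polynomial.natDegree_quadratic one_ne_zero]
      decide
    · intro c hc
      have h1 : 1 * c ^ 2 + -a * c + b = 0 := by
        have h := hc
        rw [hP, Polynomial.IsRoot.def] at h
        simpa using h
      have h2 := hab c (-1) (by linear_combination h1)
      exact one_ne_zero (neg_eq_zero.1 h2.2)
  have hfact : Fact (Irreducible P) := ⟨hirr⟩
  obtain ⟨r, hr⟩ : ∃ r : AdjoinRoot P,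
      r ^ 2 - AdjoinRoot.of P a * r + AdjoinRoot.of P b = 0 := by
    refine ⟨AdjoinRoot.root P, ?_⟩
    have h : Polynomial.eval₂ (AdjoinRoot.of P) (AdjoinRoot.root P)
        (C (1 : F) * X ^ 2 + C (-a) * X + C b) = 0 := by
      rw [← hP]
      exact AdjoinRoot.eval₂_root P
    simp only [Polynomial.eval₂_add, Polynomial.eval₂_mul, Polynomial.eval₂_pow,
      Polynomial.eval₂_X, Polynomial.eval₂_C, Polynomial.eval₂_neg, map_one, map_neg,
      one_mul] at h
    linear_combination h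
  have hofinj : Function.Injective (AdjoinRoot.of P) := (AdjoinRoot.of P).injective
  have hrF : ∀ c : F, r ≠ AdjoinRoot.of P c := by
    intro c hc
    rw [hc] at hr
    have h1 : AdjoinRoot.of P (c ^ 2 - a * c + b) = 0 := by
      rw [map_add, map_sub, map_pow, map_mul]
      exact hr
    have h2 : c ^ 2 - a * c + b = 0 := hofinj (by rw [h1, map_zero])
    have h3 := hab c (-1) (by linear_combination h2)
    exact one_ne_zero (neg_eq_zero.1 h3.2)
  obtain ⟨G, hG⟩ : ∃ G : Subgroup (Matrix.GeneralLinearGroup (Fin 2) F),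
      G = Cfsg.isometryGroup F (binForm a b) := ⟨_, rfl⟩
  rw [← hG]
  have hmem : ∀ x : Matrix.GeneralLinearGroup (Fin 2) F,
      x ∈ G ↔ ∀ v : Fin 2 → F,
        binForm a b ((x : Matrix (Fin 2) (Fin 2) F) *ᵥ v) = binForm a b v := by
    intro x
    rw [hG]
    exact ⟨fun h v => h v 0, fun h u v => h u⟩
  have hcardG : Nat.card G = 2 * (Fintype.card F + 1) := by
    rw [hG]
    exact card_iso_binForm a b hab
  have hJdet : (!![0, -b; 1, a] : Matrix (Fin 2) (Fin 2) F).det ≠ 0 := by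
    rw [Matrix.det_fin_two_of]
    have h1 : (0 : F) * a - -b * 1 = b := by ring
    rw [h1]
    exact hb
  obtain ⟨Jg, hJg⟩ : ∃ Jg : Matrix.GeneralLinearGroup (Fin 2) F,
      (Jg : Matrix (Fin 2) (Fin 2) F) = !![0, -b; 1, a] :=
    ⟨Matrix.GeneralLinearGroup.mkOfDetNeZero _ hJdet, rfl⟩
  obtain ⟨T, hT⟩ : ∃ T : Subgroup (Matrix.GeneralLinearGroup (Fin 2) F),
      T = G ⊓ Subgroup.centralizer {Jg} := ⟨_, rfl⟩
  have hTmem : ∀ g : Matrix.GeneralLinearGroup (Fin 2) F, g ∈ T ↔ g ∈ G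
      ∧ (g : Matrix (Fin 2) (Fin 2) F) * !![0, -b; 1, a]
        = !![0, -b; 1, a] * (g : Matrix (Fin 2) (Fin 2) F) := by
    intro g
    rw [hT, Subgroup.mem_inf, Subgroup.mem_centralizer_iff]
    constructor
    · rintro ⟨h1, h2⟩
      refine ⟨h1, ?_⟩
      have h3 := h2 Jg (Set.mem_singleton _)
      have h4 : (Jg : Matrix (Fin 2) (Fin 2) F) * (g : Matrix (Fin 2) (Fin 2) F)
          = (g : Matrix (Fin 2) (Fin 2) F) * (Jg : Matrix (Fin 2) (Fin 2) F) :=
        congrArg (fun x : Matrix.GeneralLinearGroup (Fin 2) F =>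
          (x : Matrix (Fin 2) (Fin 2) F)) h3
      rw [hJg] at h4
      exact h4.symm
    · rintro ⟨h1, h2⟩
      refine ⟨h1, ?_⟩
      intro h hh
      rw [Set.mem_singleton_iff] at hh
      subst hh
      apply Units.ext
      rw [Units.val_mul, Units.val_mul, hJg]
      exact h2.symm
  have hTent : ∀ g : Matrix.GeneralLinearGroup (Fin 2) F, g ∈ T →
      (g : Matrix (Fin 2) (Fin 2) F) 0 1 = -(b * (g : Matrix (Fin 2) (Fin 2) F) 1 0)
      ∧ (g : Matrix (Fin 2) (Fin 2) F) 1 1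
        = (g : Matrix (Fin 2) (Fin 2) F) 0 0 + a * (g : Matrix (Fin 2) (Fin 2) F) 1 0
      ∧ (g : Matrix (Fin 2) (Fin 2) F) 0 0 ^ 2
        + a * (g : Matrix (Fin 2) (Fin 2) F) 0 0 * (g : Matrix (Fin 2) (Fin 2) F) 1 0
        + b * (g : Matrix (Fin 2) (Fin 2) F) 1 0 ^ 2 = 1 := by
    intro g hg
    obtain ⟨h1, h2⟩ := (hTmem g).1 hg
    obtain ⟨c1, -, -⟩ := binForm_cols a b _ ((hmem g).1 h1)
    obtain ⟨e1, e2⟩ := comm_J_entries a b _ h2
    exact ⟨e1, e2, c1⟩
  obtain ⟨θ, hθ⟩ : ∃ θ : ↥T →* AdjoinRoot P, ∀ g : ↥T, θ g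
      = AdjoinRoot.of P (((g : Matrix.GeneralLinearGroup (Fin 2) F) :
          Matrix (Fin 2) (Fin 2) F) 0 0)
        + AdjoinRoot.of P (((g : Matrix.GeneralLinearGroup (Fin 2) F) :
          Matrix (Fin 2) (Fin 2) F) 1 0) * r := by
    refine ⟨{ toFun := fun g => AdjoinRoot.of P (((g : Matrix.GeneralLinearGroup (Fin 2) F) :
                  Matrix (Fin 2) (Fin 2) F) 0 0)
                + AdjoinRoot.of P (((g : Matrix.GeneralLinearGroup (Fin 2) F) :
                  Matrix (Fin 2) (Fin 2) F) 1 0) * r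
              map_one' := ?_
              map_mul' := ?_ }, fun g => rfl⟩
    · show AdjoinRoot.of P ((1 : Matrix (Fin 2) (Fin 2) F) 0 0)
        + AdjoinRoot.of P ((1 : Matrix (Fin 2) (Fin 2) F) 1 0) * r = 1
      rw [Matrix.one_apply_eq, Matrix.one_apply_ne (by decide : (1 : Fin 2) ≠ 0), map_one,
        map_zero, zero_mul, add_zero]
    · intro g h
      exact theta_mul (AdjoinRoot.of P) a b r hr _ _ (hTent g.1 g.2).1 (hTent g.1 g.2).2.1
  have hcyc : IsCyclic ↥T := isCyclic_of_injective_ringHom θ (by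
    intro g h hgh
    rw [hθ, hθ] at hgh
    obtain ⟨e0, e1⟩ := theta_inj (AdjoinRoot.of P) r hrF _ _ _ _ hgh
    obtain ⟨g1, g2, -⟩ := hTent g.1 g.2
    obtain ⟨h1, h2, -⟩ := hTent h.1 h.2
    exact Subtype.ext (Units.ext (mat2_eq_of_T a b _ _ g1 g2 h1 h2 e0 e1)))
  have hcardT : Nat.card T = Fintype.card F + 1 := by
    rw [← card_binForm_one a b hab]
    refine Nat.card_eq_of_bijective (fun g : ↥T =>
      (⟨![((g : Matrix.GeneralLinearGroup (Fin 2) F) : Matrix (Fin 2) (Fin 2) F) 0 0,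
          ((g : Matrix.GeneralLinearGroup (Fin 2) F) : Matrix (Fin 2) (Fin 2) F) 1 0],
        (hTent g.1 g.2).2.2⟩ : {u : Fin 2 → F // binForm a b u = 1})) ⟨?_, ?_⟩
    · intro g h hgh
      have h1 : ![((g : Matrix.GeneralLinearGroup (Fin 2) F) : Matrix (Fin 2) (Fin 2) F) 0 0,
          ((g : Matrix.GeneralLinearGroup (Fin 2) F) : Matrix (Fin 2) (Fin 2) F) 1 0]
          = ![((h : Matrix.GeneralLinearGroup (Fin 2) F) : Matrix (Fin 2) (Fin 2) F) 0 0,
          ((h : Matrix.GeneralLinearGroup (Fin 2) F) : Matrix (Fin 2) (Fin 2) F) 1 0] :=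
        congrArg Subtype.val hgh
      obtain ⟨g1, g2, -⟩ := hTent g.1 g.2
      obtain ⟨h1', h2', -⟩ := hTent h.1 h.2
      exact Subtype.ext (Units.ext (mat2_eq_of_T a b _ _ g1 g2 h1' h2' (congrFun h1 0)
        (congrFun h1 1)))
    · rintro ⟨u, hu⟩
      have hu' : u 0 ^ 2 + a * u 0 * u 1 + b * u 1 ^ 2 = 1 := hu
      have hdet : (!![u 0, -(b * u 1); u 1, u 0 + a * u 1] :
          Matrix (Fin 2) (Fin 2) F).det ≠ 0 := by
        rw [Matrix.det_fin_two_of]
        have h1 : u 0 * (u 0 + a * u 1) - -(b * u 1) * u 1 = 1 := by linear_combination hu'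
        rw [h1]
        exact one_ne_zero
      have hg : Matrix.GeneralLinearGroup.mkOfDetNeZero _ hdet ∈ T := by
        rw [hTmem]
        refine ⟨(hmem _).2 (fun v => binForm_iso_of_cols a b _ _ _ _ hu'
          (by linear_combination b * hu') (by linear_combination a * hu') v), ?_⟩
        show (!![u 0, -(b * u 1); u 1, u 0 + a * u 1] : Matrix (Fin 2) (Fin 2) F)
            * !![0, -b; 1, a] = !![0, -b; 1, a] * !![u 0, -(b * u 1); u 1, u 0 + a * u 1]
        rw [Matrix.mul_fin_two, Matrix.mul_fin_two]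
        exact mat2_ext _ _ _ _ _ _ _ _ (by ring) (by ring) (by ring) (by ring)
      refine ⟨⟨_, hg⟩, ?_⟩
      apply Subtype.ext
      show ![u 0, u 1] = u
      funext i
      fin_cases i <;> rfl
  obtain ⟨g₀, hg₀⟩ := IsCyclic.exists_ofOrder_eq_natCard (α := ↥T)
  rw [hcardT] at hg₀
  have hσdet : (!![1, a; 0, -1] : Matrix (Fin 2) (Fin 2) F).det ≠ 0 := by
    rw [Matrix.det_fin_two_of]
    simp
  obtain ⟨σ, hσ⟩ : ∃ σ : Matrix.GeneralLinearGroup (Fin 2) F,
      (σ : Matrix (Fin 2) (Fin 2) F) = !![1, a; 0, -1] :=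
    ⟨Matrix.GeneralLinearGroup.mkOfDetNeZero _ hσdet, rfl⟩
  have hσG : σ ∈ G := by
    rw [hmem, hσ]
    exact fun v => binForm_iso_of_cols a b 1 a 0 (-1) (by ring) (by ring) (by ring) v
  have hg₀G : (g₀ : Matrix.GeneralLinearGroup (Fin 2) F) ∈ G := ((hTmem _).1 g₀.2).1
  obtain ⟨x, hx⟩ : ∃ x : ↥G, x = ⟨σ, hσG⟩ := ⟨_, rfl⟩
  obtain ⟨z, hz⟩ : ∃ z : ↥G, z = ⟨g₀.1, hg₀G⟩ := ⟨_, rfl⟩
  have hx2 : x * x = 1 := by
    rw [hx]
    apply Subtype.ext
    apply Units.ext
    show (σ : Matrix (Fin 2) (Fin 2) F) * (σ : Matrix (Fin 2) (Fin 2) F) = 1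
    rw [hσ, Matrix.mul_fin_two, Matrix.one_fin_two]
    exact mat2_ext _ _ _ _ _ _ _ _ (by ring) (by ring) (by ring) (by ring)
  have hzord : orderOf z = Fintype.card F + 1 := by
    rw [← hg₀, ← Subgroup.orderOf_coe z, ← Subgroup.orderOf_coe g₀, hz]
  have hq2 : 2 ≤ Fintype.card F := Fintype.one_lt_card
  have hz1 : z ≠ 1 := by
    intro h
    rw [h, orderOf_one] at hzord
    omega
  have hzent := hTent g₀.1 g₀.2
  have hy2 : (x * z) * (x * z) = 1 := by
    rw [hx, hz]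
    apply Subtype.ext
    apply Units.ext
    show (σ : Matrix (Fin 2) (Fin 2) F)
        * ((g₀ : Matrix.GeneralLinearGroup (Fin 2) F) : Matrix (Fin 2) (Fin 2) F)
        * ((σ : Matrix (Fin 2) (Fin 2) F)
          * ((g₀ : Matrix.GeneralLinearGroup (Fin 2) F) : Matrix (Fin 2) (Fin 2) F)) = 1
    obtain ⟨A, hA⟩ : ∃ A : Matrix (Fin 2) (Fin 2) F,
        A = ((g₀ : Matrix.GeneralLinearGroup (Fin 2) F) : Matrix (Fin 2) (Fin 2) F) :=
      ⟨_, rfl⟩
    rw [← hA] at hzent ⊢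
    obtain ⟨z1, z2, z3⟩ := hzent
    rw [hσ, Matrix.eta_fin_two A, z1, z2, Matrix.mul_fin_two, Matrix.mul_fin_two,
      Matrix.one_fin_two]
    exact mat2_ext _ _ _ _ _ _ _ _ (by linear_combination z3) (by ring) (by ring)
      (by linear_combination z3)
  have hx1 : x ≠ 1 := by
    intro h
    rw [hx] at h
    have h1 : (σ : Matrix (Fin 2) (Fin 2) F) = 1 :=
      congrArg (fun t : ↥G =>
        ((t : Matrix.GeneralLinearGroup (Fin 2) F) : Matrix (Fin 2) (Fin 2) F)) h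
    rw [hσ] at h1
    have h2 : a = (1 : Matrix (Fin 2) (Fin 2) F) 0 1 := congrFun (congrFun h1 0) 1
    have h3 : (-1 : F) = (1 : Matrix (Fin 2) (Fin 2) F) 1 1 := congrFun (congrFun h1 1) 1
    rw [Matrix.one_apply_ne (by decide : (0 : Fin 2) ≠ 1)] at h2
    rw [Matrix.one_apply_eq] at h3
    exact hD' ⟨by linear_combination -h3, h2⟩
  have hy1 : x * z ≠ 1 := by
    intro h
    have h1 : z = x := by
      have h0 : x * z = x * x := by rw [h, hx2]
      exact mul_left_cancel h0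
    have h2 : (z : Matrix.GeneralLinearGroup (Fin 2) F)
        = (x : Matrix.GeneralLinearGroup (Fin 2) F) := congrArg Subtype.val h1
    rw [hz, hx] at h2
    have h3 : (g₀ : Matrix.GeneralLinearGroup (Fin 2) F) = σ := h2
    obtain ⟨z1, z2, -⟩ := hzent
    rw [h3, hσ] at z1 z2
    have z1' : a = -(b * 0) := z1
    have z2' : (-1 : F) = 1 + a * 0 := z2
    exact hD' ⟨by linear_combination -z2', by linear_combination z1'⟩
  have hxy : x ≠ x * z := by
    intro h
    apply hz1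
    have h0 : x * 1 = x * z := by
      rw [mul_one]
      exact h
    exact (mul_left_cancel h0).symm
  have hord : orderOf (x * (x * z)) = Fintype.card F + 1 := by
    rw [← mul_assoc, hx2, one_mul]
    exact hzord
  exact dihedral_of_two_involutions _ x (x * z) hx2 hy2 hx1 hy1 hxy hord hcardG

end Cfsg.Agent.Helper5
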