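import Mathlib
import Cfsg.Prelude.Def_Classical
import Cfsg.Agent.Helper5.OrthMinusDih

set_option autoImplicit false

namespace Cfsg.Agent.Helper5

open scoped Matrix

/-- The hyperbolic plane `x y` on `Fin 2 → F`. -/
def hypForm2 {F : Type*} [Field F] (v : Fin 2 → F) : F := v 0 * v 1

/-- Reindexing for the hyperbolic plane. -/
def plusE1 : Fin 2 ≃ Fin 1 ⊕ Fin 1 where
  toFun := ![Sum.inl 0, Sum.inr 0]
  invFun := Sum.elim (fun _ => 0) (fun _ => 1)
  left_inv := by
    intro i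
    fin_cases i <;> rfl
  right_inv := by
    rintro (i | i)
    · fin_cases i
      rfl
    · fin_cases i
      rfl

theorem plus_one_eq {F : Type*} [Field F] (v : Fin 1 ⊕ Fin 1 → F) :
    Cfsg.quadFormPlus 1 F v = hypForm2 (fun k => v (plusE1 k)) := by
  unfold Cfsg.quadFormPlus hypForm2
  rw [Fin.sum_univ_one]
  rfl

theorem hypForm2_iso {F : Type*} [Field F] (p s r t : F) (h1 : p * r = 0) (h2 : s * t = 0)
    (h3 : p * t + s * r = 1) (v : Fin 2 → F) :
    hypForm2 ((!![p, s; r, t] : Matrix (Fin 2) (Fin 2) F) *ᵥ v) = hypForm2 v := by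
  rw [mulVec_fin2]
  show (p * v 0 + s * v 1) * (r * v 0 + t * v 1) = v 0 * v 1
  linear_combination (v 0 ^ 2) * h1 + (v 1 ^ 2) * h2 + (v 0 * v 1) * h3

theorem dihedral_hypForm2 {F : Type*} [Field F] [Fintype F] (hq : 3 ≤ Fintype.card F)
    (hcard : Nat.card (Cfsg.isometryGroup F (hypForm2 (F := F)))
      = 2 * (Fintype.card F - 1)) :
    Nonempty (↥(Cfsg.isometryGroup F (hypForm2 (F := F)))
      ≃* DihedralGroup (Fintype.card F - 1)) := by
  classical
  obtain ⟨G, hG⟩ : ∃ G : Subgroup (Matrix.GeneralLinearGroup (Fin 2) F),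
      G = Cfsg.isometryGroup F (hypForm2 (F := F)) := ⟨_, rfl⟩
  rw [← hG] at hcard ⊢
  have hmem : ∀ x : Matrix.GeneralLinearGroup (Fin 2) F,
      x ∈ G ↔ ∀ v : Fin 2 → F,
        hypForm2 ((x : Matrix (Fin 2) (Fin 2) F) *ᵥ v) = hypForm2 v := by
    intro x
    rw [hG]
    exact ⟨fun h v => h v 0, fun h u v => h u⟩
  have hdet : ∀ t : Fˣ,
      (!![(t : F), 0; 0, ((t⁻¹ : Fˣ) : F)] : Matrix (Fin 2) (Fin 2) F).det ≠ 0 := by
    intro t
    rw [Matrix.det_fin_two_of, mul_zero, sub_zero, Units.mul_inv]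
    exact one_ne_zero
  have hdG : ∀ t : Fˣ, Matrix.GeneralLinearGroup.mkOfDetNeZero _ (hdet t) ∈ G := by
    intro t
    rw [hmem]
    exact fun v => hypForm2_iso _ _ _ _ (by ring) (by ring) (by
      rw [Units.mul_inv]
      ring) v
  obtain ⟨δ, hδ⟩ : ∃ δ : Fˣ →* ↥G, ∀ t,
      (((δ t : ↥G) : Matrix.GeneralLinearGroup (Fin 2) F) : Matrix (Fin 2) (Fin 2) F)
        = !![(t : F), 0; 0, ((t⁻¹ : Fˣ) : F)] := by
    refine ⟨{ toFun := fun t => ⟨Matrix.GeneralLinearGroup.mkOfDetNeZero _ (hdet t), hdG t⟩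
              map_one' := ?_
              map_mul' := ?_ }, fun t => rfl⟩
    · apply Subtype.ext
      apply Units.ext
      show (!![((1 : Fˣ) : F), 0; 0, (((1 : Fˣ)⁻¹ : Fˣ) : F)] : Matrix (Fin 2) (Fin 2) F) = 1
      rw [Matrix.one_fin_two]
      exact mat2_ext _ _ _ _ _ _ _ _ (by simp) rfl rfl (by simp)
    · intro t u
      apply Subtype.ext
      apply Units.ext
      show (!![((t * u : Fˣ) : F), 0; 0, (((t * u)⁻¹ : Fˣ) : F)] : Matrix (Fin 2) (Fin 2) F)
        = !![(t : F), 0; 0, ((t⁻¹ : Fˣ) : F)] * !![(u : F), 0; 0, ((u⁻¹ : Fˣ) : F)]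
      rw [Matrix.mul_fin_two]
      exact mat2_ext _ _ _ _ _ _ _ _ (by
        rw [Units.val_mul]
        ring) (by ring) (by ring) (by
        rw [mul_inv, Units.val_mul]
        ring)
  have hδinj : Function.Injective δ := by
    intro t u h
    have h1 : (((δ t : ↥G) : Matrix.GeneralLinearGroup (Fin 2) F) : Matrix (Fin 2) (Fin 2) F)
        = (((δ u : ↥G) : Matrix.GeneralLinearGroup (Fin 2) F) : Matrix (Fin 2) (Fin 2) F) := by
      rw [h]
    rw [hδ, hδ] at h1
    exact Units.ext (congrFun (congrFun h1 0) 0)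
  have hWdet : (!![0, 1; 1, 0] : Matrix (Fin 2) (Fin 2) F).det ≠ 0 := by
    rw [Matrix.det_fin_two_of]
    simp
  obtain ⟨x, hx⟩ : ∃ x : ↥G,
      ((x : Matrix.GeneralLinearGroup (Fin 2) F) : Matrix (Fin 2) (Fin 2) F)
        = !![0, 1; 1, 0] :=
    ⟨⟨Matrix.GeneralLinearGroup.mkOfDetNeZero _ hWdet, (hmem _).2 (fun v =>
      hypForm2_iso 0 1 1 0 (by ring) (by ring) (by ring) v)⟩, rfl⟩
  obtain ⟨t₀, ht₀⟩ := IsCyclic.exists_ofOrder_eq_natCard (α := Fˣ)
  have hcu : Nat.card Fˣ = Fintype.card F - 1 := by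
    rw [Nat.card_eq_fintype_card, Fintype.card_units]
  rw [hcu] at ht₀
  have hzord : orderOf (δ t₀) = Fintype.card F - 1 := by
    rw [orderOf_injective δ hδinj, ht₀]
  have hz1 : δ t₀ ≠ 1 := by
    intro h
    rw [h, orderOf_one] at hzord
    omega
  have hx2 : x * x = 1 := by
    apply Subtype.ext
    apply Units.ext
    show ((x : Matrix.GeneralLinearGroup (Fin 2) F) : Matrix (Fin 2) (Fin 2) F)
      * ((x : Matrix.GeneralLinearGroup (Fin 2) F) : Matrix (Fin 2) (Fin 2) F) = 1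
    rw [hx, Matrix.mul_fin_two, Matrix.one_fin_two]
    exact mat2_ext _ _ _ _ _ _ _ _ (by ring) (by ring) (by ring) (by ring)
  have hy2 : (x * δ t₀) * (x * δ t₀) = 1 := by
    apply Subtype.ext
    apply Units.ext
    show ((x : Matrix.GeneralLinearGroup (Fin 2) F) : Matrix (Fin 2) (Fin 2) F)
      * (((δ t₀ : ↥G) : Matrix.GeneralLinearGroup (Fin 2) F) : Matrix (Fin 2) (Fin 2) F)
      * (((x : Matrix.GeneralLinearGroup (Fin 2) F) : Matrix (Fin 2) (Fin 2) F)
      * (((δ t₀ : ↥G) : Matrix.GeneralLinearGroup (Fin 2) F) : Matrix (Fin 2) (Fin 2) F)) = 1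
    rw [hx, hδ, Matrix.mul_fin_two, Matrix.mul_fin_two, Matrix.one_fin_two]
    exact mat2_ext _ _ _ _ _ _ _ _ (by
      have h := Units.inv_mul t₀
      linear_combination h) (by ring) (by ring) (by
      have h := Units.mul_inv t₀
      linear_combination h)
  have hx1 : x ≠ 1 := by
    intro h
    have h1 : ((x : Matrix.GeneralLinearGroup (Fin 2) F) : Matrix (Fin 2) (Fin 2) F) = 1 := by
      rw [h]
      rfl
    rw [hx] at h1
    have h2 : (0 : F) = (1 : Matrix (Fin 2) (Fin 2) F) 0 0 := congrFun (congrFun h1 0) 0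
    rw [Matrix.one_apply_eq] at h2
    exact zero_ne_one h2
  have hy1 : x * δ t₀ ≠ 1 := by
    intro h
    have h1 : ((x : Matrix.GeneralLinearGroup (Fin 2) F) : Matrix (Fin 2) (Fin 2) F)
        * (((δ t₀ : ↥G) : Matrix.GeneralLinearGroup (Fin 2) F) : Matrix (Fin 2) (Fin 2) F)
        = 1 :=
      congrArg (fun g : ↥G =>
        ((g : Matrix.GeneralLinearGroup (Fin 2) F) : Matrix (Fin 2) (Fin 2) F)) h
    rw [hx, hδ, Matrix.mul_fin_two] at h1
    have h2 : (0 : F) * (t₀ : F) + 1 * 0 = (1 : Matrix (Fin 2) (Fin 2) F) 0 0 :=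
      congrFun (congrFun h1 0) 0
    rw [Matrix.one_apply_eq] at h2
    apply zero_ne_one (α := F)
    linear_combination h2
  have hxy : x ≠ x * δ t₀ := by
    intro h
    apply hz1
    have h0 : x * 1 = x * δ t₀ := by
      rw [mul_one]
      exact h
    exact (mul_left_cancel h0).symm
  have hord : orderOf (x * (x * δ t₀)) = Fintype.card F - 1 := by
    rw [← mul_assoc, hx2, one_mul]
    exact hzord
  exact dihedral_of_two_involutions _ x (x * δ t₀) hx2 hy2 hx1 hy1 hxy hord hcard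

end Cfsg.Agent.Helper5
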