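import Mathlib
import Cfsg.Agent.Helper5.OrthPairs
import Cfsg.Agent.Helper5.Transp

/-!
Orthogonal transvections over the field with two elements, abstractly: for a quadratic form `Q`
on a `ZMod 2`-module, the maps `x ↦ x + B(u, x) u` with `Q u = 1`, the subgroup `TvGrp Q` they
generate inside the group of linear automorphisms, transitivity properties of that subgroup and
an inductive criterion for it to be the whole isometry group.
-/

set_option autoImplicit false

namespace Cfsg.Agent.Helper5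

section Abstract

variable {V : Type*} [AddCommGroup V] [Module (ZMod 2) V]

theorem z2_add_self (x : V) : x + x = 0 := by
  rw [← two_smul (ZMod 2) x]
  have h : (2 : ZMod 2) = 0 := rfl
  rw [h, zero_smul]

theorem z2_cases (p : ZMod 2) : p = 0 ∨ p = 1 := by
  revert p
  decide

theorem opolar_def (Q : QuadraticForm (ZMod 2) V) (x y : V) :
    QuadraticMap.polar Q x y = Q (x + y) - Q x - Q y := rfl

theorem q_add (Q : QuadraticForm (ZMod 2) V) (x y : V) :
    Q (x + y) = Q x + Q y + QuadraticMap.polar Q x y := QuadraticMap.map_add Q x y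

theorem opolar_self (Q : QuadraticForm (ZMod 2) V) (x : V) : QuadraticMap.polar Q x x = 0 := by
  rw [opolar_def, z2_add_self, QuadraticMap.map_zero]
  have h : ∀ p : ZMod 2, 0 - p - p = 0 := by decide
  exact h _

theorem otv_aux (Q : QuadraticForm (ZMod 2) V) (u x : V) :
    (x + QuadraticMap.polar Q u x • u)
      + QuadraticMap.polar Q u (x + QuadraticMap.polar Q u x • u) • u = x := by
  rw [QuadraticMap.polar_add_right, QuadraticMap.polar_smul_right, opolar_self, smul_zero,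
    add_zero, add_assoc, ← add_smul]
  have h : ∀ p : ZMod 2, p + p = 0 := by decide
  rw [h, zero_smul, add_zero]

/-- The orthogonal transvection `x ↦ x + B(u, x) u`, an involution in characteristic 2. -/
noncomputable def otv (Q : QuadraticForm (ZMod 2) V) (u : V) : V ≃ₗ[ZMod 2] V :=
  LinearEquiv.ofLinearMap
    (LinearMap.id + (QuadraticMap.polarBilin Q u).smulRight u)
    (LinearMap.id + (QuadraticMap.polarBilin Q u).smulRight u)
    (LinearMap.ext fun x => otv_aux Q u x)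
    (LinearMap.ext fun x => otv_aux Q u x)

theorem otv_apply (Q : QuadraticForm (ZMod 2) V) (u x : V) :
    otv Q u x = x + QuadraticMap.polar Q u x • u := rfl

theorem otv_sq (Q : QuadraticForm (ZMod 2) V) (u : V) : otv Q u * otv Q u = 1 := by
  apply LinearEquiv.ext
  intro x
  exact otv_aux Q u x

theorem otv_isom (Q : QuadraticForm (ZMod 2) V) (u : V) (hu : Q u = 1) (x : V) :
    Q (otv Q u x) = Q x := by
  rw [otv_apply, quad_add_smul, hu, QuadraticMap.polar_comm Q x u]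
  have h : ∀ a c : ZMod 2, a + c * c * 1 + c * c = a := by decide
  exact h _ _

theorem isom_polar (Q : QuadraticForm (ZMod 2) V) (g : V ≃ₗ[ZMod 2] V)
    (hg : ∀ x, Q (g x) = Q x) (x y : V) :
    QuadraticMap.polar Q (g x) (g y) = QuadraticMap.polar Q x y := by
  rw [opolar_def, opolar_def, ← map_add, hg, hg, hg]

theorem lin_inv_apply (g : V ≃ₗ[ZMod 2] V) (x : V) : g (g⁻¹ x) = x := by
  change (g * g⁻¹) x = x
  rw [mul_inv_cancel]
  rfl

theorem lin_inv_apply' (g : V ≃ₗ[ZMod 2] V) (x : V) : g⁻¹ (g x) = x := by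
  change (g⁻¹ * g) x = x
  rw [inv_mul_cancel]
  rfl

theorem otv_conj (Q : QuadraticForm (ZMod 2) V) (g : V ≃ₗ[ZMod 2] V)
    (hg : ∀ x, Q (g x) = Q x) (u : V) : g * otv Q u * g⁻¹ = otv Q (g u) := by
  apply LinearEquiv.ext
  intro x
  change g (otv Q u (g⁻¹ x)) = otv Q (g u) x
  rw [otv_apply, otv_apply, map_add, map_smul, lin_inv_apply]
  have h := isom_polar Q g hg u (g⁻¹ x)
  rw [lin_inv_apply] at h
  rw [h]

/-- The set of orthogonal transvections. -/
def TvSet (Q : QuadraticForm (ZMod 2) V) : Set (V ≃ₗ[ZMod 2] V) :=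
  {t | ∃ u, Q u = 1 ∧ t = otv Q u}

/-- The subgroup generated by the orthogonal transvections. -/
def TvGrp (Q : QuadraticForm (ZMod 2) V) : Subgroup (V ≃ₗ[ZMod 2] V) :=
  Subgroup.closure (TvSet Q)

/-- The isometries, as a subgroup of the linear automorphisms. -/
def IsoGrp (Q : QuadraticForm (ZMod 2) V) : Subgroup (V ≃ₗ[ZMod 2] V) where
  carrier := {g | ∀ x, Q (g x) = Q x}
  mul_mem' {a b} ha hb := fun x => by
    change Q (a (b x)) = Q x
    rw [ha, hb]
  one_mem' := fun _ => rfl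
  inv_mem' {a} ha := fun x => by
    have h := ha (a⁻¹ x)
    rw [lin_inv_apply] at h
    exact h.symm

theorem mem_isoGrp (Q : QuadraticForm (ZMod 2) V) (g : V ≃ₗ[ZMod 2] V) :
    g ∈ IsoGrp Q ↔ ∀ x, Q (g x) = Q x := Iff.rfl

theorem tvGrp_le (Q : QuadraticForm (ZMod 2) V) : TvGrp Q ≤ IsoGrp Q := by
  apply (Subgroup.closure_le _).2
  rintro t ⟨u, hu, rfl⟩
  exact fun x => otv_isom Q u hu x

/-- The generation statement: every isometry is a product of orthogonal transvections. -/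
def OGen (Q : QuadraticForm (ZMod 2) V) : Prop :=
  ∀ g : V ≃ₗ[ZMod 2] V, (∀ x, Q (g x) = Q x) → g ∈ TvGrp Q

theorem tv_step (Q : QuadraticForm (ZMod 2) V) (a b : V) (hab : Q a = Q b)
    (hp : QuadraticMap.polar Q a b = 1) :
    ∃ h ∈ TvGrp Q, h a = b ∧
      ∀ c, QuadraticMap.polar Q a c = QuadraticMap.polar Q b c → h c = c := by
  refine ⟨otv Q (a + b), Subgroup.subset_closure ⟨_, ?_, rfl⟩, ?_, ?_⟩
  · rw [q_add, hab, hp]
    have h : ∀ p : ZMod 2, p + p + 1 = 1 := by decide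
    exact h _
  · rw [otv_apply, QuadraticMap.polar_add_left, opolar_self, QuadraticMap.polar_comm Q b a, hp,
      zero_add, one_smul, ← add_assoc, z2_add_self, zero_add]
  · intro c hc
    rw [otv_apply, QuadraticMap.polar_add_left, hc]
    have h : ∀ p : ZMod 2, p + p = 0 := by decide
    rw [h, zero_smul, add_zero]

theorem tv_step2 (Q : QuadraticForm (ZMod 2) V) (a w b : V) (haw : Q a = Q w) (hwb : Q w = Q b)
    (hp1 : QuadraticMap.polar Q a w = 1) (hp2 : QuadraticMap.polar Q w b = 1) :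
    ∃ h ∈ TvGrp Q, h a = b ∧
      ∀ c, QuadraticMap.polar Q a c = QuadraticMap.polar Q w c →
        QuadraticMap.polar Q w c = QuadraticMap.polar Q b c → h c = c := by
  obtain ⟨h₁, hh₁, e₁, f₁⟩ := tv_step Q a w haw hp1
  obtain ⟨h₂, hh₂, e₂, f₂⟩ := tv_step Q w b hwb hp2
  refine ⟨h₂ * h₁, Subgroup.mul_mem _ hh₂ hh₁, ?_, ?_⟩
  · change h₂ (h₁ a) = b
    rw [e₁, e₂]
  · intro c hc1 hc2
    change h₂ (h₁ c) = c
    rw [f₁ c hc1, f₂ c hc2]

theorem exists_polar_one (Q : QuadraticForm (ZMod 2) V)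
    (hQ : (QuadraticMap.polarBilin Q).Nondegenerate) (u : V) (hu : u ≠ 0) :
    ∃ x, QuadraticMap.polar Q u x = 1 := by
  by_contra hcon
  push Not at hcon
  apply hu
  apply hQ.1 u
  intro y
  rcases z2_cases (QuadraticMap.polar Q u y) with h | h
  · exact h
  · exact absurd h (hcon y)

theorem exists_polar_one2 (Q : QuadraticForm (ZMod 2) V)
    (hQ : (QuadraticMap.polarBilin Q).Nondegenerate) (u v : V) (hu : u ≠ 0) (hv : v ≠ 0) :
    ∃ x, QuadraticMap.polar Q u x = 1 ∧ QuadraticMap.polar Q v x = 1 := by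
  obtain ⟨a, ha⟩ := exists_polar_one Q hQ u hu
  obtain ⟨c, hc⟩ := exists_polar_one Q hQ v hv
  rcases z2_cases (QuadraticMap.polar Q v a) with h1 | h1
  · rcases z2_cases (QuadraticMap.polar Q u c) with h2 | h2
    · refine ⟨a + c, ?_, ?_⟩
      · rw [QuadraticMap.polar_add_right, ha, h2, add_zero]
      · rw [QuadraticMap.polar_add_right, h1, hc, zero_add]
    · exact ⟨c, h2, hc⟩
  · exact ⟨a, ha, h1⟩

/-- In dimension at least 6 there is a vector of norm 1 orthogonal to three given vectors, two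
of which are not orthogonal to each other. -/
theorem exists_perp3 [FiniteDimensional (ZMod 2) V] (Q : QuadraticForm (ZMod 2) V)
    (hQ : (QuadraticMap.polarBilin Q).Nondegenerate)
    (hdim : 6 ≤ Module.finrank (ZMod 2) V) (a b c : V) (hab : QuadraticMap.polar Q a b = 1) :
    ∃ y, QuadraticMap.polar Q a y = 0 ∧ QuadraticMap.polar Q b y = 0 ∧
      QuadraticMap.polar Q c y = 0 ∧ Q y = 1 := by
  classical
  by_contra hcon
  push Not at hcon
  have hrefl : (QuadraticMap.polarBilin Q).IsRefl := fun x y h => by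
    change QuadraticMap.polar Q y x = 0
    rw [QuadraticMap.polar_comm]
    exact h
  obtain ⟨S, hSdef⟩ : ∃ S : Submodule (ZMod 2) V,
      S = Submodule.span (ZMod 2) (({a, b, c} : Finset V) : Set V) := ⟨_, rfl⟩
  have hS : Module.finrank (ZMod 2) S ≤ 3 := by
    rw [hSdef]
    exact le_trans (finrank_span_finset_le_card (R := ZMod 2) ({a, b, c} : Finset V))
      Finset.card_le_three
  have haS : a ∈ S := by
    rw [hSdef]
    exact Submodule.subset_span (by simp)
  have hbS : b ∈ S := by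
    rw [hSdef]
    exact Submodule.subset_span (by simp)
  have hcS : c ∈ S := by
    rw [hSdef]
    exact Submodule.subset_span (by simp)
  have hT : ∀ y ∈ LinearMap.BilinForm.orthogonal (QuadraticMap.polarBilin Q) S, Q y = 0 := by
    intro y hy
    rw [LinearMap.BilinForm.mem_orthogonal_iff] at hy
    have h1 : QuadraticMap.polar Q a y = 0 := hy a haS
    have h2 : QuadraticMap.polar Q b y = 0 := hy b hbS
    have h3 : QuadraticMap.polar Q c y = 0 := hy c hcS
    rcases z2_cases (Q y) with h | h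
    · exact h
    · exact absurd h (hcon y h1 h2 h3)
  have hle : LinearMap.BilinForm.orthogonal (QuadraticMap.polarBilin Q) S ≤ S := by
    intro y hy
    rw [← LinearMap.BilinForm.orthogonal_orthogonal hQ hrefl S,
      LinearMap.BilinForm.mem_orthogonal_iff]
    intro z hz
    change QuadraticMap.polar Q z y = 0
    rw [opolar_def, hT z hz, hT y hy, hT (z + y) (Submodule.add_mem _ hz hy)]
    rfl
  have hfr := LinearMap.BilinForm.finrank_orthogonal hQ S
  have heq : LinearMap.BilinForm.orthogonal (QuadraticMap.polarBilin Q) S = S :=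
    Submodule.eq_of_le_of_finrank_le hle (by omega)
  have haT : a ∈ LinearMap.BilinForm.orthogonal (QuadraticMap.polarBilin Q) S := by
    rw [heq]
    exact haS
  rw [LinearMap.BilinForm.mem_orthogonal_iff] at haT
  have h0 : QuadraticMap.polar Q b a = 0 := haT b hbS
  rw [QuadraticMap.polar_comm, hab] at h0
  exact one_ne_zero h0

/-- Stage 1: transitivity on vectors of a given norm, given connecting vectors. -/
theorem tv_trans1 (Q : QuadraticForm (ZMod 2) V) (ε : ZMod 2)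
    (h1 : ∀ a b : V, Q a = ε → Q b = ε → a ≠ 0 → b ≠ 0 → QuadraticMap.polar Q a b = 0 → a ≠ b →
      ∃ w, Q w = ε ∧ QuadraticMap.polar Q a w = 1 ∧ QuadraticMap.polar Q w b = 1)
    (a b : V) (ha : Q a = ε) (hb : Q b = ε) (ha0 : a ≠ 0) (hb0 : b ≠ 0) :
    ∃ h ∈ TvGrp Q, h a = b := by
  by_cases hab : a = b
  · exact ⟨1, Subgroup.one_mem _, by rw [hab]; rfl⟩
  rcases z2_cases (QuadraticMap.polar Q a b) with hp | hp
  · obtain ⟨w, hw, hw1, hw2⟩ := h1 a b ha hb ha0 hb0 hp hab
    obtain ⟨h, hh, e1, -⟩ := tv_step2 Q a w b (ha.trans hw.symm) (hw.trans hb.symm) hw1 hw2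
    exact ⟨h, hh, e1⟩
  · obtain ⟨h, hh, e1, -⟩ := tv_step Q a b (ha.trans hb.symm) hp
    exact ⟨h, hh, e1⟩

/-- The inductive step: if the transvection group contains the stabiliser of a pair `(e, f)`
and is transitive enough, it is the whole isometry group. -/
theorem gen_step (Q : QuadraticForm (ZMod 2) V) (ε : ZMod 2) (e f : V) (he : Q e = ε)
    (hf : Q f = ε) (hef : QuadraticMap.polar Q e f = 1)
    (h1 : ∀ a b : V, Q a = ε → Q b = ε → a ≠ 0 → b ≠ 0 → QuadraticMap.polar Q a b = 0 → a ≠ b →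
      ∃ w, Q w = ε ∧ QuadraticMap.polar Q a w = 1 ∧ QuadraticMap.polar Q w b = 1)
    (h2 : ∀ a b c : V, Q a = ε → Q b = ε → Q c = ε → QuadraticMap.polar Q a b = 1 →
      QuadraticMap.polar Q a c = 1 → QuadraticMap.polar Q b c = 0 → b ≠ c →
        ∃ h ∈ TvGrp Q, h a = a ∧ h b = c)
    (hfix : ∀ g : V ≃ₗ[ZMod 2] V, (∀ x, Q (g x) = Q x) → g e = e → g f = f → g ∈ TvGrp Q) :
    OGen Q := by
  intro g hg
  have S2 : ∀ a b c : V, Q a = ε → Q b = ε → Q c = ε → QuadraticMap.polar Q a b = 1 →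
      QuadraticMap.polar Q a c = 1 → ∃ h ∈ TvGrp Q, h a = a ∧ h b = c := by
    intro a b c ha hb hc hab hac
    by_cases hbc : b = c
    · exact ⟨1, Subgroup.one_mem _, rfl, by rw [hbc]; rfl⟩
    rcases z2_cases (QuadraticMap.polar Q b c) with hp | hp
    · exact h2 a b c ha hb hc hab hac hp hbc
    · obtain ⟨h, hh, e1, e2⟩ := tv_step Q b c (hb.trans hc.symm) hp
      refine ⟨h, hh, e2 a ?_, e1⟩
      rw [QuadraticMap.polar_comm Q b a, QuadraticMap.polar_comm Q c a, hab, hac]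
  have he0 : e ≠ 0 := by
    rintro rfl
    rw [QuadraticMap.polar_zero_left] at hef
    exact zero_ne_one hef
  have hge0 : g e ≠ 0 := fun h => he0 ((LinearEquiv.map_eq_zero_iff g).1 h)
  obtain ⟨k₁, hk₁, e₁⟩ := tv_trans1 Q ε h1 e (g e) he (by rw [hg, he]) he0 hge0
  have hk₁iso : ∀ x, Q (k₁ x) = Q x := tvGrp_le Q hk₁
  obtain ⟨k₂, hk₂, e₂, e₃⟩ := S2 (g e) (k₁ f) (g f) (by rw [hg, he]) (by rw [hk₁iso, hf])
    (by rw [hg, hf]) (by rw [← e₁, isom_polar Q k₁ hk₁iso, hef]) (by rw [isom_polar Q g hg, hef])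
  have hk : k₂ * k₁ ∈ TvGrp Q := Subgroup.mul_mem _ hk₂ hk₁
  have hke : (k₂ * k₁) e = g e := by
    change k₂ (k₁ e) = g e
    rw [e₁, e₂]
  have hkf : (k₂ * k₁) f = g f := e₃
  have hfixed : (k₂ * k₁)⁻¹ * g ∈ TvGrp Q := by
    apply hfix
    · exact (IsoGrp Q).mul_mem ((IsoGrp Q).inv_mem (tvGrp_le Q hk)) hg
    · change (k₂ * k₁)⁻¹ (g e) = e
      rw [← hke, lin_inv_apply']
    · change (k₂ * k₁)⁻¹ (g f) = f
      rw [← hkf, lin_inv_apply']
  have hgk : g = (k₂ * k₁) * ((k₂ * k₁)⁻¹ * g) := by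
    rw [mul_inv_cancel_left]
  rw [hgk]
  exact Subgroup.mul_mem _ hk hfixed

/-- Connecting singular vectors (no dimension hypothesis). -/
theorem conn_sing (Q : QuadraticForm (ZMod 2) V)
    (hQ : (QuadraticMap.polarBilin Q).Nondegenerate) (a b : V) (ha : Q a = 0) (_hb : Q b = 0)
    (ha0 : a ≠ 0) (hb0 : b ≠ 0) (hab : QuadraticMap.polar Q a b = 0) (_hne : a ≠ b) :
    ∃ w, Q w = 0 ∧ QuadraticMap.polar Q a w = 1 ∧ QuadraticMap.polar Q w b = 1 := by
  obtain ⟨x, hx1, hx2⟩ := exists_polar_one2 Q hQ a b ha0 hb0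
  rcases z2_cases (Q x) with hx | hx
  · exact ⟨x, hx, hx1, by rw [QuadraticMap.polar_comm]; exact hx2⟩
  · refine ⟨x + a, ?_, ?_, ?_⟩
    · rw [q_add, hx, ha, QuadraticMap.polar_comm, hx1]
      rfl
    · rw [QuadraticMap.polar_add_right, hx1, opolar_self, add_zero]
    · rw [QuadraticMap.polar_add_left, QuadraticMap.polar_comm Q x b, hx2, hab, add_zero]

/-- Connecting vectors of norm 1 in dimension at least 6. -/
theorem conn_nonsing [FiniteDimensional (ZMod 2) V] (Q : QuadraticForm (ZMod 2) V)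
    (hQ : (QuadraticMap.polarBilin Q).Nondegenerate)
    (hdim : 6 ≤ Module.finrank (ZMod 2) V) (a b : V) (_ha : Q a = 1) (_hb : Q b = 1)
    (ha0 : a ≠ 0) (hb0 : b ≠ 0) (_hab : QuadraticMap.polar Q a b = 0) (_hne : a ≠ b) :
    ∃ w, Q w = 1 ∧ QuadraticMap.polar Q a w = 1 ∧ QuadraticMap.polar Q w b = 1 := by
  obtain ⟨x, hx1, hx2⟩ := exists_polar_one2 Q hQ a b ha0 hb0
  rcases z2_cases (Q x) with hx | hx
  · obtain ⟨y, hy1, hy2, hy3, hy4⟩ := exists_perp3 Q hQ hdim a x b hx1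
    refine ⟨x + y, ?_, ?_, ?_⟩
    · rw [q_add, hx, hy4, hy2]
      rfl
    · rw [QuadraticMap.polar_add_right, hx1, hy1, add_zero]
    · rw [QuadraticMap.polar_add_left, QuadraticMap.polar_comm Q x b, hx2,
        QuadraticMap.polar_comm Q y b, hy3, add_zero]
  · exact ⟨x, hx, hx1, by rw [QuadraticMap.polar_comm]; exact hx2⟩

/-- Stage 2 for singular vectors in dimension at least 6. -/
theorem stage2_sing [FiniteDimensional (ZMod 2) V] (Q : QuadraticForm (ZMod 2) V)
    (hQ : (QuadraticMap.polarBilin Q).Nondegenerate)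
    (hdim : 6 ≤ Module.finrank (ZMod 2) V) (a b c : V) (ha : Q a = 0) (hb : Q b = 0)
    (hc : Q c = 0) (hab : QuadraticMap.polar Q a b = 1) (hac : QuadraticMap.polar Q a c = 1)
    (hbc : QuadraticMap.polar Q b c = 0) (_hne : b ≠ c) :
    ∃ h ∈ TvGrp Q, h a = a ∧ h b = c := by
  obtain ⟨y, hy1, hy2, hy3, hy4⟩ := exists_perp3 Q hQ hdim a b (b + c) hab
  have hcy : QuadraticMap.polar Q c y = 0 := by
    rw [QuadraticMap.polar_add_left, hy2, zero_add] at hy3
    exact hy3
  have hba : QuadraticMap.polar Q b a = 1 := by rw [QuadraticMap.polar_comm]; exact hab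
  have hca : QuadraticMap.polar Q c a = 1 := by rw [QuadraticMap.polar_comm]; exact hac
  have hw : Q (b + a + y) = 0 := by
    rw [q_add, q_add, hb, ha, hba, hy4,
      QuadraticMap.polar_add_left, hy2, hy1]
    rfl
  have hbw : QuadraticMap.polar Q b (b + a + y) = 1 := by
    rw [QuadraticMap.polar_add_right, QuadraticMap.polar_add_right, opolar_self, hba, hy2]
    rfl
  have hwc : QuadraticMap.polar Q (b + a + y) c = 1 := by
    rw [QuadraticMap.polar_add_left, QuadraticMap.polar_add_left, hbc, hac,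
      QuadraticMap.polar_comm Q y c, hcy]
    rfl
  have hwa : QuadraticMap.polar Q (b + a + y) a = 1 := by
    rw [QuadraticMap.polar_add_left, QuadraticMap.polar_add_left, hba, opolar_self,
      QuadraticMap.polar_comm Q y a, hy1]
    rfl
  obtain ⟨h, hh, e1, e2⟩ := tv_step2 Q b (b + a + y) c (hb.trans hw.symm) (hw.trans hc.symm)
    hbw hwc
  exact ⟨h, hh, e2 a (by rw [hba, hwa]) (by rw [hwa, hca]), e1⟩

/-- Stage 2 for vectors of norm 1 (no dimension hypothesis). -/
theorem stage2_nonsing (Q : QuadraticForm (ZMod 2) V) (a b c : V) (ha : Q a = 1) (hb : Q b = 1)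
    (hc : Q c = 1) (hab : QuadraticMap.polar Q a b = 1) (hac : QuadraticMap.polar Q a c = 1)
    (hbc : QuadraticMap.polar Q b c = 0) (_hne : b ≠ c) :
    ∃ h ∈ TvGrp Q, h a = a ∧ h b = c := by
  have hba : QuadraticMap.polar Q b a = 1 := by rw [QuadraticMap.polar_comm]; exact hab
  have hca : QuadraticMap.polar Q c a = 1 := by rw [QuadraticMap.polar_comm]; exact hac
  have hw : Q (a + b) = 1 := by
    rw [q_add, ha, hb, hab]
    rfl
  have hbw : QuadraticMap.polar Q b (a + b) = 1 := by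
    rw [QuadraticMap.polar_add_right, hba, opolar_self, add_zero]
  have hwc : QuadraticMap.polar Q (a + b) c = 1 := by
    rw [QuadraticMap.polar_add_left, hac, hbc, add_zero]
  have hwa : QuadraticMap.polar Q (a + b) a = 1 := by
    rw [QuadraticMap.polar_add_left, opolar_self, hba, zero_add]
  obtain ⟨h, hh, e1, e2⟩ := tv_step2 Q b (a + b) c (hb.trans hw.symm) (hw.trans hc.symm)
    hbw hwc
  exact ⟨h, hh, e2 a (by rw [hba, hwa]) (by rw [hwa, hca]), e1⟩

theorem otv_three (Q : QuadraticForm (ZMod 2) V) (u v : V) (hu : Q u = 1) (hv : Q v = 1) :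
    (otv Q u * otv Q v) ^ 2 = 1 ∨ (otv Q u * otv Q v) ^ 3 = 1 := by
  rcases z2_cases (QuadraticMap.polar Q u v) with h | h
  · left
    apply (three_transp_aux (otv Q u) (otv Q v) (otv Q v) (otv_sq Q u) (otv_sq Q v)
      (otv_sq Q v)).1
    rw [otv_conj Q _ (otv_isom Q u hu), otv_apply, h, zero_smul, add_zero]
  · right
    apply (three_transp_aux (otv Q u) (otv Q v) (otv Q (u + v)) (otv_sq Q u) (otv_sq Q v)
      (otv_sq Q _)).2
    · rw [otv_conj Q _ (otv_isom Q u hu), otv_apply, h, one_smul, add_comm]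
    · rw [otv_conj Q _ (otv_isom Q v hv), otv_apply, QuadraticMap.polar_comm, h, one_smul]

end Abstract

section Prod

variable {V W : Type*} [AddCommGroup V] [Module (ZMod 2) V] [AddCommGroup W]
  [Module (ZMod 2) W]

theorem prod_decomp (c : Fin 2 → ZMod 2) (w : W) :
    (c, w) = c 0 • ((Pi.single 0 1 : Fin 2 → ZMod 2), (0 : W))
      + c 1 • ((Pi.single 1 1 : Fin 2 → ZMod 2), (0 : W)) + ((0 : Fin 2 → ZMod 2), w) := by
  refine Prod.ext ?_ ?_
  · funext i
    fin_cases i <;> simp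
  · simp

theorem prod_polar (QV : QuadraticForm (ZMod 2) V) (QW : QuadraticForm (ZMod 2) W)
    (qP : (Fin 2 → ZMod 2) → ZMod 2)
    (hqP : ∀ c c' : Fin 2 → ZMod 2, qP (c + c') = qP c + qP c' + (c 0 * c' 1 + c 1 * c' 0))
    (φ : ((Fin 2 → ZMod 2) × W) ≃ₗ[ZMod 2] V) (hφ : ∀ c w, QV (φ (c, w)) = qP c + QW w)
    (c : Fin 2 → ZMod 2) (w : W) (c' : Fin 2 → ZMod 2) (w' : W) :
    QuadraticMap.polar QV (φ (c, w)) (φ (c', w'))
      = c 0 * c' 1 + c 1 * c' 0 + QuadraticMap.polar QW w w' := by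
  rw [opolar_def, opolar_def, ← map_add, Prod.mk_add_mk, hφ, hφ, hφ, hqP]
  ring

theorem prod_qP_zero (qP : (Fin 2 → ZMod 2) → ZMod 2)
    (hqP : ∀ c c' : Fin 2 → ZMod 2, qP (c + c') = qP c + qP c' + (c 0 * c' 1 + c 1 * c' 0)) :
    qP 0 = 0 := by
  simpa using hqP 0 0

/-- Isometries fixing the two basis vectors of the plane factor are products of transvections,
if the isometries of the complement are. -/
theorem fix_of_prod (QV : QuadraticForm (ZMod 2) V) (QW : QuadraticForm (ZMod 2) W)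
    (qP : (Fin 2 → ZMod 2) → ZMod 2)
    (hqP : ∀ c c' : Fin 2 → ZMod 2, qP (c + c') = qP c + qP c' + (c 0 * c' 1 + c 1 * c' 0))
    (φ : ((Fin 2 → ZMod 2) × W) ≃ₗ[ZMod 2] V) (hφ : ∀ c w, QV (φ (c, w)) = qP c + QW w)
    (hW : OGen QW)
    (g : V ≃ₗ[ZMod 2] V) (hg : ∀ x, QV (g x) = QV x)
    (he : g (φ (Pi.single 0 1, 0)) = φ (Pi.single 0 1, 0))
    (hf : g (φ (Pi.single 1 1, 0)) = φ (Pi.single 1 1, 0)) :
    g ∈ TvGrp QV := by
  have hqP0 : qP 0 = 0 := prod_qP_zero qP hqP
  have hpol := prod_polar QV QW qP hqP φ hφ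
  have hφ0 : ∀ w, QV (φ (0, w)) = QW w := fun w => by rw [hφ, hqP0, zero_add]
  have hsub : ∀ k : V ≃ₗ[ZMod 2] V, (∀ x, QV (k x) = QV x) →
      k (φ (Pi.single 0 1, 0)) = φ (Pi.single 0 1, 0) →
      k (φ (Pi.single 1 1, 0)) = φ (Pi.single 1 1, 0) →
      ∀ w, k (φ (0, w)) = φ (0, (φ.symm (k (φ (0, w)))).2) := by
    intro k hk hke hkf w
    obtain ⟨p, hp⟩ : ∃ p, p = φ.symm (k (φ (0, w))) := ⟨_, rfl⟩
    have hkp : k (φ (0, w)) = φ p := by rw [hp, LinearEquiv.apply_symm_apply]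
    rw [← hp, hkp]
    have h1 : QuadraticMap.polar QV (φ p) (φ (Pi.single 0 1, 0)) = 0 := by
      rw [← hkp, ← hke, isom_polar QV k hk, hpol]
      simp
    have h2 : QuadraticMap.polar QV (φ p) (φ (Pi.single 1 1, 0)) = 0 := by
      rw [← hkp, ← hkf, isom_polar QV k hk, hpol]
      simp
    obtain ⟨c, w'⟩ := p
    rw [hpol] at h1 h2
    simp at h1 h2
    have hc : c = 0 := by
      funext i
      fin_cases i
      · exact h2
      · exact h1
    rw [hc]
  obtain ⟨L, hL⟩ : ∃ L : (V ≃ₗ[ZMod 2] V) → (W →ₗ[ZMod 2] W),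
      ∀ k w, L k w = (φ.symm (k (φ (0, w)))).2 :=
    ⟨fun k => (LinearMap.snd (ZMod 2) (Fin 2 → ZMod 2) W).comp (φ.symm.toLinearMap.comp
      (k.toLinearMap.comp (φ.toLinearMap.comp (LinearMap.inr (ZMod 2) (Fin 2 → ZMod 2) W)))),
      fun k w => rfl⟩
  have hginv : ∀ x, QV (g⁻¹ x) = QV x := (IsoGrp QV).inv_mem hg
  have hginv_e : g⁻¹ (φ (Pi.single 0 1, 0)) = φ (Pi.single 0 1, 0) := by
    conv_lhs => rw [← he]
    exact lin_inv_apply' g _
  have hginv_f : g⁻¹ (φ (Pi.single 1 1, 0)) = φ (Pi.single 1 1, 0) := by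
    conv_lhs => rw [← hf]
    exact lin_inv_apply' g _
  have hLg : ∀ w, g (φ (0, w)) = φ (0, L g w) := fun w => by
    rw [hL]
    exact hsub g hg he hf w
  have hLg' : ∀ w, g⁻¹ (φ (0, w)) = φ (0, L g⁻¹ w) := fun w => by
    rw [hL]
    exact hsub g⁻¹ hginv hginv_e hginv_f w
  obtain ⟨gW, hgW⟩ : ∃ gW : W ≃ₗ[ZMod 2] W, ∀ w, gW w = L g w := by
    refine ⟨LinearEquiv.ofLinearMap (L g) (L g⁻¹) ?_ ?_, fun w => rfl⟩
    · apply LinearMap.ext
      intro w
      change L g (L g⁻¹ w) = w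
      have h := hLg (L g⁻¹ w)
      rw [← hLg', lin_inv_apply] at h
      exact (congrArg Prod.snd (φ.injective h)).symm
    · apply LinearMap.ext
      intro w
      change L g⁻¹ (L g w) = w
      have h := hLg' (L g w)
      rw [← hLg, lin_inv_apply'] at h
      exact (congrArg Prod.snd (φ.injective h)).symm
  have hgWiso : ∀ w, QW (gW w) = QW w := by
    intro w
    rw [hgW, ← hφ0, ← hLg, hg, hφ0]
  have hmem := hW gW hgWiso
  have key : ∀ h ∈ TvGrp QW, ∃ k ∈ TvGrp QV,
      k (φ (Pi.single 0 1, 0)) = φ (Pi.single 0 1, 0) ∧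
      k (φ (Pi.single 1 1, 0)) = φ (Pi.single 1 1, 0) ∧ ∀ w, k (φ (0, w)) = φ (0, h w) := by
    intro h hh
    refine Subgroup.closure_induction (p := fun h _ => ∃ k ∈ TvGrp QV,
      k (φ (Pi.single 0 1, 0)) = φ (Pi.single 0 1, 0) ∧
      k (φ (Pi.single 1 1, 0)) = φ (Pi.single 1 1, 0) ∧ ∀ w, k (φ (0, w)) = φ (0, h w))
      ?_ ?_ ?_ ?_ hh
    · rintro t ⟨u, hu, rfl⟩
      refine ⟨otv QV (φ (0, u)), Subgroup.subset_closure ⟨_, by rw [hφ0, hu], rfl⟩, ?_, ?_, ?_⟩
      · rw [otv_apply, hpol]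
        simp
      · rw [otv_apply, hpol]
        simp
      · intro w
        rw [otv_apply, otv_apply, hpol]
        simp only [Pi.zero_apply, zero_mul, add_zero, zero_add]
        rw [← map_smul, ← map_add]
        simp
    · exact ⟨1, Subgroup.one_mem _, rfl, rfl, fun w => rfl⟩
    · rintro a b _ _ ⟨ka, hka, ea, fa, wa⟩ ⟨kb, hkb, eb, fb, wb⟩
      refine ⟨ka * kb, Subgroup.mul_mem _ hka hkb, ?_, ?_, ?_⟩
      · change ka (kb _) = _
        rw [eb, ea]
      · change ka (kb _) = _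
        rw [fb, fa]
      · intro w
        change ka (kb _) = φ (0, a (b w))
        rw [wb, wa]
    · rintro a _ ⟨ka, hka, ea, fa, wa⟩
      refine ⟨ka⁻¹, Subgroup.inv_mem _ hka, ?_, ?_, ?_⟩
      · conv_lhs => rw [← ea]
        exact lin_inv_apply' ka _
      · conv_lhs => rw [← fa]
        exact lin_inv_apply' ka _
      · intro w
        have h := wa (a⁻¹ w)
        rw [lin_inv_apply] at h
        rw [← h, lin_inv_apply']
  obtain ⟨k, hk, ke, kf, kw⟩ := key gW hmem
  have hgk : g = k := by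
    apply LinearEquiv.ext
    intro x
    obtain ⟨⟨c, w⟩, rfl⟩ : ∃ p, φ p = x := ⟨φ.symm x, φ.apply_symm_apply x⟩
    rw [prod_decomp c w]
    simp only [map_add, map_smul]
    rw [he, hf, ke, kf, hLg, kw, hgW]
  rw [hgk]
  exact hk

end Prod

end Cfsg.Agent.Helper5
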