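import Mathlib
import Cfsg.Prelude.Def_Classical
import Cfsg.Prelude.Def_SporadicB
import Cfsg.Agent.Helper5.OrthTv
import Cfsg.Agent.Helper5.OrthStep
import Cfsg.Agent.Helper5.StabProd
import Cfsg.Agent.Helper15.SpCard

/-!
Bridge from the abstract orthogonal transvections over `ZMod 2` to the matrix isometry group:
the rank-one elements of the isometry group of a non-degenerate quadratic form in dimension at
least 6 form a class of 3-transpositions, provided every isometry is a product of transvections.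
-/

set_option autoImplicit false

namespace Cfsg.Agent.Helper5

open scoped Matrix

section Bridge

variable {κ : Type} [Fintype κ] [DecidableEq κ]

/-- The action of the isometry group on vectors, as a homomorphism to linear automorphisms. -/
noncomputable def isoAct (Qf : (κ → ZMod 2) → ZMod 2) :
    ↥(Cfsg.isometryGroup (ZMod 2) Qf) →* ((κ → ZMod 2) ≃ₗ[ZMod 2] (κ → ZMod 2)) where
  toFun A := LinearEquiv.ofLinearMap
      (Matrix.toLin' ((A : Matrix.GeneralLinearGroup κ (ZMod 2)) : Matrix κ κ (ZMod 2)))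
      (Matrix.toLin' (((A : Matrix.GeneralLinearGroup κ (ZMod 2))⁻¹ :
        Matrix.GeneralLinearGroup κ (ZMod 2)) : Matrix κ κ (ZMod 2)))
      (by rw [← Matrix.toLin'_mul, ← Units.val_mul, mul_inv_cancel, Units.val_one,
        Matrix.toLin'_one])
      (by rw [← Matrix.toLin'_mul, ← Units.val_mul, inv_mul_cancel, Units.val_one,
        Matrix.toLin'_one])
  map_one' := by
    apply LinearEquiv.ext
    intro x
    change Matrix.toLin' (1 : Matrix κ κ (ZMod 2)) x = x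
    rw [Matrix.toLin'_one]
    rfl
  map_mul' A B := by
    apply LinearEquiv.ext
    intro x
    change Matrix.toLin' (((A : Matrix.GeneralLinearGroup κ (ZMod 2)) : Matrix κ κ (ZMod 2))
      * ((B : Matrix.GeneralLinearGroup κ (ZMod 2)) : Matrix κ κ (ZMod 2))) x
        = Matrix.toLin' ((A : Matrix.GeneralLinearGroup κ (ZMod 2)) : Matrix κ κ (ZMod 2))
          (Matrix.toLin' ((B : Matrix.GeneralLinearGroup κ (ZMod 2)) : Matrix κ κ (ZMod 2)) x)
    rw [Matrix.toLin'_mul]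
    rfl

theorem isoAct_apply (Qf : (κ → ZMod 2) → ZMod 2) (A : ↥(Cfsg.isometryGroup (ZMod 2) Qf))
    (x : κ → ZMod 2) :
    isoAct Qf A x = ((A : Matrix.GeneralLinearGroup κ (ZMod 2)) : Matrix κ κ (ZMod 2)) *ᵥ x :=
  Matrix.toLin'_apply _ _

theorem isoAct_injective (Qf : (κ → ZMod 2) → ZMod 2) : Function.Injective (isoAct Qf) := by
  intro A B h
  apply Subtype.ext
  apply Units.ext
  apply mat_ext
  intro x
  rw [← isoAct_apply, ← isoAct_apply, h]

theorem isoAct_isom (Qf : (κ → ZMod 2) → ZMod 2) (A : ↥(Cfsg.isometryGroup (ZMod 2) Qf))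
    (x : κ → ZMod 2) : Qf (isoAct Qf A x) = Qf x := by
  rw [isoAct_apply]
  exact A.2 x 0

theorem isoAct_surj (Qf : (κ → ZMod 2) → ZMod 2)
    (g₀ : (κ → ZMod 2) ≃ₗ[ZMod 2] (κ → ZMod 2)) (hg₀ : ∀ x, Qf (g₀ x) = Qf x) :
    ∃ A, isoAct Qf A = g₀ := by
  obtain ⟨A, hA⟩ := linEquiv_to_iso Qf g₀ hg₀
  exact ⟨A, LinearEquiv.ext fun x => by rw [isoAct_apply]; exact hA x⟩

omit [Fintype κ] [DecidableEq κ] in
theorem q_one_ne_zero (𝒬 : QuadraticForm (ZMod 2) (κ → ZMod 2)) (u : κ → ZMod 2)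
    (hu : 𝒬 u = 1) : u ≠ 0 := by
  rintro rfl
  rw [QuadraticMap.map_zero] at hu
  exact zero_ne_one hu

/-- The rank-one isometries are exactly the orthogonal transvections. -/
theorem rank_one_iff (𝒬 : QuadraticForm (ZMod 2) (κ → ZMod 2))
    (hnd : (QuadraticMap.polarBilin 𝒬).Nondegenerate)
    (A : ↥(Cfsg.isometryGroup (ZMod 2) ⇑𝒬)) :
    (((A : Matrix.GeneralLinearGroup κ (ZMod 2)) : Matrix κ κ (ZMod 2)) - 1).rank = 1
      ↔ ∃ u, 𝒬 u = 1 ∧ isoAct ⇑𝒬 A = otv 𝒬 u := by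
  have hone : ∀ p : ZMod 2, p ≠ 0 → p = 1 := by decide
  constructor
  · intro hr
    obtain ⟨a, b, ha, hb, hN⟩ := Cfsg.Agent.Helper15.rank_one_decomp_gen _ hr
    have hA : ((A : Matrix.GeneralLinearGroup κ (ZMod 2)) : Matrix κ κ (ZMod 2))
        = 1 + Matrix.vecMulVec a b := by
      rw [← hN]
      abel
    have hAx : ∀ x, isoAct ⇑𝒬 A x = x + (b ⬝ᵥ x) • a := by
      intro x
      rw [isoAct_apply, hA, Matrix.add_mulVec, Matrix.one_mulVec, Matrix.vecMulVec_mulVec,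
        op_smul_eq_smul]
    have hkey : ∀ x, b ⬝ᵥ x = 1 → QuadraticMap.polar 𝒬 x a = 𝒬 a := by
      intro x hx
      have h := isoAct_isom ⇑𝒬 A x
      rw [hAx, hx, one_smul, q_add] at h
      have h' : ∀ p q r : ZMod 2, p + q + r = p → r = q := by decide
      exact h' _ _ _ h
    obtain ⟨j, hj⟩ := Function.ne_iff.1 hb
    have hy0 : b ⬝ᵥ (Pi.single j 1) = 1 := by
      rw [dotProduct_single_one]
      exact hone _ hj
    have hform : ∀ x, QuadraticMap.polar 𝒬 x a = (b ⬝ᵥ x) * 𝒬 a := by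
      intro x
      rcases z2_cases (b ⬝ᵥ x) with hx | hx
      · rw [hx, zero_mul]
        have h := hkey (x + Pi.single j 1) (by rw [dotProduct_add, hx, hy0, zero_add])
        rw [QuadraticMap.polar_add_left, hkey _ hy0] at h
        have h' : ∀ p q : ZMod 2, p + q = q → p = 0 := by decide
        exact h' _ _ h
      · rw [hx, one_mul]
        exact hkey x hx
    have hQa : 𝒬 a = 1 := by
      apply hone
      intro h0
      apply ha
      apply hnd.2 a
      intro x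
      change QuadraticMap.polar 𝒬 x a = 0
      rw [hform, h0, mul_zero]
    refine ⟨a, hQa, LinearEquiv.ext fun x => ?_⟩
    rw [hAx, otv_apply, QuadraticMap.polar_comm, hform, hQa, mul_one]
  · rintro ⟨u, hu, hA⟩
    have hu0 : u ≠ 0 := q_one_ne_zero 𝒬 u hu
    have hAx : ∀ x, ((A : Matrix.GeneralLinearGroup κ (ZMod 2)) : Matrix κ κ (ZMod 2)) *ᵥ x
        = x + QuadraticMap.polar 𝒬 u x • u := by
      intro x
      rw [← isoAct_apply, hA, otv_apply]
    have hN : ((A : Matrix.GeneralLinearGroup κ (ZMod 2)) : Matrix κ κ (ZMod 2)) - 1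
        = Matrix.vecMulVec u (fun j => QuadraticMap.polar 𝒬 u (Pi.single j 1)) := by
      ext i j
      have h := congrFun (hAx (Pi.single j 1)) i
      have h3 : (((A : Matrix.GeneralLinearGroup κ (ZMod 2)) : Matrix κ κ (ZMod 2))
          *ᵥ (Pi.single j 1)) i
          = ((A : Matrix.GeneralLinearGroup κ (ZMod 2)) : Matrix κ κ (ZMod 2)) i j := by
        simp [Matrix.mulVec]
      rw [Matrix.sub_apply, ← h3, h, Pi.add_apply, Pi.smul_apply, smul_eq_mul,
        Matrix.vecMulVec_apply, Matrix.one_apply, Pi.single_apply]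
      ring
    rw [hN]
    apply rank_vecMulVec_one _ _ hu0
    intro h0
    rw [h0, Matrix.vecMulVec_zero, sub_eq_zero] at hN
    obtain ⟨x, hx⟩ := exists_polar_one 𝒬 hnd u hu0
    have h := hAx x
    rw [hN, Matrix.one_mulVec, hx, one_smul] at h
    exact hu0 (left_eq_add.1 h)

/-- The rank-one isometries form a class of 3-transpositions, in dimension at least 6 and
when the transvections generate. -/
theorem orth_three_transp (𝒬 : QuadraticForm (ZMod 2) (κ → ZMod 2))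
    (hnd : (QuadraticMap.polarBilin 𝒬).Nondegenerate) (hdim : 6 ≤ Fintype.card κ)
    (hgen : OGen 𝒬) :
    Cfsg.IsThreeTranspositionClass {g : ↥(Cfsg.isometryGroup (ZMod 2) ⇑𝒬) |
      (((g : Matrix.GeneralLinearGroup κ (ZMod 2)) : Matrix κ κ (ZMod 2)) - 1).rank = 1} := by
  have hfin : 6 ≤ Module.finrank (ZMod 2) (κ → ZMod 2) := by
    rw [Module.finrank_fintype_fun_eq_card]
    exact hdim
  have hD := rank_one_iff 𝒬 hnd
  have hinj := isoAct_injective (⇑𝒬)
  refine ⟨⟨?_, ?_⟩, ?_, ?_⟩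
  · intro d hd
    obtain ⟨u, hu, hdu⟩ := (hD d).1 hd
    apply orderOf_eq_prime
    · apply hinj
      rw [map_pow, hdu, pow_two, otv_sq, map_one]
    · intro h1
      rw [h1, map_one] at hdu
      have hu0 : u ≠ 0 := q_one_ne_zero 𝒬 u hu
      obtain ⟨x, hx⟩ := exists_polar_one 𝒬 hnd u hu0
      have h := LinearEquiv.congr_fun hdu x
      rw [otv_apply, hx, one_smul] at h
      change x = x + u at h
      exact hu0 (left_eq_add.1 h)
  · intro d hd e he
    obtain ⟨u, hu, hdu⟩ := (hD d).1 hd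
    obtain ⟨v, hv, hev⟩ := (hD e).1 he
    rcases otv_three 𝒬 u v hu hv with h | h
    · left
      apply hinj
      rw [map_pow, map_mul, hdu, hev, h, map_one]
    · right
      apply hinj
      rw [map_pow, map_mul, hdu, hev, h, map_one]
  · obtain ⟨u₀, hu₀⟩ : ∃ u₀, 𝒬 u₀ = 1 := by
      have hκ : Nonempty κ := Fintype.card_pos_iff.1 (by omega)
      obtain ⟨k⟩ := hκ
      have ha0 : (Pi.single k 1 : κ → ZMod 2) ≠ 0 := by
        intro h
        have h' := congrFun h k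
        simp at h'
      obtain ⟨b, hb⟩ := exists_polar_one 𝒬 hnd _ ha0
      obtain ⟨u₀, -, -, -, hu₀⟩ := exists_perp3 𝒬 hnd hfin _ b 0 hb
      exact ⟨u₀, hu₀⟩
    obtain ⟨d₀, hd₀⟩ := isoAct_surj ⇑𝒬 (otv 𝒬 u₀) (otv_isom 𝒬 u₀ hu₀)
    refine ⟨d₀, (hD d₀).2 ⟨u₀, hu₀, hd₀⟩, ?_⟩
    ext g
    rw [Set.mem_ofPred_eq, hD]
    change _ ↔ IsConj d₀ g
    rw [isConj_iff]
    constructor
    · rintro ⟨u, hu, hgu⟩
      obtain ⟨h, hh, hhu⟩ := tv_trans1 𝒬 1 (conn_nonsing 𝒬 hnd hfin) u₀ u hu₀ hu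
        (q_one_ne_zero 𝒬 u₀ hu₀) (q_one_ne_zero 𝒬 u hu)
      obtain ⟨c, hc⟩ := isoAct_surj ⇑𝒬 h (tvGrp_le 𝒬 hh)
      refine ⟨c, hinj ?_⟩
      rw [map_mul, map_mul, map_inv, hc, hd₀, hgu, otv_conj 𝒬 h (tvGrp_le 𝒬 hh), hhu]
    · rintro ⟨c, rfl⟩
      refine ⟨isoAct ⇑𝒬 c u₀, (isoAct_isom ⇑𝒬 c u₀).trans hu₀, ?_⟩
      rw [map_mul, map_mul, map_inv, hd₀, otv_conj 𝒬 _ (isoAct_isom ⇑𝒬 c)]
  · rw [eq_top_iff]
    intro A _
    have h1 : isoAct ⇑𝒬 A ∈ TvGrp 𝒬 := hgen _ (isoAct_isom ⇑𝒬 A)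
    have hset : TvSet 𝒬 = isoAct ⇑𝒬 '' {g : ↥(Cfsg.isometryGroup (ZMod 2) ⇑𝒬) |
        (((g : Matrix.GeneralLinearGroup κ (ZMod 2)) : Matrix κ κ (ZMod 2)) - 1).rank = 1} := by
      ext t
      constructor
      · rintro ⟨u, hu, rfl⟩
        obtain ⟨d, hd⟩ := isoAct_surj ⇑𝒬 (otv 𝒬 u) (otv_isom 𝒬 u hu)
        exact ⟨d, (hD d).2 ⟨u, hu, hd⟩, hd⟩
      · rintro ⟨d, hd, rfl⟩
        obtain ⟨u, hu, hdu⟩ := (hD d).1 hd
        exact ⟨u, hu, hdu⟩
    have h2 : TvGrp 𝒬 = (Subgroup.closure {g : ↥(Cfsg.isometryGroup (ZMod 2) ⇑𝒬) |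
        (((g : Matrix.GeneralLinearGroup κ (ZMod 2)) : Matrix κ κ (ZMod 2)) - 1).rank = 1}).map
        (isoAct ⇑𝒬) := by
      rw [MonoidHom.map_closure, ← hset]
      rfl
    rw [h2] at h1
    obtain ⟨A', hA', hAA⟩ := h1
    rw [← hinj hAA]
    exact hA'

end Bridge

end Cfsg.Agent.Helper5
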