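import Mathlib
import Cfsg.Agent.Helper5.OrthTvBridge
import Cfsg.Agent.Helper5.OrthFamily
import Cfsg.Agent.Helper5.OrthMinus
import Cfsg.Agent.S0287
import Cfsg.Agent.S0288

/-!
Generation of the plus-type (dimension at least 6) and minus-type orthogonal groups over the
field with two elements by orthogonal transvections.
-/

set_option autoImplicit false

namespace Cfsg.Agent.Helper5

/-- Generation by transvections for a function that is the value function of a quadratic form. -/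
def OGenF {κ : Type} (Qf : (κ → ZMod 2) → ZMod 2) : Prop :=
  ∀ 𝒬 : QuadraticForm (ZMod 2) (κ → ZMod 2), (∀ v, 𝒬 v = Qf v) → OGen 𝒬

/-- Splitting off two coordinates along a reindexing. -/
def prodEquiv {κ κ' : Type} (E : Fin 2 ⊕ κ ≃ κ') :
    ((Fin 2 → ZMod 2) × (κ → ZMod 2)) ≃ₗ[ZMod 2] (κ' → ZMod 2) where
  toFun p := fun k => Sum.elim p.1 p.2 (E.symm k)
  map_add' p q := by
    funext k
    change Sum.elim (p.1 + q.1) (p.2 + q.2) (E.symm k)
      = Sum.elim p.1 p.2 (E.symm k) + Sum.elim q.1 q.2 (E.symm k)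
    generalize E.symm k = s
    cases s <;> rfl
  map_smul' r p := by
    funext k
    change Sum.elim (r • p.1) (r • p.2) (E.symm k) = r • Sum.elim p.1 p.2 (E.symm k)
    generalize E.symm k = s
    cases s <;> rfl
  invFun v := (fun j => v (E (Sum.inl j)), fun i => v (E (Sum.inr i)))
  left_inv p := by
    refine Prod.ext ?_ ?_
    · funext j
      change Sum.elim p.1 p.2 (E.symm (E (Sum.inl j))) = p.1 j
      rw [E.symm_apply_apply]
      rfl
    · funext i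
      change Sum.elim p.1 p.2 (E.symm (E (Sum.inr i))) = p.2 i
      rw [E.symm_apply_apply]
      rfl
  right_inv v := by
    funext k
    change Sum.elim (fun j => v (E (Sum.inl j))) (fun i => v (E (Sum.inr i))) (E.symm k) = v k
    obtain ⟨s, rfl⟩ := E.surjective k
    rw [E.symm_apply_apply]
    cases s <;> rfl

theorem prodEquiv_inl {κ κ' : Type} (E : Fin 2 ⊕ κ ≃ κ')
    (p : (Fin 2 → ZMod 2) × (κ → ZMod 2)) (j : Fin 2) :
    prodEquiv E p (E (Sum.inl j)) = p.1 j := by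
  change Sum.elim p.1 p.2 (E.symm (E (Sum.inl j))) = p.1 j
  rw [E.symm_apply_apply]
  rfl

theorem prodEquiv_inr {κ κ' : Type} (E : Fin 2 ⊕ κ ≃ κ')
    (p : (Fin 2 → ZMod 2) × (κ → ZMod 2)) (i : κ) :
    prodEquiv E p (E (Sum.inr i)) = p.2 i := by
  change Sum.elim p.1 p.2 (E.symm (E (Sum.inr i))) = p.2 i
  rw [E.symm_apply_apply]
  rfl

/-- The hyperbolic step: adding a hyperbolic plane preserves generation by transvections, in
dimension at least 6 or when no two distinct non-zero singular vectors are orthogonal. -/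
theorem ogen_step_hyp {κ κ' : Type} [Fintype κ] [DecidableEq κ] [Fintype κ'] [DecidableEq κ']
    (E : Fin 2 ⊕ κ ≃ κ') (Qf : (κ → ZMod 2) → ZMod 2) (Qf' : (κ' → ZMod 2) → ZMod 2)
    (hrel : ∀ v, Qf' v = v (E (Sum.inl 0)) * v (E (Sum.inl 1))
      + Qf (fun i => v (E (Sum.inr i))))
    (hM : QModel Qf) (hM' : QModel Qf') (hgen : OGenF Qf)
    (hcase : 6 ≤ Fintype.card κ' ∨ ∀ b c : κ' → ZMod 2, Qf' b = 0 → Qf' c = 0 →
      Qf' (b + c) = 0 → b = 0 ∨ c = 0 ∨ b = c) :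
    OGenF Qf' := by
  intro 𝒬' h𝒬'
  obtain ⟨𝒬, h𝒬, -⟩ := hM
  obtain ⟨𝒬'', h'', hnd''⟩ := hM'
  have hnd : (QuadraticMap.polarBilin 𝒬').Nondegenerate := by
    have h : 𝒬' = 𝒬'' := QuadraticMap.ext (fun x => (h𝒬' x).trans (h'' x).symm)
    rw [h]
    exact hnd''
  have hW : OGen 𝒬 := hgen 𝒬 h𝒬
  obtain ⟨qP, hqPdef⟩ : ∃ qP : (Fin 2 → ZMod 2) → ZMod 2, ∀ c, qP c = c 0 * c 1 :=
    ⟨fun c => c 0 * c 1, fun _ => rfl⟩
  have hqP : ∀ c c' : Fin 2 → ZMod 2,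
      qP (c + c') = qP c + qP c' + (c 0 * c' 1 + c 1 * c' 0) := by
    intro c c'
    rw [hqPdef, hqPdef, hqPdef, Pi.add_apply, Pi.add_apply]
    ring
  have hφ : ∀ c w, 𝒬' (prodEquiv E (c, w)) = qP c + 𝒬 w := by
    intro c w
    rw [h𝒬', hrel, prodEquiv_inl, prodEquiv_inl, hqPdef, h𝒬]
    have h : (fun i => prodEquiv E (c, w) (E (Sum.inr i))) = w :=
      funext fun i => prodEquiv_inr E (c, w) i
    rw [h]
  have hpol := prod_polar 𝒬' 𝒬 qP hqP (prodEquiv E) hφ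
  have he : 𝒬' (prodEquiv E (Pi.single 0 1, 0)) = 0 := by
    rw [hφ, hqPdef]
    simp
  have hf : 𝒬' (prodEquiv E (Pi.single 1 1, 0)) = 0 := by
    rw [hφ, hqPdef]
    simp
  have hef : QuadraticMap.polar 𝒬' (prodEquiv E (Pi.single 0 1, 0))
      (prodEquiv E (Pi.single 1 1, 0)) = 1 := by
    rw [hpol]
    simp
  refine gen_step 𝒬' 0 _ _ he hf hef (conn_sing 𝒬' hnd) ?_
    (fun g hg hge hgf => fix_of_prod 𝒬' 𝒬 qP hqP (prodEquiv E) hφ hW g hg hge hgf)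
  rcases hcase with h6 | hNO
  · have hfin : 6 ≤ Module.finrank (ZMod 2) (κ' → ZMod 2) := by
      rw [Module.finrank_fintype_fun_eq_card]
      exact h6
    exact stage2_sing 𝒬' hnd hfin
  · intro a b c ha hb hc hab hac hbc hne
    exfalso
    have hb0 : b ≠ 0 := by
      rintro rfl
      rw [QuadraticMap.polar_zero_right] at hab
      exact zero_ne_one hab
    have hc0 : c ≠ 0 := by
      rintro rfl
      rw [QuadraticMap.polar_zero_right] at hac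
      exact zero_ne_one hac
    have hbc' : Qf' (b + c) = 0 := by
      rw [← h𝒬', q_add, hb, hc, hbc]
      rfl
    rcases hNO b c (by rw [← h𝒬']; exact hb) (by rw [← h𝒬']; exact hc) hbc' with h | h | h
    · exact hb0 h
    · exact hc0 h
    · exact hne h

theorem ogen_minus_zero : OGenF (Cfsg.quadFormMinus 0 (ZMod 2) 1 1) := by
  intro 𝒬 h𝒬
  have hval : ∀ v : (Fin 0 ⊕ Fin 0) ⊕ Fin 2 → ZMod 2,
      𝒬 v = v (Sum.inr 0) ^ 2 + 1 * v (Sum.inr 0) * v (Sum.inr 1) + 1 * v (Sum.inr 1) ^ 2 := by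
    intro v
    rw [h𝒬, minus_zero_eq]
    rfl
  have F2 : ∀ x : (Fin 0 ⊕ Fin 0) ⊕ Fin 2 → ZMod 2, x ≠ 0 → 𝒬 x = 1 := by
    intro x hx
    rw [hval]
    have hs : ∀ p q : ZMod 2, ¬ (p = 0 ∧ q = 0) → p ^ 2 + 1 * p * q + 1 * q ^ 2 = 1 := by
      decide
    apply hs
    rintro ⟨h0, h1⟩
    apply hx
    funext i
    rcases i with (i | i) | i
    · exact i.elim0
    · exact i.elim0
    · fin_cases i
      · exact h0
      · exact h1
  obtain ⟨a, ha⟩ : ∃ a : (Fin 0 ⊕ Fin 0) ⊕ Fin 2 → ZMod 2, a = Pi.single (Sum.inr 0) 1 :=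
    ⟨_, rfl⟩
  obtain ⟨b, hb⟩ : ∃ b : (Fin 0 ⊕ Fin 0) ⊕ Fin 2 → ZMod 2, b = Pi.single (Sum.inr 1) 1 :=
    ⟨_, rfl⟩
  have F1 : ∀ x : (Fin 0 ⊕ Fin 0) ⊕ Fin 2 → ZMod 2,
      x = x (Sum.inr 0) • a + x (Sum.inr 1) • b := by
    intro x
    funext i
    rcases i with (i | i) | i
    · exact i.elim0
    · exact i.elim0
    · fin_cases i <;> simp [ha, hb]
  have ha0 : a ≠ 0 := by
    intro h
    have h' := congrFun h (Sum.inr 0)
    simp [ha] at h'
  have hb0 : b ≠ 0 := by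
    intro h
    have h' := congrFun h (Sum.inr 1)
    simp [hb] at h'
  have hab0 : a + b ≠ 0 := by
    intro h
    have h' := congrFun h (Sum.inr 0)
    simp [ha, hb] at h'
  have hQa := F2 a ha0
  have hQb := F2 b hb0
  have hpab : QuadraticMap.polar 𝒬 a b = 1 := by
    rw [opolar_def, F2 _ hab0, hQa, hQb]
    rfl
  refine gen_step 𝒬 1 a b hQa hQb hpab ?_ (stage2_nonsing 𝒬) ?_
  · intro a' b' ha' hb' _ _ hp hne
    exfalso
    have h1 : 𝒬 (a' + b') = 0 := by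
      rw [q_add, ha', hb', hp]
      rfl
    have h2 : a' + b' = 0 := by
      by_contra h
      rw [F2 _ h] at h1
      exact one_ne_zero h1
    apply hne
    have h3 : a' + b' + b' = b' := by rw [h2, zero_add]
    rw [add_assoc, z2_add_self, add_zero] at h3
    exact h3
  · intro g _ hga hgb
    have h1 : g = 1 := by
      apply LinearEquiv.ext
      intro x
      change g x = x
      conv_lhs => rw [F1 x]
      rw [map_add, map_smul, map_smul, hga, hgb]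
      exact (F1 x).symm
    rw [h1]
    exact Subgroup.one_mem _

theorem minus_one_no (b c : (Fin 1 ⊕ Fin 1) ⊕ Fin 2 → ZMod 2)
    (hb : Cfsg.quadFormMinus 1 (ZMod 2) 1 1 b = 0)
    (hc : Cfsg.quadFormMinus 1 (ZMod 2) 1 1 c = 0)
    (hbc : Cfsg.quadFormMinus 1 (ZMod 2) 1 1 (b + c) = 0) : b = 0 ∨ c = 0 ∨ b = c := by
  have hval : ∀ v : (Fin 1 ⊕ Fin 1) ⊕ Fin 2 → ZMod 2, Cfsg.quadFormMinus 1 (ZMod 2) 1 1 v
      = v (Sum.inl (Sum.inl 0)) * v (Sum.inl (Sum.inr 0))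
        + (v (Sum.inr 0) ^ 2 + 1 * v (Sum.inr 0) * v (Sum.inr 1) + 1 * v (Sum.inr 1) ^ 2) := by
    intro v
    unfold Cfsg.quadFormMinus
    rw [Fin.sum_univ_one]
  rw [hval] at hb hc hbc
  simp only [Pi.add_apply] at hbc
  have key : ∀ x1 y1 z1 w1 x2 y2 z2 w2 : ZMod 2,
      x1 * y1 + (z1 ^ 2 + 1 * z1 * w1 + 1 * w1 ^ 2) = 0 →
      x2 * y2 + (z2 ^ 2 + 1 * z2 * w2 + 1 * w2 ^ 2) = 0 →
      (x1 + x2) * (y1 + y2)
        + ((z1 + z2) ^ 2 + 1 * (z1 + z2) * (w1 + w2) + 1 * (w1 + w2) ^ 2) = 0 →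
      (x1 = 0 ∧ y1 = 0 ∧ z1 = 0 ∧ w1 = 0) ∨ (x2 = 0 ∧ y2 = 0 ∧ z2 = 0 ∧ w2 = 0)
        ∨ (x1 = x2 ∧ y1 = y2 ∧ z1 = z2 ∧ w1 = w2) := by decide
  have hext : ∀ v v' : (Fin 1 ⊕ Fin 1) ⊕ Fin 2 → ZMod 2,
      v (Sum.inl (Sum.inl 0)) = v' (Sum.inl (Sum.inl 0)) →
      v (Sum.inl (Sum.inr 0)) = v' (Sum.inl (Sum.inr 0)) →
      v (Sum.inr 0) = v' (Sum.inr 0) → v (Sum.inr 1) = v' (Sum.inr 1) → v = v' := by
    intro v v' h1 h2 h3 h4
    funext i
    rcases i with (i | i) | i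
    · rw [Subsingleton.elim i 0]
      exact h1
    · rw [Subsingleton.elim i 0]
      exact h2
    · fin_cases i
      · exact h3
      · exact h4
  rcases key _ _ _ _ _ _ _ _ hb hc hbc with ⟨h1, h2, h3, h4⟩ | ⟨h1, h2, h3, h4⟩ |
    ⟨h1, h2, h3, h4⟩
  · left
    exact hext b 0 h1 h2 h3 h4
  · right
    left
    exact hext c 0 h1 h2 h3 h4
  · right
    right
    exact hext b c h1 h2 h3 h4

theorem minus_aniso2 :
    ∀ z₁ z₂ : ZMod 2, z₁ ^ 2 + 1 * z₁ * z₂ + 1 * z₂ ^ 2 = 0 → z₁ = 0 ∧ z₂ = 0 := by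
  decide

theorem ogen_minus (m : ℕ) : OGenF (Cfsg.quadFormMinus m (ZMod 2) 1 1) := by
  induction m with
  | zero => exact ogen_minus_zero
  | succ m ih =>
    refine ogen_step_hyp (orthEMinus m) _ _ (minus_decomp m (ZMod 2) 1 1)
      (Cfsg.Agent.S0288.minus_model (ZMod 2) 1 1 minus_aniso2 m)
      (Cfsg.Agent.S0288.minus_model (ZMod 2) 1 1 minus_aniso2 (m + 1)) ih ?_
    rcases Nat.eq_zero_or_pos m with rfl | hm
    · right
      exact minus_one_no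
    · left
      simp only [Fintype.card_sum, Fintype.card_fin]
      omega

/-- The linear map underlying the isometry from (anisotropic plane) ⊥ (minus-type 4-space)
to the plus-type 6-space. -/
def phi3Lin : ((Fin 2 → ZMod 2) × ((Fin 1 ⊕ Fin 1) ⊕ Fin 2 → ZMod 2))
    →ₗ[ZMod 2] (Fin 3 ⊕ Fin 3 → ZMod 2) where
  toFun p := Sum.elim
    ![p.2 (Sum.inl (Sum.inl 0)), p.1 0 + p.2 (Sum.inr 1),
      p.1 0 + p.1 1 + p.2 (Sum.inr 0) + p.2 (Sum.inr 1)]
    ![p.2 (Sum.inl (Sum.inr 0)), p.1 1 + p.2 (Sum.inr 1), p.1 0 + p.1 1 + p.2 (Sum.inr 0)]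
  map_add' p q := by
    funext i
    rcases i with i | i <;> fin_cases i <;> simp <;> ring
  map_smul' r p := by
    funext i
    rcases i with i | i <;> fin_cases i <;> simp <;> ring

theorem phi3Lin_apply (p : (Fin 2 → ZMod 2) × ((Fin 1 ⊕ Fin 1) ⊕ Fin 2 → ZMod 2)) :
    phi3Lin p = Sum.elim
      ![p.2 (Sum.inl (Sum.inl 0)), p.1 0 + p.2 (Sum.inr 1),
        p.1 0 + p.1 1 + p.2 (Sum.inr 0) + p.2 (Sum.inr 1)]
      ![p.2 (Sum.inl (Sum.inr 0)), p.1 1 + p.2 (Sum.inr 1),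
        p.1 0 + p.1 1 + p.2 (Sum.inr 0)] := rfl

theorem phi3_inj : Function.Injective phi3Lin := by
  rw [injective_iff_map_eq_zero]
  rintro ⟨c, w⟩ h
  rw [phi3Lin_apply] at h
  have h1 : w (Sum.inl (Sum.inl 0)) = 0 := congrFun h (Sum.inl 0)
  have h2 : c 0 + w (Sum.inr 1) = 0 := congrFun h (Sum.inl 1)
  have h3 : c 0 + c 1 + w (Sum.inr 0) + w (Sum.inr 1) = 0 := congrFun h (Sum.inl 2)
  have h4 : w (Sum.inl (Sum.inr 0)) = 0 := congrFun h (Sum.inr 0)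
  have h5 : c 1 + w (Sum.inr 1) = 0 := congrFun h (Sum.inr 1)
  have h6 : c 0 + c 1 + w (Sum.inr 0) = 0 := congrFun h (Sum.inr 2)
  have key : ∀ a b c' d : ZMod 2, a + d = 0 → a + b + c' + d = 0 → b + d = 0 →
      a + b + c' = 0 → a = 0 ∧ b = 0 ∧ c' = 0 ∧ d = 0 := by decide
  obtain ⟨k1, k2, k3, k4⟩ := key _ _ _ _ h2 h3 h5 h6
  refine Prod.ext ?_ ?_
  · funext i
    fin_cases i
    · exact k1
    · exact k2
  · funext i
    rcases i with (i | i) | i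
    · rw [Subsingleton.elim i 0]
      exact h1
    · rw [Subsingleton.elim i 0]
      exact h4
    · fin_cases i
      · exact k3
      · exact k4

theorem phi3_bij : Function.Bijective phi3Lin := by
  apply (Fintype.bijective_iff_injective_and_card _).2
  refine ⟨phi3_inj, ?_⟩
  simp only [Fintype.card_prod, Fintype.card_pi, ZMod.card, Finset.prod_const, Finset.card_univ,
    Fintype.card_sum, Fintype.card_fin]
  norm_num

/-- The isometry from (anisotropic plane) ⊥ (minus-type 4-space) to the plus-type 6-space. -/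
noncomputable def phi3 : ((Fin 2 → ZMod 2) × ((Fin 1 ⊕ Fin 1) ⊕ Fin 2 → ZMod 2))
    ≃ₗ[ZMod 2] (Fin 3 ⊕ Fin 3 → ZMod 2) :=
  LinearEquiv.ofBijective phi3Lin phi3_bij

theorem phi3_form (c : Fin 2 → ZMod 2) (w : (Fin 1 ⊕ Fin 1) ⊕ Fin 2 → ZMod 2) :
    Cfsg.quadFormPlus 3 (ZMod 2) (phi3 (c, w))
      = (c 0 * c 0 + c 0 * c 1 + c 1 * c 1) + Cfsg.quadFormMinus 1 (ZMod 2) 1 1 w := by
  have h : phi3 (c, w) = phi3Lin (c, w) := rfl
  rw [h, phi3Lin_apply]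
  unfold Cfsg.quadFormPlus Cfsg.quadFormMinus
  rw [Fin.sum_univ_three, Fin.sum_univ_one]
  have key : ∀ a b c' d x y : ZMod 2,
      x * y + (a + d) * (b + d) + (a + b + c' + d) * (a + b + c')
        = (a * a + a * b + b * b) + (x * y + (c' ^ 2 + 1 * c' * d + 1 * d ^ 2)) := by decide
  exact key _ _ _ _ _ _

theorem ogen_plus_three : OGenF (Cfsg.quadFormPlus 3 (ZMod 2)) := by
  intro 𝒬' h𝒬'
  obtain ⟨𝒬, h𝒬, -⟩ := Cfsg.Agent.S0288.minus_model (ZMod 2) 1 1 minus_aniso2 1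
  obtain ⟨𝒬'', h'', hnd''⟩ := Cfsg.Agent.S0287.plus_model (ZMod 2) 3
  have hnd : (QuadraticMap.polarBilin 𝒬').Nondegenerate := by
    have h : 𝒬' = 𝒬'' := QuadraticMap.ext (fun x => (h𝒬' x).trans (h'' x).symm)
    rw [h]
    exact hnd''
  have hW : OGen 𝒬 := ogen_minus 1 𝒬 h𝒬
  obtain ⟨qP, hqPdef⟩ : ∃ qP : (Fin 2 → ZMod 2) → ZMod 2,
      ∀ c, qP c = c 0 * c 0 + c 0 * c 1 + c 1 * c 1 :=
    ⟨fun c => c 0 * c 0 + c 0 * c 1 + c 1 * c 1, fun _ => rfl⟩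
  have hqP : ∀ c c' : Fin 2 → ZMod 2,
      qP (c + c') = qP c + qP c' + (c 0 * c' 1 + c 1 * c' 0) := by
    intro c c'
    rw [hqPdef, hqPdef, hqPdef, Pi.add_apply, Pi.add_apply]
    have h : ∀ a b a' b' : ZMod 2,
        (a + a') * (a + a') + (a + a') * (b + b') + (b + b') * (b + b')
          = a * a + a * b + b * b + (a' * a' + a' * b' + b' * b') + (a * b' + b * a') := by
      decide
    exact h _ _ _ _
  have hφ : ∀ c w, 𝒬' (phi3 (c, w)) = qP c + 𝒬 w := by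
    intro c w
    rw [h𝒬', hqPdef, h𝒬]
    exact phi3_form c w
  have hpol := prod_polar 𝒬' 𝒬 qP hqP phi3 hφ
  have he : 𝒬' (phi3 (Pi.single 0 1, 0)) = 1 := by
    rw [hφ, hqPdef]
    simp
  have hf : 𝒬' (phi3 (Pi.single 1 1, 0)) = 1 := by
    rw [hφ, hqPdef]
    simp
  have hef : QuadraticMap.polar 𝒬' (phi3 (Pi.single 0 1, 0)) (phi3 (Pi.single 1 1, 0)) = 1 := by
    rw [hpol]
    simp
  have hfin : 6 ≤ Module.finrank (ZMod 2) (Fin 3 ⊕ Fin 3 → ZMod 2) := by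
    rw [Module.finrank_fintype_fun_eq_card]
    simp
  exact gen_step 𝒬' 1 _ _ he hf hef (conn_nonsing 𝒬' hnd hfin) (stage2_nonsing 𝒬')
    (fun g hg hge hgf => fix_of_prod 𝒬' 𝒬 qP hqP phi3 hφ hW g hg hge hgf)

theorem ogen_plus (m : ℕ) (hm : 3 ≤ m) : OGenF (Cfsg.quadFormPlus m (ZMod 2)) := by
  induction m, hm using Nat.le_induction with
  | base => exact ogen_plus_three
  | succ m hm ih =>
    refine ogen_step_hyp (orthEPlus m) _ _ (plus_decomp m (ZMod 2))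
      (Cfsg.Agent.S0287.plus_model (ZMod 2) m) (Cfsg.Agent.S0287.plus_model (ZMod 2) (m + 1)) ih
      (Or.inl ?_)
    simp only [Fintype.card_sum, Fintype.card_fin]
    omega

/-- Plus type, dimension at least 6: the rank-one isometries form a class of
3-transpositions. -/
theorem plus_three_transp (m : ℕ) (hm : 3 ≤ m) :
    Cfsg.IsThreeTranspositionClass
      {g : ↥(Cfsg.isometryGroup (ZMod 2) (Cfsg.quadFormPlus m (ZMod 2))) |
        (((g : Matrix.GeneralLinearGroup (Fin m ⊕ Fin m) (ZMod 2)) :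
          Matrix (Fin m ⊕ Fin m) (Fin m ⊕ Fin m) (ZMod 2)) - 1).rank = 1} := by
  obtain ⟨𝒬, h𝒬, hnd⟩ := Cfsg.Agent.S0287.plus_model (ZMod 2) m
  have hfun : Cfsg.quadFormPlus m (ZMod 2) = ⇑𝒬 := funext fun v => (h𝒬 v).symm
  rw [hfun]
  refine orth_three_transp 𝒬 hnd ?_ (ogen_plus m hm 𝒬 h𝒬)
  simp only [Fintype.card_sum, Fintype.card_fin]
  omega

/-- Minus type, dimension at least 6: the rank-one isometries form a class of
3-transpositions. -/
theorem minus_three_transp (m : ℕ) (hm : 2 ≤ m) :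
    Cfsg.IsThreeTranspositionClass
      {g : ↥(Cfsg.isometryGroup (ZMod 2) (Cfsg.quadFormMinus m (ZMod 2) 1 1)) |
        (((g : Matrix.GeneralLinearGroup ((Fin m ⊕ Fin m) ⊕ Fin 2) (ZMod 2)) :
          Matrix ((Fin m ⊕ Fin m) ⊕ Fin 2) ((Fin m ⊕ Fin m) ⊕ Fin 2) (ZMod 2)) - 1).rank
            = 1} := by
  obtain ⟨𝒬, h𝒬, hnd⟩ := Cfsg.Agent.S0288.minus_model (ZMod 2) 1 1 minus_aniso2 m
  have hfun : Cfsg.quadFormMinus m (ZMod 2) 1 1 = ⇑𝒬 := funext fun v => (h𝒬 v).symm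
  rw [hfun]
  refine orth_three_transp 𝒬 hnd ?_ (ogen_minus m 𝒬 h𝒬)
  simp only [Fintype.card_sum, Fintype.card_fin]
  omega

end Cfsg.Agent.Helper5
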