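import Mathlib
import Cfsg.Prelude.Def_Perm
import Cfsg.Agent.Helper28.Perm

set_option autoImplicit false
set_option linter.unusedSectionVars false
set_option linter.style.haveILetI false

namespace Cfsg.Agent.Helper5

section PermMod

variable {G : Type*} [Group G] {K : Type*} [Field K] {Ω : Type*} [Fintype Ω] [MulAction G Ω]

theorem permRep_apply (g : G) (f : Ω → K) (x : Ω) :
    Cfsg.permRep K G Ω g f x = f (g⁻¹ • x) := rfl

/-- In characteristic `p`, for a transitive action of degree `p ^ f`, every non-zero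
subrepresentation of the permutation module contains the constant function `1`. -/
theorem const_mem_of_ne_bot [Finite G] {p f : ℕ} [Fact p.Prime] [CharP K p]
    [MulAction.IsPretransitive G Ω] (hcard : Fintype.card Ω = p ^ f)
    (W : Subrepresentation (Cfsg.permRep K G Ω)) (hW : W.toSubmodule ≠ ⊥) :
    (fun _ : Ω => (1 : K)) ∈ W.toSubmodule := by
  classical
  obtain ⟨w, hw, hw0⟩ := (Submodule.ne_bot_iff _).mp hW
  letI : Algebra (ZMod p) K := ZMod.algebra K p
  let A : Submodule (ZMod p) K := Submodule.span (ZMod p) (Set.range w)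
  have hAfin : Finite A := by
    haveI : Module.Finite (ZMod p) A := Module.Finite.span_of_finite _ (Set.finite_range w)
    exact Module.finite_of_finite (ZMod p)
  let T : AddSubgroup (Ω → K) :=
    { carrier := {f | f ∈ W.toSubmodule ∧ ∀ x, f x ∈ A}
      add_mem' := fun ha hb =>
        ⟨W.toSubmodule.add_mem ha.1 hb.1, fun x => A.add_mem (ha.2 x) (hb.2 x)⟩
      zero_mem' := ⟨W.toSubmodule.zero_mem, fun x => A.zero_mem⟩
      neg_mem' := fun ha => ⟨W.toSubmodule.neg_mem ha.1, fun x => A.neg_mem (ha.2 x)⟩ }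
  have hTfin : Finite T := by
    apply Finite.of_injective (fun t : T => fun x => (⟨t.1 x, t.2.2 x⟩ : A))
    intro t t' h
    apply Subtype.ext
    funext x
    exact congrArg Subtype.val (congrFun h x)
  letI : MulAction G T :=
    { smul := fun g t =>
        ⟨Cfsg.permRep K G Ω g t.1, W.apply_mem_toSubmodule g t.2.1, fun x => t.2.2 _⟩
      one_smul := fun t => Subtype.ext (by
        show Cfsg.permRep K G Ω 1 t.1 = t.1
        rw [map_one]; rfl)
      mul_smul := fun g h t => Subtype.ext (by
        show Cfsg.permRep K G Ω (g * h) t.1 = Cfsg.permRep K G Ω g (Cfsg.permRep K G Ω h t.1)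
        rw [map_mul]; rfl) }
  have hsm : ∀ (g : G) (t : T), ((g • t : T) : Ω → K) = Cfsg.permRep K G Ω g t.1 := fun _ _ => rfl
  obtain ⟨P⟩ : Nonempty (Sylow p G) := inferInstance
  have hP : IsPGroup p (P : Subgroup G) := P.isPGroup'
  have hmod := hP.card_modEq_card_fixedPoints T
  have hwT : w ∈ T := ⟨hw, fun x => Submodule.subset_span ⟨x, rfl⟩⟩
  have hpT : p ∣ Nat.card T := by
    have h1 : addOrderOf (⟨w, hwT⟩ : T) = p := by
      apply addOrderOf_eq_prime
      · apply Subtype.ext
        funext x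
        show (p • w) x = 0
        simp
      · intro h
        exact hw0 (congrArg Subtype.val h)
    rw [← h1]
    exact addOrderOf_dvd_natCard _
  have hpF : p ∣ Nat.card (MulAction.fixedPoints (P : Subgroup G) T) :=
    (Nat.modEq_zero_iff_dvd.mp (hmod.symm.trans (Nat.modEq_zero_iff_dvd.mpr hpT)))
  have h0fix : (0 : T) ∈ MulAction.fixedPoints (P : Subgroup G) T := by
    intro g
    apply Subtype.ext
    show Cfsg.permRep K G Ω (g : G) (0 : Ω → K) = 0
    rw [map_zero]
  have hFnt : Nontrivial (MulAction.fixedPoints (P : Subgroup G) T) := by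
    rw [← Finite.one_lt_card_iff_nontrivial]
    haveI : Nonempty (MulAction.fixedPoints (P : Subgroup G) T) := ⟨⟨0, h0fix⟩⟩
    have hpos : 0 < Nat.card (MulAction.fixedPoints (P : Subgroup G) T) := Nat.card_pos
    have h1 := Nat.le_of_dvd hpos hpF
    have h2 := (Fact.out : p.Prime).two_le
    omega
  obtain ⟨⟨t, ht⟩, hne⟩ := exists_ne (⟨0, h0fix⟩ : MulAction.fixedPoints (P : Subgroup G) T)
  have ht0 : (t : Ω → K) ≠ 0 := by
    intro h
    apply hne
    apply Subtype.ext
    exact Subtype.ext h
  have htfix : ∀ g : (P : Subgroup G), ∀ x : Ω, (t : Ω → K) ((g : G)⁻¹ • x) = (t : Ω → K) x := by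
    intro g x
    have h1 := congrArg (fun s : T => (s : Ω → K) x) (ht g)
    exact h1
  have hΩ : Nat.card Ω = p ^ f := by rw [Nat.card_eq_fintype_card, hcard]
  have hconst : ∀ x y : Ω, (t : Ω → K) x = (t : Ω → K) y := by
    intro x y
    obtain ⟨g, hg⟩ := Cfsg.Agent.Helper28.sylow_transitive_of_card_pow P hΩ x y
    have h1 := htfix g y
    have h2 : (g : G)⁻¹ • y = x := by
      rw [← hg]
      exact inv_smul_smul (g : G) x
    rw [h2] at h1
    exact h1
  have hne0 : ∃ x₀, (t : Ω → K) x₀ ≠ 0 := by
    by_contra hcon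
    push Not at hcon
    exact ht0 (funext hcon)
  obtain ⟨x₀, hx₀⟩ := hne0
  have e1 : (fun _ : Ω => (1 : K)) = ((t : Ω → K) x₀)⁻¹ • (t : Ω → K) := by
    funext x
    simp only [Pi.smul_apply, smul_eq_mul]
    rw [hconst x x₀, inv_mul_cancel₀ hx₀]
  rw [e1]
  exact W.toSubmodule.smul_mem _ t.2.1

/-- the orthogonal complement of a subrepresentation for the standard bilinear form -/
def perp (W : Subrepresentation (Cfsg.permRep K G Ω)) :
    Subrepresentation (Cfsg.permRep K G Ω) where
  toSubmodule :=
    { carrier := {v | ∀ w ∈ W.toSubmodule, ∑ x, v x * w x = 0}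
      add_mem' := by
        intro a b ha hb w hw
        simp only [Pi.add_apply, add_mul, Finset.sum_add_distrib]
        rw [ha w hw, hb w hw, add_zero]
      zero_mem' := by
        intro w hw
        simp
      smul_mem' := by
        intro c a ha w hw
        simp only [Pi.smul_apply, smul_eq_mul, mul_assoc, ← Finset.mul_sum]
        rw [ha w hw, mul_zero] }
  apply_mem_toSubmodule g v hv := by
    intro w hw
    have h1 := hv _ (W.apply_mem_toSubmodule g⁻¹ hw)
    rw [← h1]
    show ∑ x, v (g⁻¹ • x) * w x = ∑ x, v x * w ((g⁻¹)⁻¹ • x)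
    rw [inv_inv]
    exact Fintype.sum_equiv (MulAction.toPerm g⁻¹) _ _ (fun x => by simp)

theorem mem_perp {W : Subrepresentation (Cfsg.permRep K G Ω)} {v : Ω → K} :
    v ∈ (perp W).toSubmodule ↔ ∀ w ∈ W.toSubmodule, ∑ x, v x * w x = 0 := Iff.rfl

/-- In characteristic `p`, for a transitive action of degree `p ^ f`, every proper
subrepresentation of the permutation module consists of sum-zero functions. -/
theorem le_sumZero_of_ne_top [Finite G] {p f : ℕ} [Fact p.Prime] [CharP K p]
    [MulAction.IsPretransitive G Ω] (hcard : Fintype.card Ω = p ^ f)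
    (W : Subrepresentation (Cfsg.permRep K G Ω)) (hW : W.toSubmodule ≠ ⊤) :
    W.toSubmodule ≤ (Cfsg.permSumZero K G Ω).toSubmodule := by
  classical
  have hperp : (perp W).toSubmodule ≠ ⊥ := by
    obtain ⟨φ, hφ0, hφ⟩ := Submodule.exists_le_ker_of_lt_top W.toSubmodule (lt_top_iff_ne_top.mpr hW)
    intro hbot
    apply hφ0
    have hv : (fun x => φ (fun j => if x = j then 1 else 0)) ∈ (perp W).toSubmodule := by
      intro w hw
      have h1 := LinearMap.pi_apply_eq_sum_univ φ w
      have hw0 : φ w = 0 := hφ hw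
      have h2 : ∑ x, (fun x => φ (fun j => if x = j then 1 else 0)) x * w x
          = ∑ i, w i • φ (fun j => if i = j then 1 else 0) :=
        Finset.sum_congr rfl (fun x _ => by rw [smul_eq_mul, mul_comm])
      exact h2.trans (h1.symm.trans hw0)
    rw [hbot, Submodule.mem_bot] at hv
    apply LinearMap.ext
    intro w
    rw [LinearMap.pi_apply_eq_sum_univ φ w]
    simp only [LinearMap.zero_apply]
    apply Finset.sum_eq_zero
    intro x _
    have := congrFun hv x
    simp only [Pi.zero_apply] at this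
    rw [this, smul_zero]
  have h1 := const_mem_of_ne_bot hcard (perp W) hperp
  intro w hw
  have h2 := h1 w hw
  show ∑ x, w x = 0
  simpa using h2

/-- the image of an equivariant endomorphism, as a subrepresentation -/
def rangeSub (ψ : (Ω → K) →ₗ[K] (Ω → K))
    (hψ : ∀ (g : G) (f : Ω → K), ψ (Cfsg.permRep K G Ω g f) = Cfsg.permRep K G Ω g (ψ f)) :
    Subrepresentation (Cfsg.permRep K G Ω) where
  toSubmodule := LinearMap.range ψ
  apply_mem_toSubmodule g v hv := by
    obtain ⟨f, rfl⟩ := hv
    exact ⟨Cfsg.permRep K G Ω g f, hψ g f⟩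

/-- the kernel of an equivariant endomorphism, as a subrepresentation -/
def kerSub (ψ : (Ω → K) →ₗ[K] (Ω → K))
    (hψ : ∀ (g : G) (f : Ω → K), ψ (Cfsg.permRep K G Ω g f) = Cfsg.permRep K G Ω g (ψ f)) :
    Subrepresentation (Cfsg.permRep K G Ω) where
  toSubmodule := LinearMap.ker ψ
  apply_mem_toSubmodule g v hv := by
    rw [LinearMap.mem_ker] at hv ⊢
    rw [hψ, hv, map_zero]

/-- the image of a subrepresentation under an equivariant endomorphism -/
def mapSub (ψ : (Ω → K) →ₗ[K] (Ω → K))
    (hψ : ∀ (g : G) (f : Ω → K), ψ (Cfsg.permRep K G Ω g f) = Cfsg.permRep K G Ω g (ψ f))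
    (W : Subrepresentation (Cfsg.permRep K G Ω)) :
    Subrepresentation (Cfsg.permRep K G Ω) where
  toSubmodule := W.toSubmodule.map ψ
  apply_mem_toSubmodule g v hv := by
    obtain ⟨f, hf, rfl⟩ := hv
    exact ⟨Cfsg.permRep K G Ω g f, W.apply_mem_toSubmodule g hf, hψ g f⟩

end PermMod

end Cfsg.Agent.Helper5
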