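import Mathlib
import Cfsg.Agent.Helper5.EvenCenter
import Cfsg.Agent.Helper5.OmegaSimple
import Cfsg.Agent.Helper5.SO33
import Cfsg.Prelude.Def_LieTypeDatum
import Cfsg.Prelude.Def_KGroupFacts

/-!
The image of the special orthogonal group in the automorphism group of `PΩ(Q)` (even dimension,
odd characteristic): it contains the inner automorphism group with index one or two according
as `-1` does not or does lie in `Ω`.
-/

set_option autoImplicit false

namespace Cfsg.Agent.Helper5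

theorem pow_mod4 (q m : ℕ) (hq : q % 2 = 1) :
    (m % 2 = 1 ∧ q % 4 = 3 → q ^ m % 4 = 3) ∧ (¬ (m % 2 = 1 ∧ q % 4 = 3) → q ^ m % 4 = 1) := by
  have h9 : ∀ k : ℕ, 9 ^ k % 4 = 1 := by
    intro k
    induction k with
    | zero => rfl
    | succ k ih =>
      rw [pow_succ, Nat.mul_mod, ih] <;> norm_num
  have e : q ^ m % 4 = (q % 4) ^ m % 4 := Nat.pow_mod q m 4
  constructor
  · rintro ⟨hm, hq3⟩
    obtain ⟨k, hk⟩ : ∃ k, m = 2 * k + 1 := ⟨m / 2, by omega⟩
    have e2 : 3 ^ (2 * k + 1) = 9 ^ k * 3 := by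
      rw [pow_succ, pow_mul] <;> norm_num
    rw [e, hq3, hk, e2, Nat.mul_mod, h9] <;> norm_num
  · intro hn
    have hq4 : q % 4 = 1 ∨ q % 4 = 3 := by omega
    rcases hq4 with h1 | h3
    · rw [e, h1, one_pow] <;> norm_num
    · have hm : m % 2 = 0 := by
        by_contra hne
        exact hn ⟨by omega, h3⟩
      obtain ⟨k, hk⟩ : ∃ k, m = 2 * k := ⟨m / 2, by omega⟩
      have e2 : 3 ^ (2 * k) = 9 ^ k := by
        rw [pow_mul] <;> norm_num
      rw [e, h3, hk, e2, h9]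

section PsoIndex

variable {F : Type*} [Field F] {κ : Type} [Fintype κ] [DecidableEq κ]

/-- An isometry commuting with every element of `Ω` is a scalar `±1` (two orthogonal hyperbolic
pairs among the coordinate vectors). -/
theorem centralizer_scalar [Fintype F] (Q : QuadraticForm F (κ → F))
    (hQ : (QuadraticMap.polarBilin Q).Nondegenerate)
    (h : Fintype.card F ≠ 2 ∨ Fintype.card κ ≠ 4) {ι : Type} (pe pf : ι → κ)
    (hH : ∀ i j, i ≠ j → HypPairs Q (Pi.single (pe i) 1) (Pi.single (pf i) 1)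
      (Pi.single (pe j) 1) (Pi.single (pf j) 1))
    (i₀ i₁ : ι) (hi : i₀ ≠ i₁)
    (hcov : ∀ k : κ, (∃ i, k = pe i ∨ k = pf i) ∨
      (QuadraticMap.polar (⇑Q) (Pi.single k 1) (Pi.single (pe i₀) 1) = 0 ∧
        QuadraticMap.polar (⇑Q) (Pi.single k 1) (Pi.single (pf i₀) 1) = 0 ∧
        QuadraticMap.polar (⇑Q) (Pi.single k 1) (Pi.single (pe i₁) 1) = 0 ∧
        QuadraticMap.polar (⇑Q) (Pi.single k 1) (Pi.single (pf i₁) 1) = 0))
    (z : ↥(Cfsg.isometryGroup F ⇑Q))
    (hz : ∀ g ∈ commutator ↥(Cfsg.isometryGroup F ⇑Q), g * z = z * g) :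
    ∃ a : F, a * a = 1 ∧
      ((z : Matrix.GeneralLinearGroup κ F) : Matrix κ κ F) = a • (1 : Matrix κ κ F) := by
  classical
  obtain ⟨A, hA⟩ : ∃ A : (κ → F) ≃ₗ[F] (κ → F), A = isoActF ⇑Q z := ⟨_, rfl⟩
  have hpol : ∀ x y, QuadraticMap.polar (⇑Q) (A x) (A y) = QuadraticMap.polar (⇑Q) x y := by
    intro x y
    rw [hA]
    exact isoActF_polar Q z x y
  have hplane : PlaneProp Q A := by
    intro u v y hu hv huv hy1 hy2
    obtain ⟨g, hg⟩ := siegelEl_existsK Q u v hu hv huv 1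
    have hgc : g ∈ commutator ↥(Cfsg.isometryGroup F ⇑Q) :=
      siegel_mem_omega Q hQ h u v hu hv huv 1 g hg
    have hcomm' : g * z = z * g := hz g hgc
    rw [hA]
    exact central_plane Q z g u v y hg hcomm'.symm hy1 hy2
  obtain ⟨a, ha1, ha2, ha3, ha4⟩ := hyp_scalar (hH i₀ i₁ hi) hplane
  have haa : a * a = 1 := by
    have h5 := hpol (Pi.single (pe i₀) 1) (Pi.single (pf i₀) 1)
    rw [ha1, ha2, QuadraticMap.polar_smul_left, QuadraticMap.polar_smul_right,
      (hH i₀ i₁ hi).p11, smul_eq_mul, smul_eq_mul, mul_one] at h5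
    exact h5
  have ha0 : a ≠ 0 := by
    rintro rfl
    rw [mul_zero] at haa
    exact zero_ne_one haa
  have hE : ∀ i : ι, A (Pi.single (pe i) 1) = a • (Pi.single (pe i) 1 : κ → F)
      ∧ A (Pi.single (pf i) 1) = a • (Pi.single (pf i) 1 : κ → F) := by
    intro i
    by_cases hi0 : i₀ = i
    · subst hi0
      exact ⟨ha1, ha2⟩
    · obtain ⟨a', h1, -, h3, h4⟩ := hyp_scalar (hH i₀ i hi0) hplane
      have haa' : a' = a := by
        have h5 : a' • (Pi.single (pe i₀) 1 : κ → F) = a • (Pi.single (pe i₀) 1 : κ → F) := by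
          rw [← h1, ← ha1]
        have h6 := congrArg (fun x => QuadraticMap.polar (⇑Q) x (Pi.single (pf i₀) 1)) h5
        simp only [QuadraticMap.polar_smul_left, (hH i₀ i₁ hi).p11, smul_eq_mul, mul_one] at h6
        exact h6
      rw [haa'] at h3 h4
      exact ⟨h3, h4⟩
  have hsingle : ∀ k : κ, A (Pi.single k 1) = a • (Pi.single k 1 : κ → F) := by
    intro k
    rcases hcov k with ⟨i, rfl | rfl⟩ | ⟨h1, h3, h4, h5⟩
    · exact (hE i).1
    · exact (hE i).2
    · exact eig_d' (hH i₀ i₁ hi) hplane hpol _ h1 h3 h4 h5 a ha0 ha1 ha2 ha4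
  have hlin : (A : (κ → F) →ₗ[F] (κ → F)) = a • LinearMap.id := by
    apply (Pi.basisFun F κ).ext
    intro k
    rw [Pi.basisFun_apply, LinearMap.smul_apply, LinearMap.id_apply, LinearEquiv.coe_coe]
    exact hsingle k
  have hall : ∀ x, A x = a • x := by
    intro x
    have h5 := congrArg (fun f : (κ → F) →ₗ[F] (κ → F) => f x) hlin
    simpa using h5
  refine ⟨a, haa, ?_⟩
  apply mat_ext
  intro x
  rw [← isoActF_apply, ← hA, hall, Matrix.smul_mulVec, Matrix.one_mulVec]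

theorem map_refl_eq (M : Matrix κ κ F) : M.map (RingEquiv.refl F) = M := by
  ext i j
  rfl

/-- `β` is the automorphism of `PΩ` induced by conjugation with the isometry `g`. -/
def IndO (Qf : (κ → F) → F) (g : ↥(Cfsg.isometryGroup F Qf))
    (β : MulAut (Cfsg.POmega F Qf)) : Prop :=
  ∀ s : ↥(commutator ↥(Cfsg.isometryGroup F Qf)),
    β (QuotientGroup.mk s) = QuotientGroup.mk (MulAut.conjNormal g s)

theorem indO_of_induced (Qf : (κ → F) → F) (g : ↥(Cfsg.isometryGroup F Qf))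
    (β : MulAut (Cfsg.POmega F Qf))
    (h : Cfsg.IsInducedBySemilinearPOmega Qf (g : Matrix.GeneralLinearGroup κ F)
      (RingEquiv.refl F) β) : IndO Qf g β := by
  intro s
  apply h s (MulAut.conjNormal g s)
  rw [MulAut.conjNormal_apply, map_refl_eq] <;> rfl

theorem induced_of_indO (Qf : (κ → F) → F) (g : ↥(Cfsg.isometryGroup F Qf))
    (β : MulAut (Cfsg.POmega F Qf)) (h : IndO Qf g β) :
    Cfsg.IsInducedBySemilinearPOmega Qf (g : Matrix.GeneralLinearGroup κ F)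
      (RingEquiv.refl F) β := by
  intro s s' hm
  rw [map_refl_eq] at hm
  have e : s' = MulAut.conjNormal g s := by
    apply Subtype.ext
    apply Subtype.ext
    apply Units.ext
    rw [hm, MulAut.conjNormal_apply] <;> rfl
  rw [h s, e]

theorem indO_exists (Qf : (κ → F) → F) (g : ↥(Cfsg.isometryGroup F Qf)) :
    ∃ β : MulAut (Cfsg.POmega F Qf), IndO Qf g β := by
  have he : (Subgroup.center ↥(commutator ↥(Cfsg.isometryGroup F Qf))).map
      (MulAut.conjNormal g : ↥(commutator ↥(Cfsg.isometryGroup F Qf)) ≃*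
        ↥(commutator ↥(Cfsg.isometryGroup F Qf))).toMonoidHom
      = Subgroup.center ↥(commutator ↥(Cfsg.isometryGroup F Qf)) :=
    Subgroup.characteristic_iff_map_eq.1 inferInstance _
  exact ⟨QuotientGroup.congr _ _ (MulAut.conjNormal g) he, fun s => rfl⟩

theorem indO_one (Qf : (κ → F) → F) : IndO Qf 1 1 := by
  intro s
  rw [map_one, MulAut.one_apply, MulAut.one_apply]

theorem indO_mul (Qf : (κ → F) → F) (g₁ g₂ : ↥(Cfsg.isometryGroup F Qf))
    (β₁ β₂ : MulAut (Cfsg.POmega F Qf)) (h₁ : IndO Qf g₁ β₁) (h₂ : IndO Qf g₂ β₂) :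
    IndO Qf (g₁ * g₂) (β₁ * β₂) := by
  intro s
  rw [MulAut.mul_apply, h₂ s, h₁, map_mul, MulAut.mul_apply]

theorem indO_inv (Qf : (κ → F) → F) (g : ↥(Cfsg.isometryGroup F Qf))
    (β : MulAut (Cfsg.POmega F Qf)) (h : IndO Qf g β) : IndO Qf g⁻¹ β⁻¹ := by
  intro s
  apply MulEquiv.injective β
  rw [MulAut.apply_inv_self, h, map_inv, MulAut.apply_inv_self]

theorem indO_central (Qf : (κ → F) → F) (z g : ↥(Cfsg.isometryGroup F Qf))
    (hz : ∀ x, z * x = x * z) (β : MulAut (Cfsg.POmega F Qf)) (h : IndO Qf g β) :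
    IndO Qf (z * g) β := by
  intro s
  have e : MulAut.conjNormal (z * g) s = MulAut.conjNormal g s := by
    apply Subtype.ext
    rw [MulAut.conjNormal_apply, MulAut.conjNormal_apply]
    have e1 : z * g * ↑s * (z * g)⁻¹ = z * (g * ↑s * g⁻¹) * z⁻¹ := by group
    rw [e1, hz, mul_inv_cancel_right]
  rw [h s, e]

theorem indO_inn (Qf : (κ → F) → F) (ω : ↥(commutator ↥(Cfsg.isometryGroup F Qf)))
    (β : MulAut (Cfsg.POmega F Qf)) (h : IndO Qf (ω : ↥(Cfsg.isometryGroup F Qf)) β) :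
    β ∈ Cfsg.Inn (Cfsg.POmega F Qf) := by
  refine ⟨QuotientGroup.mk ω, ?_⟩
  apply MulEquiv.ext
  intro x
  obtain ⟨s, rfl⟩ := QuotientGroup.mk_surjective x
  have e : MulAut.conjNormal (ω : ↥(Cfsg.isometryGroup F Qf)) s = ω * s * ω⁻¹ :=
    Subtype.ext ((MulAut.conjNormal_apply (ω : ↥(Cfsg.isometryGroup F Qf)) s).trans rfl)
  rw [h s, MulAut.conj_apply, e] <;> rfl

theorem psoAut_mem (Qf : (κ → F) → F) (b : MulAut (Cfsg.POmega F Qf))
    (hb : b ∈ Cfsg.psoAut F Qf) :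
    ∃ g : ↥(Cfsg.isometryGroup F Qf), g ∈ Cfsg.specialIsometryGroup F Qf ∧ IndO Qf g b := by
  unfold Cfsg.psoAut Cfsg.autSubgroupOf at hb
  refine Subgroup.closure_induction (p := fun b _ => ∃ g : ↥(Cfsg.isometryGroup F Qf),
    g ∈ Cfsg.specialIsometryGroup F Qf ∧ IndO Qf g b) ?_ ?_ ?_ ?_ hb
  · rintro β ⟨g, hg, hind⟩
    have hg' : g ∈ Cfsg.isometryGroup F Qf ⊓ Cfsg.Geo.specialLinear κ F := hg
    have hg1 := (Subgroup.mem_inf.1 hg').1
    have hg2 := (Subgroup.mem_inf.1 hg').2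
    have hmem : (⟨g, hg1⟩ : ↥(Cfsg.isometryGroup F Qf)) ∈ Cfsg.specialIsometryGroup F Qf := hg2
    exact ⟨⟨g, hg1⟩, hmem, indO_of_induced Qf ⟨g, hg1⟩ β hind⟩
  · exact ⟨1, Subgroup.one_mem _, indO_one Qf⟩
  · rintro x y _ _ ⟨g₁, hd₁, h₁⟩ ⟨g₂, hd₂, h₂⟩
    exact ⟨g₁ * g₂, Subgroup.mul_mem _ hd₁ hd₂, indO_mul Qf g₁ g₂ x y h₁ h₂⟩
  · rintro x _ ⟨g, hd, h⟩
    exact ⟨g⁻¹, Subgroup.inv_mem _ hd, indO_inv Qf g x h⟩

theorem psoAut_of (Qf : (κ → F) → F) (g : ↥(Cfsg.isometryGroup F Qf))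
    (hg : g ∈ Cfsg.specialIsometryGroup F Qf) (b : MulAut (Cfsg.POmega F Qf))
    (h : IndO Qf g b) : b ∈ Cfsg.psoAut F Qf := by
  unfold Cfsg.psoAut Cfsg.autSubgroupOf
  apply Subgroup.subset_closure
  have hg' : (g : Matrix.GeneralLinearGroup κ F) ∈ Cfsg.Geo.specialLinear κ F := hg
  have hmem : (g : Matrix.GeneralLinearGroup κ F) ∈ Cfsg.specialIsometryGL F Qf :=
    Subgroup.mem_inf.2 ⟨g.2, hg'⟩
  exact ⟨(g : Matrix.GeneralLinearGroup κ F), hmem, induced_of_indO Qf g b h⟩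

set_option maxHeartbeats 3200000 in
/-- The index of the inner automorphisms in the image of the special orthogonal group. -/
theorem pso_index [Fintype F] (h2 : (2 : F) ≠ 0) (Q : QuadraticForm F (κ → F))
    (hQ : (QuadraticMap.polarBilin Q).Nondegenerate) (hκ : Even (Fintype.card κ))
    (i₀ i₁ : κ) (hi : i₀ ≠ i₁)
    (hperf : commutator ↥(commutator ↥(Cfsg.isometryGroup F ⇑Q)) = ⊤)
    (hcent : ∀ z : ↥(Cfsg.isometryGroup F ⇑Q),
      (∀ g ∈ commutator ↥(Cfsg.isometryGroup F ⇑Q), g * z = z * g) →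
      ∃ a : F, a * a = 1 ∧
        ((z : Matrix.GeneralLinearGroup κ F) : Matrix κ κ F) = a • (1 : Matrix κ κ F)) :
    ((¬ ∃ g : ↥(Cfsg.isometryGroup F ⇑Q), g ∈ Cfsg.Omega F ⇑Q ∧
        ((g : Matrix.GeneralLinearGroup κ F) : Matrix κ κ F) = -1) →
      (Cfsg.Inn (Cfsg.POmega F ⇑Q)).relIndex (Cfsg.psoAut F ⇑Q) = 1) ∧
    ((∃ g : ↥(Cfsg.isometryGroup F ⇑Q), g ∈ Cfsg.Omega F ⇑Q ∧
        ((g : Matrix.GeneralLinearGroup κ F) : Matrix κ κ F) = -1) →
      (Cfsg.Inn (Cfsg.POmega F ⇑Q)).relIndex (Cfsg.psoAut F ⇑Q) = 2) := by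
  have hcrit : ∀ g : ↥(Cfsg.isometryGroup F ⇑Q),
      g ∈ commutator ↥(Cfsg.isometryGroup F ⇑Q) ↔
      chi Q 1 g = 1 ∧ ((g : Matrix.GeneralLinearGroup κ F) : Matrix κ κ F).det = 1 :=
    fun g => omega_mem_iff h2 i₀ i₁ hi Q hQ g
  have hSO : ∀ g : ↥(Cfsg.isometryGroup F ⇑Q), g ∈ Cfsg.specialIsometryGroup F ⇑Q ↔
      ((g : Matrix.GeneralLinearGroup κ F) : Matrix κ κ F).det = 1 := fun g => mem_SO_iff ⇑Q g
  have hprod : ∀ g g' : ↥(Cfsg.isometryGroup F ⇑Q), g ∈ Cfsg.specialIsometryGroup F ⇑Q →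
      g' ∈ Cfsg.specialIsometryGroup F ⇑Q → g ∉ commutator ↥(Cfsg.isometryGroup F ⇑Q) →
      g' ∉ commutator ↥(Cfsg.isometryGroup F ⇑Q) →
      g * g' ∈ commutator ↥(Cfsg.isometryGroup F ⇑Q) := by
    intro g g' hg hg' hgn hgn'
    have hd := (hSO g).1 hg
    have hd' := (hSO g').1 hg'
    have hc : chi Q 1 g = -1 := by
      rcases Int.units_eq_one_or (chi Q 1 g) with h | h
      · exact absurd ((hcrit g).2 ⟨h, hd⟩) hgn
      · exact h
    have hc' : chi Q 1 g' = -1 := by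
      rcases Int.units_eq_one_or (chi Q 1 g') with h | h
      · exact absurd ((hcrit g').2 ⟨h, hd'⟩) hgn'
      · exact h
    rw [hcrit]
    refine ⟨?_, (hSO _).1 (Subgroup.mul_mem _ hg hg')⟩
    rw [map_mul, hc, hc'] <;> decide
  obtain ⟨z, hzx, hzc, hzz, hzd⟩ := neg_el Q
  have hzm : ((z : Matrix.GeneralLinearGroup κ F) : Matrix κ κ F) = -1 := by
    apply mat_ext
    intro x
    rw [← isoActF_apply ⇑Q z x, hzx x, Matrix.neg_mulVec, Matrix.one_mulVec]
  have hzSO : z ∈ Cfsg.specialIsometryGroup F ⇑Q := by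
    rw [hSO, hzd]
    exact Even.neg_one_pow hκ
  have hzΩ : z ∈ commutator ↥(Cfsg.isometryGroup F ⇑Q) ↔
      ∃ g : ↥(Cfsg.isometryGroup F ⇑Q), g ∈ Cfsg.Omega F ⇑Q ∧
        ((g : Matrix.GeneralLinearGroup κ F) : Matrix κ κ F) = -1 := by
    constructor
    · intro h
      exact ⟨z, h, hzm⟩
    · rintro ⟨g, hg, hgm⟩
      have e : g = z := by
        apply Subtype.ext
        apply Units.ext
        rw [hgm, hzm]
      rw [← e]
      exact hg
  have hinn : ∀ (g : ↥(Cfsg.isometryGroup F ⇑Q)) (b : MulAut (Cfsg.POmega F ⇑Q)),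
      g ∈ commutator ↥(Cfsg.isometryGroup F ⇑Q) → IndO ⇑Q g b →
      b ∈ Cfsg.Inn (Cfsg.POmega F ⇑Q) :=
    fun g b hg hb => indO_inn ⇑Q ⟨g, hg⟩ b hb
  constructor
  · intro hno
    have hzn : z ∉ commutator ↥(Cfsg.isometryGroup F ⇑Q) := fun h => hno (hzΩ.1 h)
    rw [Subgroup.relIndex_eq_one]
    intro b hb
    obtain ⟨g, hg, hgb⟩ := psoAut_mem ⇑Q b hb
    by_cases hgΩ : g ∈ commutator ↥(Cfsg.isometryGroup F ⇑Q)
    · exact hinn g b hgΩ hgb
    · exact hinn (z * g) b (hprod z g hzSO hg hzn hgΩ) (indO_central ⇑Q z g hzc b hgb)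
  · intro hyes
    have hzin : z ∈ commutator ↥(Cfsg.isometryGroup F ⇑Q) := hzΩ.2 hyes
    obtain ⟨g₀, hg₀, hg₀n⟩ : ∃ g₀ : ↥(Cfsg.isometryGroup F ⇑Q),
        g₀ ∈ Cfsg.specialIsometryGroup F ⇑Q ∧ g₀ ∉ commutator ↥(Cfsg.isometryGroup F ⇑Q) := by
      have hchar : ringChar F ≠ 2 := by
        intro h
        apply h2
        have h3 := CharP.cast_eq_zero F (ringChar F)
        rw [h] at h3
        exact_mod_cast h3
      obtain ⟨ε, hε⟩ := FiniteField.exists_nonsquare hchar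
      obtain ⟨u, hu⟩ := exists_norm_valK h2 i₀ i₁ hi Q hQ 1
      obtain ⟨v, hv⟩ := exists_norm_valK h2 i₀ i₁ hi Q hQ ε
      have hε0 : ε ≠ 0 := by
        rintro rfl
        exact hε IsSquare.zero
      have hu0 : Q u ≠ 0 := by
        rw [hu]
        exact one_ne_zero
      have hv0 : Q v ≠ 0 := by
        rw [hv]
        exact hε0
      have hcu : chi Q 1 (reflEl Q u hu0) = -1 :=
        (chi_refl h2 Q 1 one_ne_zero u hu0 _ (actsRefl_reflEl Q u hu0)).1
          ⟨1, by simp [hu]⟩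
      have hcv : chi Q 1 (reflEl Q v hv0) = 1 := by
        apply (chi_refl h2 Q 1 one_ne_zero v hv0 _ (actsRefl_reflEl Q v hv0)).2
        rintro ⟨t, ht⟩
        rw [hv] at ht
        apply hε
        have ht0 : t ≠ 0 := by
          rintro rfl
          rw [mul_zero, zero_mul] at ht
          exact zero_ne_one ht
        refine ⟨t⁻¹, ?_⟩
        have htt : t⁻¹ * t = 1 := inv_mul_cancel₀ ht0
        linear_combination (t⁻¹ * t⁻¹) * ht - (ε * (t⁻¹ * t + 1)) * htt
      refine ⟨reflEl Q u hu0 * reflEl Q v hv0, ?_, ?_⟩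
      · rw [hSO]
        change ((((reflEl Q u hu0 : ↥(Cfsg.isometryGroup F ⇑Q)) :
            Matrix.GeneralLinearGroup κ F) : Matrix κ κ F)
          * (((reflEl Q v hv0 : ↥(Cfsg.isometryGroup F ⇑Q)) :
            Matrix.GeneralLinearGroup κ F) : Matrix κ κ F)).det = 1
        rw [Matrix.det_mul, reflEl_det, reflEl_det, neg_mul_neg, one_mul]
      · intro hmem
        have h5 := ((hcrit _).1 hmem).1
        rw [map_mul, hcu, hcv] at h5
        exact absurd h5 (by decide)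
    obtain ⟨β₀, hβ₀⟩ := indO_exists ⇑Q g₀
    rw [Subgroup.relIndex_eq_two_iff_exists_notMem_and']
    refine ⟨β₀, psoAut_of ⇑Q g₀ hg₀ β₀ hβ₀, ?_, ?_⟩
    · rintro ⟨w, hw⟩
      obtain ⟨ω, rfl⟩ := QuotientGroup.mk_surjective w
      apply hg₀n
      obtain ⟨h, hh⟩ : ∃ h : ↥(Cfsg.isometryGroup F ⇑Q),
          h = (ω : ↥(Cfsg.isometryGroup F ⇑Q))⁻¹ * g₀ := ⟨_, rfl⟩
      obtain ⟨c, hc⟩ : ∃ c : ↥(commutator ↥(Cfsg.isometryGroup F ⇑Q)) ≃*
          ↥(commutator ↥(Cfsg.isometryGroup F ⇑Q)), c = MulAut.conjNormal h := ⟨_, rfl⟩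
      have e : ∀ s : ↥(commutator ↥(Cfsg.isometryGroup F ⇑Q)),
          c s = ω⁻¹ * MulAut.conjNormal g₀ s * ω := by
        intro s
        apply Subtype.ext
        rw [hc, hh, MulAut.conjNormal_apply, Subgroup.coe_mul, Subgroup.coe_mul,
          Subgroup.coe_inv, MulAut.conjNormal_apply]
        group
      have key : ∀ s : ↥(commutator ↥(Cfsg.isometryGroup F ⇑Q)),
          (QuotientGroup.mk (c s) : Cfsg.POmega F ⇑Q) = QuotientGroup.mk s := by
        intro s
        have h1 : (QuotientGroup.mk (MulAut.conjNormal g₀ s) : Cfsg.POmega F ⇑Q)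
            = QuotientGroup.mk ω * QuotientGroup.mk s * (QuotientGroup.mk ω)⁻¹ := by
          rw [← hβ₀ s, ← hw, MulAut.conj_apply]
        rw [e s, QuotientGroup.mk_mul, QuotientGroup.mk_mul, QuotientGroup.mk_inv, h1]
        group
      have hd : ∀ s : ↥(commutator ↥(Cfsg.isometryGroup F ⇑Q)),
          s⁻¹ * c s ∈ Subgroup.center ↥(commutator ↥(Cfsg.isometryGroup F ⇑Q)) :=
        fun s => QuotientGroup.eq.1 (key s).symm
      have hfix : ∀ s : ↥(commutator ↥(Cfsg.isometryGroup F ⇑Q)), c s = s := by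
        have hall : ∀ s ∈ commutator ↥(commutator ↥(Cfsg.isometryGroup F ⇑Q)), c s = s := by
          intro s hs
          have hs' : s ∈ Subgroup.closure
              (commutatorSet ↥(commutator ↥(Cfsg.isometryGroup F ⇑Q))) := by
            rw [← commutator_eq_closure]
            exact hs
          refine Subgroup.closure_induction (p := fun s _ => c s = s) ?_ ?_ ?_ ?_ hs'
          · rintro x ⟨p, q, rfl⟩
            have k1 := Subgroup.mem_center_iff.1 (hd p) (c q)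
            have k2 := Subgroup.mem_center_iff.1 (hd q) p⁻¹
            rw [commutatorElement_def, map_mul, map_mul, map_mul, map_inv, map_inv]
            calc c p * c q * (c p)⁻¹ * (c q)⁻¹
                = p * ((p⁻¹ * c p) * c q) * (c p)⁻¹ * (c q)⁻¹ := by group
              _ = p * (c q * (p⁻¹ * c p)) * (c p)⁻¹ * (c q)⁻¹ := by rw [k1]
              _ = p * q * ((q⁻¹ * c q) * p⁻¹) * (c q)⁻¹ := by group
              _ = p * q * (p⁻¹ * (q⁻¹ * c q)) * (c q)⁻¹ := by rw [k2]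
              _ = p * q * p⁻¹ * q⁻¹ := by group
          · exact map_one c
          · intro x y _ _ hx hy
            rw [map_mul, hx, hy]
          · intro x _ hx
            rw [map_inv, hx]
        intro s
        apply hall
        rw [hperf]
        exact Subgroup.mem_top s
      have hcomm : ∀ g ∈ commutator ↥(Cfsg.isometryGroup F ⇑Q), g * h = h * g := by
        intro g hg
        have h7 := congrArg Subtype.val (hfix ⟨g, hg⟩)
        rw [hc, MulAut.conjNormal_apply] at h7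
        exact (mul_inv_eq_iff_eq_mul.1 h7).symm
      obtain ⟨a, haa, ham⟩ := hcent h hcomm
      have hhΩ : h ∈ commutator ↥(Cfsg.isometryGroup F ⇑Q) := by
        have h5 : (a - 1) * (a + 1) = 0 := by linear_combination haa
        rcases mul_eq_zero.1 h5 with h6 | h6
        · have e1 : h = 1 := by
            apply Subtype.ext
            apply Units.ext
            rw [ham, sub_eq_zero.1 h6, one_smul] <;> rfl
          rw [e1]
          exact Subgroup.one_mem _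
        · have e1 : h = z := by
            apply Subtype.ext
            apply Units.ext
            rw [ham, hzm, eq_neg_of_add_eq_zero_left h6, neg_smul, one_smul]
          rw [e1]
          exact hzin
      have e2 : g₀ = (ω : ↥(Cfsg.isometryGroup F ⇑Q)) * h := by
        rw [hh]
        group
      rw [e2]
      exact Subgroup.mul_mem _ ω.2 hhΩ
    · intro b hb
      obtain ⟨g, hg, hgb⟩ := psoAut_mem ⇑Q b hb
      by_cases hgΩ : g ∈ commutator ↥(Cfsg.isometryGroup F ⇑Q)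
      · right
        exact hinn g b hgΩ hgb
      · left
        exact hinn (g₀ * g) (β₀ * b) (hprod g₀ g hg₀ hg hg₀n hgΩ)
          (indO_mul ⇑Q g₀ g β₀ b hβ₀ hgb)

end PsoIndex

end Cfsg.Agent.Helper5
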