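import Mathlib
import Cfsg.Agent.Helper5.PsoIndex

/-!
Automorphisms of `PΩ(Q)` induced by similarities of `Q`: conjugation by a similarity preserves
`Ω`, the induced automorphism determines the similarity up to a scalar, and the elements of the
image of the conformal group are all induced by similarities.
-/

set_option autoImplicit false

namespace Cfsg.Agent.Helper5

theorem perfect_fix {G : Type*} [Group G] (hperf : commutator G = ⊤) (c : G ≃* G)
    (hd : ∀ s : G, s⁻¹ * c s ∈ Subgroup.center G) (s : G) : c s = s := by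
  have hall : ∀ s ∈ commutator G, c s = s := by
    intro s hs
    rw [commutator_eq_closure] at hs
    refine Subgroup.closure_induction (p := fun s _ => c s = s) ?_ ?_ ?_ ?_ hs
    · rintro x ⟨p, q, rfl⟩
      have k1 := Subgroup.mem_center_iff.1 (hd p) (c q)
      have k2 := Subgroup.mem_center_iff.1 (hd q) p⁻¹
      rw [commutatorElement_def, map_mul, map_mul, map_mul, map_inv, map_inv]
      calc c p * c q * (c p)⁻¹ * (c q)⁻¹
          = p * ((p⁻¹ * c p) * c q) * (c p)⁻¹ * (c q)⁻¹ := by group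
        _ = p * (c q * (p⁻¹ * c p)) * (c p)⁻¹ * (c q)⁻¹ := by rw [k1]
        _ = p * q * ((q⁻¹ * c q) * p⁻¹) * (c q)⁻¹ := by group
        _ = p * q * (p⁻¹ * (q⁻¹ * c q)) * (c q)⁻¹ := by rw [k2]
        _ = p * q * p⁻¹ * q⁻¹ := by group
    · exact map_one c
    · intro x y _ _ hx hy
      rw [map_mul, hx, hy]
    · intro x _ hx
      rw [map_inv, hx]
  apply hall
  rw [hperf]
  exact Subgroup.mem_top s

section Abs0

variable {F : Type*} [Field F] {V : Type*} [AddCommGroup V] [Module F V]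

theorem eig_d0 {Q : QuadraticForm F V} {e₁ f₁ e₂ f₂ : V} (H : HypPairs Q e₁ f₁ e₂ f₂)
    {A : V ≃ₗ[F] V} (hA : PlaneProp Q A)
    (hpol : ∀ x y, QuadraticMap.polar (⇑Q) x y = 0 →
      QuadraticMap.polar (⇑Q) (A x) (A y) = 0)
    (d : V) (hde₁ : QuadraticMap.polar (⇑Q) d e₁ = 0)
    (hdf₁ : QuadraticMap.polar (⇑Q) d f₁ = 0) (hde₂ : QuadraticMap.polar (⇑Q) d e₂ = 0)
    (hdf₂ : QuadraticMap.polar (⇑Q) d f₂ = 0) (a : F) (ha0 : a ≠ 0) (h1 : A e₁ = a • e₁)
    (h1' : A f₁ = a • f₁) (h2' : A f₂ = a • f₂) : A d = a • d := by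
  obtain ⟨c11, c22, cee, cef, cfe, cff, s1, s2, s3, s4⟩ := hyp_polars H
  obtain ⟨c, hc⟩ : ∃ c, c = Q d := ⟨_, rfl⟩
  have hu : Q (d + e₁ - c • f₁) = 0 := by
    rw [kit_sub, kit_add, QuadraticMap.map_smul, QuadraticMap.polar_add_left,
      QuadraticMap.polar_smul_right, QuadraticMap.polar_smul_right, H.qe₁, H.qf₁, hde₁, hdf₁,
      H.p11, ← hc]
    simp only [smul_eq_mul]
    ring
  have huv : QuadraticMap.polar (⇑Q) (d + e₁ - c • f₁) e₂ = 0 := by
    simp only [QuadraticMap.polar_add_left, QuadraticMap.polar_sub_left,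
      QuadraticMap.polar_smul_left, hde₂, H.pee, H.pfe, smul_eq_mul]
    ring
  have hy2 : QuadraticMap.polar (⇑Q) (d + e₁ - c • f₁) f₂ = 0 := by
    simp only [QuadraticMap.polar_add_left, QuadraticMap.polar_sub_left,
      QuadraticMap.polar_smul_left, hdf₂, H.pef, H.pff, smul_eq_mul]
    ring
  obtain ⟨α, β, hab⟩ := hA (d + e₁ - c • f₁) e₂ f₂ hu H.qe₂ huv H.p22 hy2
  rw [map_sub, map_add, map_smul, h1, h1'] at hab
  have hAd : A d = α • (d + e₁ - c • f₁) + β • e₂ - a • e₁ + c • a • f₁ := by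
    rw [← hab]
    abel
  have k1 := hpol d f₁ hdf₁
  rw [h1', QuadraticMap.polar_smul_right, hAd] at k1
  simp only [QuadraticMap.polar_add_left, QuadraticMap.polar_sub_left,
    QuadraticMap.polar_smul_left, smul_eq_mul, hdf₁, H.p11, s2, cfe] at k1
  have k2 := hpol d f₂ hdf₂
  rw [h2', QuadraticMap.polar_smul_right, hAd] at k2
  simp only [QuadraticMap.polar_add_left, QuadraticMap.polar_sub_left,
    QuadraticMap.polar_smul_left, smul_eq_mul, hdf₂, H.pef, H.pff, H.p22] at k2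
  have hα : α = a := by
    have h3 : a * (α - a) = 0 := by linear_combination k1
    rcases mul_eq_zero.1 h3 with h4 | h4
    · exact absurd h4 ha0
    · linear_combination h4
  have hβ : β = 0 := by
    have h3 : a * β = 0 := by linear_combination k2
    rcases mul_eq_zero.1 h3 with h4 | h4
    · exact absurd h4 ha0
    · exact h4
  rw [hAd, hα, hβ]
  module

end Abs0

section PgoBase

variable {F : Type*} [Field F] {κ : Type} [Fintype κ] [DecidableEq κ]

/-- The linear automorphism attached to an invertible matrix. -/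
noncomputable def glEquiv (A : Matrix.GeneralLinearGroup κ F) : (κ → F) ≃ₗ[F] (κ → F) :=
  LinearEquiv.ofLinearMap (Matrix.toLin' (A : Matrix κ κ F))
    (Matrix.toLin' ((A⁻¹ : Matrix.GeneralLinearGroup κ F) : Matrix κ κ F))
    (by rw [← Matrix.toLin'_mul, ← Units.val_mul, mul_inv_cancel, Units.val_one,
      Matrix.toLin'_one])
    (by rw [← Matrix.toLin'_mul, ← Units.val_mul, inv_mul_cancel, Units.val_one,
      Matrix.toLin'_one])

theorem glEquiv_apply (A : Matrix.GeneralLinearGroup κ F) (x : κ → F) :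
    glEquiv A x = Matrix.mulVec (A : Matrix κ κ F) x :=
  Matrix.toLin'_apply _ _

theorem gl_plane [Fintype F] (Q : QuadraticForm F (κ → F))
    (hQ : (QuadraticMap.polarBilin Q).Nondegenerate)
    (h : Fintype.card F ≠ 2 ∨ Fintype.card κ ≠ 4) (z : Matrix.GeneralLinearGroup κ F)
    (hz : ∀ g ∈ commutator ↥(Cfsg.isometryGroup F ⇑Q),
      z * (g : Matrix.GeneralLinearGroup κ F) = (g : Matrix.GeneralLinearGroup κ F) * z) :
    PlaneProp Q (glEquiv z) := by
  intro u v y hu hv huv hy1 hy2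
  obtain ⟨g, hg⟩ := siegelEl_existsK Q u v hu hv huv 1
  have hgc := siegel_mem_omega Q hQ h u v hu hv huv 1 g hg
  have hcomm := hz g hgc
  have hgact : ∀ x, Matrix.mulVec ((g : Matrix.GeneralLinearGroup κ F) : Matrix κ κ F) x
      = x + (1 : F) • (QuadraticMap.polar (⇑Q) u x • v - QuadraticMap.polar (⇑Q) v x • u) := by
    intro x
    rw [hg, Cfsg.Agent.Helper6.siegelMatrix_mulVec]
  have h1 : Matrix.mulVec (z : Matrix κ κ F)
      (Matrix.mulVec ((g : Matrix.GeneralLinearGroup κ F) : Matrix κ κ F) y)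
      = Matrix.mulVec ((g : Matrix.GeneralLinearGroup κ F) : Matrix κ κ F)
        (Matrix.mulVec (z : Matrix κ κ F) y) := by
    rw [Matrix.mulVec_mulVec, Matrix.mulVec_mulVec, ← Units.val_mul, ← Units.val_mul, hcomm]
  rw [hgact y, hgact (Matrix.mulVec (z : Matrix κ κ F) y), hy1, hy2] at h1
  have h3 : y + (1 : F) • ((0 : F) • v - (1 : F) • u) = y - u := by module
  rw [h3, Matrix.mulVec_sub] at h1
  refine ⟨QuadraticMap.polar (⇑Q) v (Matrix.mulVec (z : Matrix κ κ F) y),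
    -QuadraticMap.polar (⇑Q) u (Matrix.mulVec (z : Matrix κ κ F) y), ?_⟩
  rw [glEquiv_apply]
  have h4 : Matrix.mulVec (z : Matrix κ κ F) u = Matrix.mulVec (z : Matrix κ κ F) y
      - (Matrix.mulVec (z : Matrix κ κ F) y - Matrix.mulVec (z : Matrix κ κ F) u) := by abel
  rw [h4, h1]
  module

/-- An invertible matrix commuting with `Ω` and preserving orthogonality is a scalar. -/
theorem gl_centralizer_scalar [Fintype F] (Q : QuadraticForm F (κ → F))
    (hQ : (QuadraticMap.polarBilin Q).Nondegenerate)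
    (h : Fintype.card F ≠ 2 ∨ Fintype.card κ ≠ 4) {ι : Type} (pe pf : ι → κ)
    (hH : ∀ i j, i ≠ j → HypPairs Q (Pi.single (pe i) 1) (Pi.single (pf i) 1)
      (Pi.single (pe j) 1) (Pi.single (pf j) 1))
    (i₀ i₁ : ι) (hi : i₀ ≠ i₁)
    (hcov : ∀ k : κ, (∃ i, k = pe i ∨ k = pf i) ∨
      (QuadraticMap.polar (⇑Q) (Pi.single k 1) (Pi.single (pe i₀) 1) = 0 ∧
        QuadraticMap.polar (⇑Q) (Pi.single k 1) (Pi.single (pf i₀) 1) = 0 ∧
        QuadraticMap.polar (⇑Q) (Pi.single k 1) (Pi.single (pe i₁) 1) = 0 ∧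
        QuadraticMap.polar (⇑Q) (Pi.single k 1) (Pi.single (pf i₁) 1) = 0))
    (z : Matrix.GeneralLinearGroup κ F)
    (hz : ∀ g ∈ commutator ↥(Cfsg.isometryGroup F ⇑Q),
      z * (g : Matrix.GeneralLinearGroup κ F) = (g : Matrix.GeneralLinearGroup κ F) * z)
    (hpol : ∀ x y, QuadraticMap.polar (⇑Q) x y = 0 →
      QuadraticMap.polar (⇑Q) (Matrix.mulVec (z : Matrix κ κ F) x)
        (Matrix.mulVec (z : Matrix κ κ F) y) = 0) :
    ∃ a : F, (z : Matrix κ κ F) = a • (1 : Matrix κ κ F) := by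
  classical
  obtain ⟨A, hA⟩ : ∃ A : (κ → F) ≃ₗ[F] (κ → F), A = glEquiv z := ⟨_, rfl⟩
  have hAx : ∀ x, A x = Matrix.mulVec (z : Matrix κ κ F) x := by
    intro x
    rw [hA, glEquiv_apply]
  have hpol' : ∀ x y, QuadraticMap.polar (⇑Q) x y = 0 →
      QuadraticMap.polar (⇑Q) (A x) (A y) = 0 := by
    intro x y hxy
    rw [hAx, hAx]
    exact hpol x y hxy
  have hplane : PlaneProp Q A := by
    rw [hA]
    exact gl_plane Q hQ h z hz
  obtain ⟨a, ha1, ha2, ha3, ha4⟩ := hyp_scalar (hH i₀ i₁ hi) hplane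
  have ha0 : a ≠ 0 := by
    rintro rfl
    rw [zero_smul] at ha1
    have h5 : (Pi.single (pe i₀) 1 : κ → F) = 0 := A.injective (by rw [ha1, map_zero])
    have h6 := congrFun h5 (pe i₀)
    rw [Pi.single_eq_same] at h6
    exact one_ne_zero h6
  have hE : ∀ i : ι, A (Pi.single (pe i) 1) = a • (Pi.single (pe i) 1 : κ → F)
      ∧ A (Pi.single (pf i) 1) = a • (Pi.single (pf i) 1 : κ → F) := by
    intro i
    by_cases hi0 : i₀ = i
    · subst hi0
      exact ⟨ha1, ha2⟩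
    · obtain ⟨a', h1, -, h3, h4⟩ := hyp_scalar (hH i₀ i hi0) hplane
      have haa' : a' = a := by
        have h5 : a' • (Pi.single (pe i₀) 1 : κ → F) = a • (Pi.single (pe i₀) 1 : κ → F) := by
          rw [← h1, ← ha1]
        have h6 := congrArg (fun x => QuadraticMap.polar (⇑Q) x (Pi.single (pf i₀) 1)) h5
        simp only [QuadraticMap.polar_smul_left, (hH i₀ i₁ hi).p11, smul_eq_mul, mul_one] at h6
        exact h6
      rw [haa'] at h3 h4
      exact ⟨h3, h4⟩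
  have hsingle : ∀ k : κ, A (Pi.single k 1) = a • (Pi.single k 1 : κ → F) := by
    intro k
    rcases hcov k with ⟨i, rfl | rfl⟩ | ⟨h1, h3, h4, h5⟩
    · exact (hE i).1
    · exact (hE i).2
    · exact eig_d0 (hH i₀ i₁ hi) hplane hpol' _ h1 h3 h4 h5 a ha0 ha1 ha2 ha4
  have hlin : (A : (κ → F) →ₗ[F] (κ → F)) = a • LinearMap.id := by
    apply (Pi.basisFun F κ).ext
    intro k
    rw [Pi.basisFun_apply, LinearMap.smul_apply, LinearMap.id_apply, LinearEquiv.coe_coe]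
    exact hsingle k
  have hall : ∀ x, A x = a • x := by
    intro x
    have h5 := congrArg (fun f : (κ → F) →ₗ[F] (κ → F) => f x) hlin
    simpa using h5
  refine ⟨a, ?_⟩
  apply mat_ext
  intro x
  rw [← hAx, hall, Matrix.smul_mulVec, Matrix.one_mulVec]

theorem sim_polar (Qf : (κ → F) → F) (g : Matrix.GeneralLinearGroup κ F) (c : F)
    (hc : ∀ v, Qf (Matrix.mulVec (g : Matrix κ κ F) v) = c * Qf v) (x y : κ → F) :
    QuadraticMap.polar Qf (Matrix.mulVec (g : Matrix κ κ F) x)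
      (Matrix.mulVec (g : Matrix κ κ F) y) = c * QuadraticMap.polar Qf x y := by
  unfold QuadraticMap.polar
  rw [← Matrix.mulVec_add, hc, hc, hc]
  ring

theorem sim_conj_mem (Qf : (κ → F) → F) (g : Matrix.GeneralLinearGroup κ F)
    (hg : g ∈ Cfsg.Geo.quadSimilarityGroup Qf) (x : Matrix.GeneralLinearGroup κ F)
    (hx : x ∈ Cfsg.isometryGroup F Qf) : g * x * g⁻¹ ∈ Cfsg.isometryGroup F Qf := by
  obtain ⟨c, hc⟩ := hg
  rw [Cfsg.Agent.Helper6.isometry_mem_iff] at hx ⊢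
  intro u
  have h1 : Matrix.mulVec ((g * x * g⁻¹ : Matrix.GeneralLinearGroup κ F) : Matrix κ κ F) u
      = Matrix.mulVec (g : Matrix κ κ F) (Matrix.mulVec (x : Matrix κ κ F)
        (Matrix.mulVec ((g⁻¹ : Matrix.GeneralLinearGroup κ F) : Matrix κ κ F) u)) := by
    rw [Matrix.mulVec_mulVec, Matrix.mulVec_mulVec, ← Units.val_mul, ← Units.val_mul]
  have h2 : Qf u = (c : F) * Qf (Matrix.mulVec
      ((g⁻¹ : Matrix.GeneralLinearGroup κ F) : Matrix κ κ F) u) := by
    rw [← hc, Matrix.mulVec_mulVec, ← Units.val_mul, mul_inv_cancel, Units.val_one,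
      Matrix.one_mulVec]
  rw [h1, hc, hx, ← h2]

theorem sim_conj_omega (Qf : (κ → F) → F) (g : Matrix.GeneralLinearGroup κ F)
    (hg : g ∈ Cfsg.Geo.quadSimilarityGroup Qf) (s : ↥(Cfsg.isometryGroup F Qf))
    (hs : s ∈ commutator ↥(Cfsg.isometryGroup F Qf)) :
    ∃ s' : ↥(commutator ↥(Cfsg.isometryGroup F Qf)),
      ((s' : ↥(Cfsg.isometryGroup F Qf)) : Matrix.GeneralLinearGroup κ F)
        = g * (s : Matrix.GeneralLinearGroup κ F) * g⁻¹ := by
  obtain ⟨f, hf⟩ : ∃ f : ↥(Cfsg.isometryGroup F Qf) →* ↥(Cfsg.isometryGroup F Qf),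
      ∀ x, ((f x : ↥(Cfsg.isometryGroup F Qf)) : Matrix.GeneralLinearGroup κ F)
        = g * (x : Matrix.GeneralLinearGroup κ F) * g⁻¹ := by
    refine ⟨MonoidHom.mk' (fun x => ⟨g * (x : Matrix.GeneralLinearGroup κ F) * g⁻¹,
      sim_conj_mem Qf g hg x x.2⟩) ?_, fun x => rfl⟩
    intro a b
    apply Subtype.ext
    change g * ((a : Matrix.GeneralLinearGroup κ F) * (b : Matrix.GeneralLinearGroup κ F)) * g⁻¹
      = (g * (a : Matrix.GeneralLinearGroup κ F) * g⁻¹)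
        * (g * (b : Matrix.GeneralLinearGroup κ F) * g⁻¹)
    group
  have h1 : f s ∈ (commutator ↥(Cfsg.isometryGroup F Qf)).map f := Subgroup.mem_map_of_mem f hs
  have h2 : (commutator ↥(Cfsg.isometryGroup F Qf)).map f
      ≤ commutator ↥(Cfsg.isometryGroup F Qf) := by
    rw [commutator_def, Subgroup.map_commutator]
    exact Subgroup.commutator_mono le_top le_top
  exact ⟨⟨f s, h2 h1⟩, hf s⟩

theorem sim_equiv_exists (Qf : (κ → F) → F) (g : Matrix.GeneralLinearGroup κ F)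
    (hg : g ∈ Cfsg.Geo.quadSimilarityGroup Qf) :
    ∃ e : ↥(commutator ↥(Cfsg.isometryGroup F Qf)) ≃* ↥(commutator ↥(Cfsg.isometryGroup F Qf)),
      ∀ s : ↥(commutator ↥(Cfsg.isometryGroup F Qf)),
        (((e s : ↥(commutator ↥(Cfsg.isometryGroup F Qf))) : ↥(Cfsg.isometryGroup F Qf)) :
          Matrix.GeneralLinearGroup κ F)
        = g * ((s : ↥(Cfsg.isometryGroup F Qf)) : Matrix.GeneralLinearGroup κ F) * g⁻¹ := by
  have hg' : g⁻¹ ∈ Cfsg.Geo.quadSimilarityGroup Qf := Subgroup.inv_mem _ hg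
  choose F₁ h₁ using fun s : ↥(commutator ↥(Cfsg.isometryGroup F Qf)) =>
    sim_conj_omega Qf g hg s.1 s.2
  choose F₂ h₂ using fun s : ↥(commutator ↥(Cfsg.isometryGroup F Qf)) =>
    sim_conj_omega Qf g⁻¹ hg' s.1 s.2
  refine ⟨{ toFun := F₁, invFun := F₂, left_inv := ?_, right_inv := ?_, map_mul' := ?_ }, h₁⟩
  · intro s
    apply Subtype.ext
    apply Subtype.ext
    rw [h₂, h₁]
    group
  · intro s
    apply Subtype.ext
    apply Subtype.ext
    rw [h₁, h₂]
    group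
  · intro s t
    apply Subtype.ext
    apply Subtype.ext
    have e1 := h₁ (s * t)
    have e2 := h₁ s
    have e3 := h₁ t
    rw [e1]
    change g * (((s : ↥(Cfsg.isometryGroup F Qf)) : Matrix.GeneralLinearGroup κ F)
        * ((t : ↥(Cfsg.isometryGroup F Qf)) : Matrix.GeneralLinearGroup κ F)) * g⁻¹
      = (((F₁ s : ↥(commutator ↥(Cfsg.isometryGroup F Qf))) : ↥(Cfsg.isometryGroup F Qf)) :
          Matrix.GeneralLinearGroup κ F)
        * (((F₁ t : ↥(commutator ↥(Cfsg.isometryGroup F Qf))) : ↥(Cfsg.isometryGroup F Qf)) :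
          Matrix.GeneralLinearGroup κ F)
    rw [e2, e3]
    group

/-- `β` is induced on `PΩ` by conjugation with the invertible matrix `g`. -/
def IndG (Qf : (κ → F) → F) (g : Matrix.GeneralLinearGroup κ F)
    (β : MulAut (Cfsg.POmega F Qf)) : Prop :=
  ∀ s s' : ↥(commutator ↥(Cfsg.isometryGroup F Qf)),
    ((s' : ↥(Cfsg.isometryGroup F Qf)) : Matrix.GeneralLinearGroup κ F)
      = g * ((s : ↥(Cfsg.isometryGroup F Qf)) : Matrix.GeneralLinearGroup κ F) * g⁻¹ →
    β (QuotientGroup.mk s) = QuotientGroup.mk s'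

theorem indG_iff (Qf : (κ → F) → F) (g : Matrix.GeneralLinearGroup κ F)
    (β : MulAut (Cfsg.POmega F Qf)) :
    Cfsg.IsInducedBySemilinearPOmega Qf g (RingEquiv.refl F) β ↔ IndG Qf g β := by
  constructor
  · intro h s s' hs
    apply h s s'
    rw [map_refl_eq, hs] <;> rfl
  · intro h s s' hm
    apply h s s'
    apply Units.ext
    rw [map_refl_eq] at hm
    rw [hm] <;> rfl

theorem indG_one (Qf : (κ → F) → F) : IndG Qf 1 1 := by
  intro s s' hs
  have e : s' = s := by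
    apply Subtype.ext
    apply Subtype.ext
    rw [hs]
    group
  rw [e, MulAut.one_apply]

theorem indG_mul (Qf : (κ → F) → F) (g₁ g₂ : Matrix.GeneralLinearGroup κ F)
    (hg₂ : g₂ ∈ Cfsg.Geo.quadSimilarityGroup Qf) (β₁ β₂ : MulAut (Cfsg.POmega F Qf))
    (h₁ : IndG Qf g₁ β₁) (h₂ : IndG Qf g₂ β₂) : IndG Qf (g₁ * g₂) (β₁ * β₂) := by
  intro s s' hs
  obtain ⟨t, ht⟩ := sim_conj_omega Qf g₂ hg₂ s.1 s.2
  rw [MulAut.mul_apply, h₂ s t ht]
  apply h₁ t s'
  rw [hs, ht]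
  group

theorem indG_inv (Qf : (κ → F) → F) (g : Matrix.GeneralLinearGroup κ F)
    (β : MulAut (Cfsg.POmega F Qf)) (h : IndG Qf g β) : IndG Qf g⁻¹ β⁻¹ := by
  intro s s' hs
  apply MulEquiv.injective β
  rw [MulAut.apply_inv_self]
  symm
  apply h s' s
  rw [hs]
  group

theorem indG_exists (Qf : (κ → F) → F) (g : Matrix.GeneralLinearGroup κ F)
    (hg : g ∈ Cfsg.Geo.quadSimilarityGroup Qf) :
    ∃ β : MulAut (Cfsg.POmega F Qf), IndG Qf g β := by
  obtain ⟨e, he⟩ := sim_equiv_exists Qf g hg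
  have hmap : (Subgroup.center ↥(commutator ↥(Cfsg.isometryGroup F Qf))).map e.toMonoidHom
      = Subgroup.center ↥(commutator ↥(Cfsg.isometryGroup F Qf)) :=
    Subgroup.characteristic_iff_map_eq.1 inferInstance _
  refine ⟨QuotientGroup.congr _ _ e hmap, ?_⟩
  intro s s' hs
  have e1 : s' = e s := Subtype.ext (Subtype.ext (hs.trans (he s).symm))
  rw [e1]
  rfl

theorem indG_central (Qf : (κ → F) → F) (z g : Matrix.GeneralLinearGroup κ F)
    (hz : ∀ x, z * x = x * z) (β : MulAut (Cfsg.POmega F Qf)) (h : IndG Qf g β) :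
    IndG Qf (z * g) β := by
  intro s s' hs
  apply h s s'
  rw [hs]
  have e1 : z * g * ((s : ↥(Cfsg.isometryGroup F Qf)) : Matrix.GeneralLinearGroup κ F)
      * (z * g)⁻¹
      = z * (g * ((s : ↥(Cfsg.isometryGroup F Qf)) : Matrix.GeneralLinearGroup κ F) * g⁻¹)
        * z⁻¹ := by group
  rw [e1, hz, mul_inv_cancel_right]

theorem indG_of_indO (Qf : (κ → F) → F) (g : ↥(Cfsg.isometryGroup F Qf))
    (β : MulAut (Cfsg.POmega F Qf)) (h : IndO Qf g β) :
    IndG Qf (g : Matrix.GeneralLinearGroup κ F) β :=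
  (indG_iff Qf _ β).1 (induced_of_indO Qf g β h)

theorem indO_of_indG (Qf : (κ → F) → F) (g : ↥(Cfsg.isometryGroup F Qf))
    (β : MulAut (Cfsg.POmega F Qf)) (h : IndG Qf (g : Matrix.GeneralLinearGroup κ F) β) :
    IndO Qf g β :=
  indO_of_induced Qf g β ((indG_iff Qf _ β).2 h)

theorem pgoAut_mem (Qf : (κ → F) → F) (b : MulAut (Cfsg.POmega F Qf))
    (hb : b ∈ Cfsg.pgoAut F Qf) :
    ∃ g : Matrix.GeneralLinearGroup κ F, g ∈ Cfsg.Geo.quadSimilarityGroup Qf ∧ IndG Qf g b := by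
  unfold Cfsg.pgoAut Cfsg.autSubgroupOf at hb
  refine Subgroup.closure_induction (p := fun b _ => ∃ g : Matrix.GeneralLinearGroup κ F,
    g ∈ Cfsg.Geo.quadSimilarityGroup Qf ∧ IndG Qf g b) ?_ ?_ ?_ ?_ hb
  · rintro β ⟨g, hg, hind⟩
    exact ⟨g, hg, (indG_iff Qf g β).1 hind⟩
  · exact ⟨1, Subgroup.one_mem _, indG_one Qf⟩
  · rintro x y _ _ ⟨g₁, hd₁, h₁⟩ ⟨g₂, hd₂, h₂⟩
    exact ⟨g₁ * g₂, Subgroup.mul_mem _ hd₁ hd₂, indG_mul Qf g₁ g₂ hd₂ x y h₁ h₂⟩
  · rintro x _ ⟨g, hd, h⟩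
    exact ⟨g⁻¹, Subgroup.inv_mem _ hd, indG_inv Qf g x h⟩

theorem pgoAut_of (Qf : (κ → F) → F) (g : Matrix.GeneralLinearGroup κ F)
    (hg : g ∈ Cfsg.Geo.quadSimilarityGroup Qf) (b : MulAut (Cfsg.POmega F Qf))
    (h : IndG Qf g b) : b ∈ Cfsg.pgoAut F Qf := by
  unfold Cfsg.pgoAut Cfsg.autSubgroupOf
  apply Subgroup.subset_closure
  exact ⟨g, hg, (indG_iff Qf g b).2 h⟩

/-- Two similarities inducing the same automorphism differ by a scalar. -/
theorem indG_same (Q : QuadraticForm F (κ → F))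
    (hperf : commutator ↥(commutator ↥(Cfsg.isometryGroup F ⇑Q)) = ⊤)
    (hcentG : ∀ z : Matrix.GeneralLinearGroup κ F,
      (∀ g ∈ commutator ↥(Cfsg.isometryGroup F ⇑Q),
        z * (g : Matrix.GeneralLinearGroup κ F) = (g : Matrix.GeneralLinearGroup κ F) * z) →
      (∀ x y, QuadraticMap.polar (⇑Q) x y = 0 →
        QuadraticMap.polar (⇑Q) (Matrix.mulVec (z : Matrix κ κ F) x)
          (Matrix.mulVec (z : Matrix κ κ F) y) = 0) →
      ∃ a : F, (z : Matrix κ κ F) = a • (1 : Matrix κ κ F))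
    (g g' : Matrix.GeneralLinearGroup κ F) (hg : g ∈ Cfsg.Geo.quadSimilarityGroup (⇑Q))
    (hg' : g' ∈ Cfsg.Geo.quadSimilarityGroup (⇑Q))
    (β : MulAut (Cfsg.POmega F ⇑Q)) (hβ : IndG ⇑Q g β) (hβ' : IndG ⇑Q g' β) :
    ∃ a : F, ((g⁻¹ * g' : Matrix.GeneralLinearGroup κ F) : Matrix κ κ F)
      = a • (1 : Matrix κ κ F) := by
  have hh : g⁻¹ * g' ∈ Cfsg.Geo.quadSimilarityGroup (⇑Q) :=
    Subgroup.mul_mem _ (Subgroup.inv_mem _ hg) hg'
  obtain ⟨c, hc⟩ := sim_equiv_exists (⇑Q) (g⁻¹ * g') hh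
  have key : ∀ s : ↥(commutator ↥(Cfsg.isometryGroup F ⇑Q)),
      (QuotientGroup.mk (c s) : Cfsg.POmega F ⇑Q) = QuotientGroup.mk s := by
    intro s
    obtain ⟨s'', hs''⟩ := sim_conj_omega (⇑Q) g' hg' s.1 s.2
    apply MulEquiv.injective β
    rw [hβ' s s'' hs'']
    apply hβ (c s) s''
    rw [hs'', hc]
    group
  have hfix := perfect_fix hperf c (fun s => QuotientGroup.eq.1 (key s).symm)
  apply hcentG
  · intro x hx
    have h7 := hc ⟨x, hx⟩
    rw [hfix] at h7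
    exact mul_inv_eq_iff_eq_mul.1 h7.symm
  · intro x y hxy
    obtain ⟨cc, hcc⟩ := hh
    rw [sim_polar (⇑Q) _ cc hcc, hxy, mul_zero]

end PgoBase

end Cfsg.Agent.Helper5
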