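import Mathlib
import Cfsg.Prelude.Def_Classical
import Cfsg.Agent.Helper6.FinSq

set_option autoImplicit false

namespace Cfsg.Agent.Helper5

/-- A similitude of the plus-type form with arbitrary nonzero multiplier. -/
theorem plus_delta {F : Type*} [Field F] (m : ℕ) (ν : F) (hν : ν ≠ 0) :
    ∃ g : Matrix.GeneralLinearGroup (Fin m ⊕ Fin m) F, ∀ v : Fin m ⊕ Fin m → F,
      Cfsg.quadFormPlus m F
          (Matrix.mulVec (g : Matrix (Fin m ⊕ Fin m) (Fin m ⊕ Fin m) F) v)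
        = ν * Cfsg.quadFormPlus m F v := by
  classical
  obtain ⟨A, hA⟩ : ∃ A : Matrix (Fin m ⊕ Fin m) (Fin m ⊕ Fin m) F,
      A = Matrix.diagonal (Sum.elim (fun _ : Fin m => ν) (fun _ : Fin m => (1 : F))) := ⟨_, rfl⟩
  have hdet : A.det ≠ 0 := by
    rw [hA, Matrix.det_diagonal, Finset.prod_ne_zero_iff]
    intro k _
    rcases k with i | i
    · exact hν
    · exact one_ne_zero
  refine ⟨Matrix.GeneralLinearGroup.mkOfDetNeZero A hdet, fun v => ?_⟩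
  have hval : ((Matrix.GeneralLinearGroup.mkOfDetNeZero A hdet :
      Matrix.GeneralLinearGroup (Fin m ⊕ Fin m) F) :
      Matrix (Fin m ⊕ Fin m) (Fin m ⊕ Fin m) F) = A := rfl
  rw [hval, hA]
  unfold Cfsg.quadFormPlus
  rw [Finset.mul_sum]
  refine Finset.sum_congr rfl (fun i _ => ?_)
  rw [Matrix.mulVec_diagonal, Matrix.mulVec_diagonal]
  simp only [Sum.elim_inl, Sum.elim_inr]
  ring

/-- A similitude of the minus-type form with arbitrary nonzero multiplier. -/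
theorem minus_delta {F : Type*} [Field F] [Finite F] (h2 : (2 : F) ≠ 0) (m : ℕ) (a b : F)
    (hab : ∀ z₁ z₂ : F, z₁ ^ 2 + a * z₁ * z₂ + b * z₂ ^ 2 = 0 → z₁ = 0 ∧ z₂ = 0)
    (ν : F) (hν : ν ≠ 0) :
    ∃ g : Matrix.GeneralLinearGroup ((Fin m ⊕ Fin m) ⊕ Fin 2) F,
      ∀ v : (Fin m ⊕ Fin m) ⊕ Fin 2 → F,
      Cfsg.quadFormMinus m F a b
          (Matrix.mulVec (g : Matrix ((Fin m ⊕ Fin m) ⊕ Fin 2) ((Fin m ⊕ Fin m) ⊕ Fin 2) F) v)
        = ν * Cfsg.quadFormMinus m F a b v := by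
  classical
  have hB : 4 * b - a ^ 2 ≠ 0 := by
    intro hB
    have h3 := hab (-a) 2 (by linear_combination hB)
    exact h2 h3.2
  obtain ⟨s, t, hst⟩ := Cfsg.Agent.Helper6.exists_sq_add_sq h2 (one_ne_zero : (1 : F) ≠ 0) hB ν
  obtain ⟨w₁, hw₁⟩ : ∃ w₁ : F, w₁ = s - a * t := ⟨_, rfl⟩
  obtain ⟨w₂, hw₂⟩ : ∃ w₂ : F, w₂ = 2 * t := ⟨_, rfl⟩
  have hN : w₁ ^ 2 + a * w₁ * w₂ + b * w₂ ^ 2 = ν := by
    rw [hw₁, hw₂]
    linear_combination hst
  obtain ⟨A, hA⟩ : ∃ A : Matrix (Fin m ⊕ Fin m) (Fin m ⊕ Fin m) F,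
      A = Matrix.diagonal (Sum.elim (fun _ : Fin m => ν) (fun _ : Fin m => (1 : F))) := ⟨_, rfl⟩
  obtain ⟨D, hD⟩ : ∃ D : Matrix (Fin 2) (Fin 2) F,
      D = !![w₁, -b * w₂; w₂, w₁ + a * w₂] := ⟨_, rfl⟩
  have hdet : (Matrix.fromBlocks A 0 0 D).det ≠ 0 := by
    rw [Matrix.det_fromBlocks_zero₂₁, hA, hD, Matrix.det_diagonal, Matrix.det_fin_two_of]
    refine mul_ne_zero ?_ ?_
    · rw [Finset.prod_ne_zero_iff]
      intro k _
      rcases k with i | i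
      · exact hν
      · exact one_ne_zero
    · intro h0
      exact hν (by linear_combination h0 - hN)
  refine ⟨Matrix.GeneralLinearGroup.mkOfDetNeZero _ hdet, fun v => ?_⟩
  have hval : ((Matrix.GeneralLinearGroup.mkOfDetNeZero _ hdet :
      Matrix.GeneralLinearGroup ((Fin m ⊕ Fin m) ⊕ Fin 2) F) :
      Matrix ((Fin m ⊕ Fin m) ⊕ Fin 2) ((Fin m ⊕ Fin m) ⊕ Fin 2) F)
        = Matrix.fromBlocks A 0 0 D := rfl
  have e1 : ∀ i : Fin m, Matrix.mulVec (Matrix.fromBlocks A 0 0 D) v (Sum.inl (Sum.inl i))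
      = ν * v (Sum.inl (Sum.inl i)) := by
    intro i
    rw [Matrix.fromBlocks_mulVec, hA]
    simp [Matrix.mulVec_diagonal]
  have e2 : ∀ i : Fin m, Matrix.mulVec (Matrix.fromBlocks A 0 0 D) v (Sum.inl (Sum.inr i))
      = v (Sum.inl (Sum.inr i)) := by
    intro i
    rw [Matrix.fromBlocks_mulVec, hA]
    simp [Matrix.mulVec_diagonal]
  have e3 : Matrix.mulVec (Matrix.fromBlocks A 0 0 D) v (Sum.inr 0)
      = w₁ * v (Sum.inr 0) + -b * w₂ * v (Sum.inr 1) := by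
    rw [Matrix.fromBlocks_mulVec, hD]
    simp [dotProduct, Fin.sum_univ_two]
  have e4 : Matrix.mulVec (Matrix.fromBlocks A 0 0 D) v (Sum.inr 1)
      = w₂ * v (Sum.inr 0) + (w₁ + a * w₂) * v (Sum.inr 1) := by
    rw [Matrix.fromBlocks_mulVec, hD]
    simp [dotProduct, Fin.sum_univ_two]
  rw [hval]
  unfold Cfsg.quadFormMinus
  rw [e3, e4]
  have hsum : ∑ i : Fin m, Matrix.mulVec (Matrix.fromBlocks A 0 0 D) v (Sum.inl (Sum.inl i)) *
      Matrix.mulVec (Matrix.fromBlocks A 0 0 D) v (Sum.inl (Sum.inr i))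
      = ν * ∑ i : Fin m, v (Sum.inl (Sum.inl i)) * v (Sum.inl (Sum.inr i)) := by
    rw [Finset.mul_sum]
    refine Finset.sum_congr rfl (fun i _ => ?_)
    rw [e1, e2]
    ring
  rw [hsum]
  linear_combination (v (Sum.inr 0) ^ 2 + a * v (Sum.inr 0) * v (Sum.inr 1)
    + b * v (Sum.inr 1) ^ 2) * hN

end Cfsg.Agent.Helper5
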