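import Mathlib
import Cfsg.Agent.Helper5.PgoBase

/-!
The image of the conformal orthogonal group in the automorphism group of `PΩ(Q)` modulo the image
of the special orthogonal group is a Klein four group (even dimension, odd characteristic): the
two invariants are the square class of the multiplier and the sign `det / multiplier ^ (n / 2)`.
-/

set_option autoImplicit false

namespace Cfsg.Agent.Helper5

theorem klein_E : ∃ E : ℤˣ × ℤˣ →* Multiplicative (ZMod 2 × ZMod 2), Function.Bijective E := by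
  refine ⟨MonoidHom.mk' (fun t => Multiplicative.ofAdd
    ((if t.1 = 1 then (0 : ZMod 2) else 1), (if t.2 = 1 then (0 : ZMod 2) else 1)))
    (by decide), by decide⟩

section PgoKlein

variable {F : Type*} [Field F] {κ : Type} [Fintype κ] [DecidableEq κ]

theorem sim_det_sq (Q : QuadraticForm F (κ → F))
    (hQ : (QuadraticMap.polarBilin Q).Nondegenerate) (g : Matrix.GeneralLinearGroup κ F) (c : F)
    (hc : ∀ v, Q (Matrix.mulVec (g : Matrix κ κ F) v) = c * Q v) :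
    (g : Matrix κ κ F).det ^ 2 = c ^ Fintype.card κ := by
  classical
  have hsim : ∀ x y, QuadraticMap.polarBilin Q (glEquiv g x) (glEquiv g y)
      = c * QuadraticMap.polarBilin Q x y := by
    intro x y
    rw [glEquiv_apply, glEquiv_apply]
    exact sim_polar (⇑Q) g c hc x y
  obtain ⟨b, hb⟩ : ∃ b : Module.Basis κ F (κ → F), b = Pi.basisFun F κ := ⟨_, rfl⟩
  obtain ⟨b', hb'⟩ : ∃ b' : Module.Basis κ F (κ → F), b' = b.map (glEquiv g) := ⟨_, rfl⟩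
  have h1 := LinearMap.BilinForm.toMatrix_mul_basis_toMatrix (b := b) b'
    (QuadraticMap.polarBilin Q)
  have h2 : LinearMap.BilinForm.toMatrix b' (QuadraticMap.polarBilin Q)
      = c • LinearMap.BilinForm.toMatrix b (QuadraticMap.polarBilin Q) := by
    ext i j
    rw [LinearMap.BilinForm.toMatrix_apply, Matrix.smul_apply,
      LinearMap.BilinForm.toMatrix_apply, hb', Module.Basis.map_apply, Module.Basis.map_apply,
      hsim, smul_eq_mul]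
  have h3 : b.toMatrix b' = (g : Matrix κ κ F) := by
    ext i j
    rw [Module.Basis.toMatrix_apply, hb', Module.Basis.map_apply, glEquiv_apply, hb,
      Pi.basisFun_repr, Pi.basisFun_apply, Matrix.mulVec_single_one] <;> rfl
  have hdet := (LinearMap.BilinForm.nondegenerate_iff_det_ne_zero b).1 hQ
  rw [h2, h3] at h1
  have h4 := congrArg Matrix.det h1
  rw [Matrix.det_mul, Matrix.det_mul, Matrix.det_transpose, Matrix.det_smul] at h4
  have h5 : ((g : Matrix κ κ F).det ^ 2 - c ^ Fintype.card κ)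
      * (LinearMap.BilinForm.toMatrix b (QuadraticMap.polarBilin Q)).det = 0 := by
    linear_combination h4
  rcases mul_eq_zero.1 h5 with h | h
  · linear_combination h
  · exact absurd h hdet

theorem sim_mem_of (Qf : (κ → F) → F) (g : Matrix.GeneralLinearGroup κ F) (c : F) (hc0 : c ≠ 0)
    (hc : ∀ v, Qf (Matrix.mulVec (g : Matrix κ κ F) v) = c * Qf v) :
    g ∈ Cfsg.Geo.quadSimilarityGroup Qf :=
  show ∃ c : Fˣ, ∀ v, Qf (Matrix.mulVec (g : Matrix κ κ F) v) = (c : F) * Qf v from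
    ⟨Units.mk0 c hc0, fun v => by rw [Units.val_mk0]; exact hc v⟩

theorem mult_hom_exists (Qf : (κ → F) → F) (v₀ : κ → F) (hv₀ : Qf v₀ ≠ 0) :
    ∃ μ : ↥(Cfsg.Geo.quadSimilarityGroup Qf) →* Fˣ,
      ∀ (g : ↥(Cfsg.Geo.quadSimilarityGroup Qf)) (v : κ → F),
        Qf (Matrix.mulVec ((g : Matrix.GeneralLinearGroup κ F) : Matrix κ κ F) v) = (μ g : F) * Qf v := by
  have hex : ∀ g : ↥(Cfsg.Geo.quadSimilarityGroup Qf), ∃ c : Fˣ, ∀ v : κ → F,
      Qf (Matrix.mulVec ((g : Matrix.GeneralLinearGroup κ F) : Matrix κ κ F) v) = (c : F) * Qf v := fun g => g.2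
  choose μ hμ using hex
  refine ⟨MonoidHom.mk' μ ?_, hμ⟩
  intro a b
  apply Units.ext
  have h1 := hμ (a * b) v₀
  rw [Subgroup.coe_mul, Units.val_mul, ← Matrix.mulVec_mulVec, hμ a, hμ b] at h1
  rw [Units.val_mul]
  have h2 : ((μ (a * b) : F) - (μ a : F) * (μ b : F)) * Qf v₀ = 0 := by
    linear_combination -h1
  rcases mul_eq_zero.1 h2 with h | h
  · linear_combination h
  · exact absurd h hv₀

theorem sqchar_exists [Fintype F] : ∃ X : Fˣ →* ℤˣ, ∀ c : Fˣ, X c = 1 ↔ IsSquare (c : F) := by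
  classical
  refine ⟨(quadraticChar F).toUnitHom, fun c => ?_⟩
  rw [← quadraticChar_one_iff_isSquare c.ne_zero, ← MulChar.coe_toUnitHom, Units.val_eq_one]

theorem sign_hom {G : Type*} [Group G] (s : G →* Fˣ) (hs : ∀ g, s g = 1 ∨ s g = -1)
    (hne : (-1 : Fˣ) ≠ 1) : ∃ X : G →* ℤˣ, ∀ g, X g = 1 ↔ s g = 1 := by
  classical
  have hz : (-1 : ℤˣ) ≠ 1 := by decide
  refine ⟨MonoidHom.mk' (fun g => if s g = 1 then 1 else -1) ?_, fun g => ?_⟩
  · intro a b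
    rcases hs a with ha | ha <;> rcases hs b with hb | hb <;> simp [map_mul, ha, hb, hne]
  · change (if s g = 1 then (1 : ℤˣ) else -1) = 1 ↔ s g = 1
    by_cases h : s g = 1
    · simp [h]
    · simp [h, hz]

theorem scalar_gl (a : F) (ha : a ≠ 0) :
    ∃ z : Matrix.GeneralLinearGroup κ F, (z : Matrix κ κ F) = a • (1 : Matrix κ κ F) ∧ (∀ x, z * x = x * z) := by
  refine ⟨⟨a • 1, a⁻¹ • 1, ?_, ?_⟩, rfl, fun x => ?_⟩
  · rw [Matrix.smul_mul, Matrix.mul_smul, Matrix.one_mul, smul_smul, mul_inv_cancel₀ ha,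
      one_smul]
  · rw [Matrix.smul_mul, Matrix.mul_smul, Matrix.one_mul, smul_smul, inv_mul_cancel₀ ha,
      one_smul]
  · apply Units.ext
    rw [Units.val_mul, Units.val_mul]
    change (a • (1 : Matrix κ κ F)) * (x : Matrix κ κ F) = (x : Matrix κ κ F) * (a • (1 : Matrix κ κ F))
    rw [Matrix.smul_mul, Matrix.mul_smul, Matrix.one_mul, Matrix.mul_one]

set_option maxHeartbeats 3200000 in
/-- `PGO / PSO` is a Klein four group. -/
theorem pgo_klein [Fintype F] (h2 : (2 : F) ≠ 0) (Q : QuadraticForm F (κ → F))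
    (hQ : (QuadraticMap.polarBilin Q).Nondegenerate) (m : ℕ) (hκ : Fintype.card κ = 2 * m)
    (i₀ i₁ : κ) (hi : i₀ ≠ i₁)
    (hperf : commutator ↥(commutator ↥(Cfsg.isometryGroup F ⇑Q)) = ⊤)
    (hcentG : ∀ z : Matrix.GeneralLinearGroup κ F,
      (∀ g ∈ commutator ↥(Cfsg.isometryGroup F ⇑Q), z * (g : Matrix.GeneralLinearGroup κ F) = (g : Matrix.GeneralLinearGroup κ F) * z) →
      (∀ x y, QuadraticMap.polar (⇑Q) x y = 0 →
        QuadraticMap.polar (⇑Q) (Matrix.mulVec (z : Matrix κ κ F) x)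
          (Matrix.mulVec (z : Matrix κ κ F) y) = 0) →
      ∃ a : F, (z : Matrix κ κ F) = a • (1 : Matrix κ κ F))
    (hδ : ∃ (g : Matrix.GeneralLinearGroup κ F) (c : F), ¬ IsSquare c ∧
      ∀ v, Q (Matrix.mulVec (g : Matrix κ κ F) v) = c * Q v) :
    ∃ φ : ↥(Cfsg.pgoAut F ⇑Q) →* Multiplicative (ZMod 2 × ZMod 2), Function.Surjective φ ∧
      φ.ker = (Cfsg.psoAut F ⇑Q).subgroupOf (Cfsg.pgoAut F ⇑Q) := by
  classical
  obtain ⟨v₀, hv₀⟩ := exists_norm_valK h2 i₀ i₁ hi Q hQ 1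
  have hv₀' : Q v₀ ≠ 0 := by
    rw [hv₀]
    exact one_ne_zero
  obtain ⟨μ, hμ⟩ := mult_hom_exists (⇑Q) v₀ hv₀'
  have hμu : ∀ (g : ↥(Cfsg.Geo.quadSimilarityGroup (⇑Q))) (c : F),
      (∀ v, Q (Matrix.mulVec ((g : Matrix.GeneralLinearGroup κ F) : Matrix κ κ F) v) = c * Q v) → (μ g : F) = c := by
    intro g c hc
    have h1 := hμ g v₀
    rw [hc v₀, hv₀, mul_one, mul_one] at h1
    exact h1.symm
  obtain ⟨X, hX⟩ := sqchar_exists (F := F)
  have hdich : ∀ g : ↥(Cfsg.Geo.quadSimilarityGroup (⇑Q)), ((g : Matrix.GeneralLinearGroup κ F) : Matrix κ κ F).det = (μ g : F) ^ m ∨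
      ((g : Matrix.GeneralLinearGroup κ F) : Matrix κ κ F).det = -(μ g : F) ^ m := by
    intro g
    have h1 := sim_det_sq Q hQ (g : Matrix.GeneralLinearGroup κ F) (μ g : F) (hμ g)
    rw [hκ, pow_mul'] at h1
    have h3 : (((g : Matrix.GeneralLinearGroup κ F) : Matrix κ κ F).det - (μ g : F) ^ m)
        * (((g : Matrix.GeneralLinearGroup κ F) : Matrix κ κ F).det + (μ g : F) ^ m) = 0 := by
      linear_combination h1
    rcases mul_eq_zero.1 h3 with h | h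
    · left
      linear_combination h
    · right
      linear_combination h
  obtain ⟨D, hD⟩ : ∃ D : ↥(Cfsg.Geo.quadSimilarityGroup (⇑Q)) →* Fˣ, ∀ g,
      D g = Matrix.GeneralLinearGroup.det (g : Matrix.GeneralLinearGroup κ F) * ((μ g) ^ m)⁻¹ := by
    refine ⟨MonoidHom.mk' (fun g => Matrix.GeneralLinearGroup.det (g : Matrix.GeneralLinearGroup κ F)
      * ((μ g) ^ m)⁻¹) ?_, fun g => rfl⟩
    intro a b
    rw [Subgroup.coe_mul, map_mul, map_mul, mul_pow, mul_inv, mul_mul_mul_comm]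
  have hD1 : ∀ g : ↥(Cfsg.Geo.quadSimilarityGroup (⇑Q)), D g = 1 ↔ ((g : Matrix.GeneralLinearGroup κ F) : Matrix κ κ F).det = (μ g : F) ^ m := by
    intro g
    rw [hD, mul_inv_eq_one, Units.ext_iff, Matrix.GeneralLinearGroup.val_det_apply,
      Units.val_pow_eq_pow_val]
  have hDpm : ∀ g : ↥(Cfsg.Geo.quadSimilarityGroup (⇑Q)), D g = 1 ∨ D g = -1 := by
    intro g
    rcases hdich g with h | h
    · left
      exact (hD1 g).2 h
    · right
      rw [hD]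
      apply Units.ext
      have hne : (μ g : F) ^ m ≠ 0 := pow_ne_zero _ (μ g).ne_zero
      rw [Units.val_mul, Matrix.GeneralLinearGroup.val_det_apply, h, Units.val_inv_eq_inv_val,
        Units.val_pow_eq_pow_val, Units.val_neg, Units.val_one, neg_mul, mul_inv_cancel₀ hne]
  have hneF : (-1 : Fˣ) ≠ 1 := by
    intro h
    have h3 := congrArg Units.val h
    rw [Units.val_neg, Units.val_one] at h3
    apply h2
    linear_combination -h3
  obtain ⟨X₂, hX₂⟩ := sign_hom D hDpm hneF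
  obtain ⟨Ψ, hΨ1, hΨ2⟩ : ∃ Ψ : ↥(Cfsg.Geo.quadSimilarityGroup (⇑Q)) →* ℤˣ × ℤˣ,
      (∀ g, (Ψ g).1 = X (μ g)) ∧ (∀ g, (Ψ g).2 = X₂ g) :=
    ⟨(X.comp μ).prod X₂, fun g => rfl, fun g => rfl⟩
  have hscal : ∀ (g g' : ↥(Cfsg.Geo.quadSimilarityGroup (⇑Q))) (a : F),
      (((g : Matrix.GeneralLinearGroup κ F)⁻¹ * (g' : Matrix.GeneralLinearGroup κ F) : Matrix.GeneralLinearGroup κ F) : Matrix κ κ F) = a • (1 : Matrix κ κ F) → Ψ g = Ψ g' := by
    intro g g' a ha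
    have hk : Ψ (g⁻¹ * g') = 1 := by
      have hmul : (μ (g⁻¹ * g') : F) = a * a := by
        apply hμu
        intro v
        rw [Subgroup.coe_mul, Subgroup.coe_inv, ha, Matrix.smul_mulVec, Matrix.one_mulVec,
          QuadraticMap.map_smul, smul_eq_mul]
      have hdet : (((g⁻¹ * g' : ↥(Cfsg.Geo.quadSimilarityGroup (⇑Q))) : Matrix.GeneralLinearGroup κ F) : Matrix κ κ F).det = (μ (g⁻¹ * g') : F) ^ m := by
        rw [hmul, Subgroup.coe_mul, Subgroup.coe_inv, ha, Matrix.det_smul, Matrix.det_one,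
          mul_one, hκ, ← pow_two, ← pow_mul]
      apply Prod.ext
      · show (Ψ (g⁻¹ * g')).1 = 1
        rw [hΨ1, hX]
        exact ⟨a, hmul⟩
      · show (Ψ (g⁻¹ * g')).2 = 1
        rw [hΨ2, hX₂, hD1]
        exact hdet
    have h5 : Ψ g' = Ψ g * Ψ (g⁻¹ * g') := by
      rw [← map_mul, mul_inv_cancel_left]
    rw [h5, hk, mul_one]
  have hOmem : ∀ h : ↥(Cfsg.isometryGroup F ⇑Q), (h : Matrix.GeneralLinearGroup κ F) ∈ Cfsg.Geo.quadSimilarityGroup (⇑Q) := fun h =>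
    sim_mem_of (⇑Q) (h : Matrix.GeneralLinearGroup κ F) 1 one_ne_zero (fun v => by
      rw [one_mul]
      exact (Cfsg.Agent.Helper6.isometry_mem_iff (⇑Q) _).1 h.2 v)
  have hOμ : ∀ h : ↥(Cfsg.isometryGroup F ⇑Q), (μ ⟨(h : Matrix.GeneralLinearGroup κ F), hOmem h⟩ : F) = 1 := fun h =>
    hμu _ 1 (fun v => by
      rw [one_mul]
      exact (Cfsg.Agent.Helper6.isometry_mem_iff (⇑Q) _).1 h.2 v)
  have hO1 : ∀ h : ↥(Cfsg.isometryGroup F ⇑Q), (Ψ ⟨(h : Matrix.GeneralLinearGroup κ F), hOmem h⟩).1 = 1 := by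
    intro h
    rw [hΨ1, hX, hOμ]
    exact ⟨1, (mul_one 1).symm⟩
  have hO2 : ∀ h : ↥(Cfsg.isometryGroup F ⇑Q), (Ψ ⟨(h : Matrix.GeneralLinearGroup κ F), hOmem h⟩).2 = 1 ↔
      h ∈ Cfsg.specialIsometryGroup F ⇑Q := by
    intro h
    rw [hΨ2, hX₂, hD1, hOμ, one_pow, mem_SO_iff]
  obtain ⟨δ, cδ, hcδ, hδQ⟩ := hδ
  have hcδ0 : cδ ≠ 0 := by
    rintro rfl
    exact hcδ IsSquare.zero
  have hδmem : δ ∈ Cfsg.Geo.quadSimilarityGroup (⇑Q) := sim_mem_of (⇑Q) δ cδ hcδ0 hδQ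
  have hδ1 : (Ψ ⟨δ, hδmem⟩).1 = -1 := by
    rcases Int.units_eq_one_or (Ψ ⟨δ, hδmem⟩).1 with h | h
    · exfalso
      rw [hΨ1, hX, hμu ⟨δ, hδmem⟩ cδ hδQ] at h
      exact hcδ h
    · exact h
  have hch : ∀ β : ↥(Cfsg.pgoAut F ⇑Q), ∃ g : ↥(Cfsg.Geo.quadSimilarityGroup (⇑Q)), IndG ⇑Q (g : Matrix.GeneralLinearGroup κ F) (β : MulAut (Cfsg.POmega F ⇑Q)) := by
    intro β
    obtain ⟨g, hg, hgβ⟩ := pgoAut_mem ⇑Q β.1 β.2
    exact ⟨⟨g, hg⟩, hgβ⟩
  choose G hG using hch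
  have hind : ∀ (β : MulAut (Cfsg.POmega F ⇑Q)) (g g' : ↥(Cfsg.Geo.quadSimilarityGroup (⇑Q))), IndG ⇑Q (g : Matrix.GeneralLinearGroup κ F) β →
      IndG ⇑Q (g' : Matrix.GeneralLinearGroup κ F) β → Ψ g = Ψ g' := by
    intro β g g' h h'
    obtain ⟨a, ha⟩ := indG_same Q hperf hcentG (g : Matrix.GeneralLinearGroup κ F) (g' : Matrix.GeneralLinearGroup κ F) g.2 g'.2 β h h'
    exact hscal g g' a ha
  obtain ⟨Φ, hΦ⟩ : ∃ Φ : ↥(Cfsg.pgoAut F ⇑Q) →* ℤˣ × ℤˣ, ∀ β, Φ β = Ψ (G β) := by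
    refine ⟨MonoidHom.mk' (fun β => Ψ (G β)) ?_, fun β => rfl⟩
    intro β₁ β₂
    rw [← map_mul]
    apply hind ((β₁ * β₂ : ↥(Cfsg.pgoAut F ⇑Q)) : MulAut (Cfsg.POmega F ⇑Q)) (G (β₁ * β₂)) (G β₁ * G β₂) (hG (β₁ * β₂))
    rw [Subgroup.coe_mul, Subgroup.coe_mul]
    exact indG_mul ⇑Q _ _ (G β₂).2 _ _ (hG β₁) (hG β₂)
  have hΦval : ∀ (β : ↥(Cfsg.pgoAut F ⇑Q)) (g : ↥(Cfsg.Geo.quadSimilarityGroup (⇑Q))), IndG ⇑Q (g : Matrix.GeneralLinearGroup κ F) (β : MulAut (Cfsg.POmega F ⇑Q)) → Φ β = Ψ g := by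
    intro β g h
    rw [hΦ]
    exact hind β.1 (G β) g (hG β) h
  obtain ⟨E, hE⟩ := klein_E
  have hΦsurj : Function.Surjective Φ := by
    obtain ⟨r, hr⟩ : ∃ r : ↥(Cfsg.isometryGroup F ⇑Q), r = reflEl Q v₀ hv₀' := ⟨_, rfl⟩
    have hrdet : ((r : Matrix.GeneralLinearGroup κ F) : Matrix κ κ F).det = -1 := by
      rw [hr]
      exact reflEl_det Q v₀ hv₀'
    obtain ⟨β₁, hβ₁⟩ := indO_exists ⇑Q r
    have hβ₁G : IndG ⇑Q (r : Matrix.GeneralLinearGroup κ F) β₁ := indG_of_indO ⇑Q r β₁ hβ₁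
    have hβ₁mem : β₁ ∈ Cfsg.pgoAut F ⇑Q := pgoAut_of ⇑Q _ (hOmem r) β₁ hβ₁G
    obtain ⟨β₂, hβ₂⟩ := indG_exists ⇑Q δ hδmem
    have hβ₂mem : β₂ ∈ Cfsg.pgoAut F ⇑Q := pgoAut_of ⇑Q δ hδmem β₂ hβ₂
    have v1 : Φ ⟨β₁, hβ₁mem⟩ = (1, -1) := by
      rw [hΦval ⟨β₁, hβ₁mem⟩ ⟨(r : Matrix.GeneralLinearGroup κ F), hOmem r⟩ hβ₁G]
      apply Prod.ext
      · exact hO1 r
      · show (Ψ ⟨(r : Matrix.GeneralLinearGroup κ F), hOmem r⟩).2 = -1
        rcases Int.units_eq_one_or (Ψ ⟨(r : Matrix.GeneralLinearGroup κ F), hOmem r⟩).2 with h | h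
        · exfalso
          have h6 := (hO2 r).1 h
          rw [mem_SO_iff, hrdet] at h6
          apply h2
          linear_combination -h6
        · exact h
    have v2 : (Φ ⟨β₂, hβ₂mem⟩).1 = -1 := by
      rw [hΦval ⟨β₂, hβ₂mem⟩ ⟨δ, hδmem⟩ hβ₂]
      exact hδ1
    have hcases : ∀ (ε : ℤˣ) (t : ℤˣ × ℤˣ),
        t = 1 ∨ t = (1, -1) ∨ t = (-1, ε) ∨ t = (1, -1) * (-1, ε) := by decide
    obtain ⟨ε, hε⟩ : ∃ ε, Φ ⟨β₂, hβ₂mem⟩ = (-1, ε) :=
      ⟨(Φ ⟨β₂, hβ₂mem⟩).2, Prod.ext v2 rfl⟩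
    intro t
    rcases hcases ε t with h | h | h | h
    · exact ⟨1, by rw [h, map_one]⟩
    · exact ⟨⟨β₁, hβ₁mem⟩, by rw [h, v1]⟩
    · exact ⟨⟨β₂, hβ₂mem⟩, by rw [h, hε]⟩
    · exact ⟨⟨β₁, hβ₁mem⟩ * ⟨β₂, hβ₂mem⟩, by rw [h, map_mul, v1, hε]⟩
  refine ⟨E.comp Φ, ?_, ?_⟩
  · intro y
    obtain ⟨t, rfl⟩ := hE.surjective y
    obtain ⟨β, rfl⟩ := hΦsurj t
    exact ⟨β, rfl⟩
  · ext β
    rw [MonoidHom.mem_ker, Subgroup.mem_subgroupOf, MonoidHom.comp_apply]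
    have hE1 : E (Φ β) = 1 ↔ Φ β = 1 := by
      constructor
      · intro h
        apply hE.injective
        rw [h, map_one]
      · intro h
        rw [h, map_one]
    rw [hE1]
    constructor
    · intro h
      have h1 : (Ψ (G β)).1 = 1 := by
        rw [← hΦ, h] <;> rfl
      have h2' : (Ψ (G β)).2 = 1 := by
        rw [← hΦ, h] <;> rfl
      rw [hΨ1, hX] at h1
      obtain ⟨a, ha⟩ := h1
      have ha0 : a ≠ 0 := by
        rintro rfl
        rw [mul_zero] at ha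
        exact (μ (G β)).ne_zero ha
      rw [hΨ2, hX₂, hD1, ha] at h2'
      obtain ⟨z, hz, hzc⟩ := scalar_gl (κ := κ) a⁻¹ (inv_ne_zero ha0)
      have hiso : z * (G β : Matrix.GeneralLinearGroup κ F) ∈ Cfsg.isometryGroup F ⇑Q := by
        rw [Cfsg.Agent.Helper6.isometry_mem_iff]
        intro u
        rw [Units.val_mul, ← Matrix.mulVec_mulVec, hz, Matrix.smul_mulVec, Matrix.one_mulVec,
          QuadraticMap.map_smul, hμ, ha, smul_eq_mul]
        field_simp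
      have hSO : (⟨z * (G β : Matrix.GeneralLinearGroup κ F), hiso⟩ : ↥(Cfsg.isometryGroup F ⇑Q)) ∈ Cfsg.specialIsometryGroup F ⇑Q := by
        rw [mem_SO_iff]
        change ((z : Matrix κ κ F) * (((G β : ↥(Cfsg.Geo.quadSimilarityGroup (⇑Q))) : Matrix.GeneralLinearGroup κ F) : Matrix κ κ F)).det = 1
        rw [Matrix.det_mul, hz, Matrix.det_smul, Matrix.det_one, mul_one, h2', hκ, ← pow_two,
          ← pow_mul, ← mul_pow, inv_mul_cancel₀ ha0, one_pow]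
      have hI : IndG ⇑Q (z * (G β : Matrix.GeneralLinearGroup κ F)) (β : MulAut (Cfsg.POmega F ⇑Q)) :=
        indG_central ⇑Q z _ hzc _ (hG β)
      exact psoAut_of ⇑Q ⟨_, hiso⟩ hSO _ (indO_of_indG ⇑Q ⟨_, hiso⟩ _ hI)
    · intro h
      obtain ⟨g, hg, hgβ⟩ := psoAut_mem ⇑Q _ h
      rw [hΦval β ⟨(g : Matrix.GeneralLinearGroup κ F), hOmem g⟩ (indG_of_indO ⇑Q g _ hgβ)]
      apply Prod.ext
      · exact hO1 g
      · exact (hO2 g).2 hg

end PgoKlein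

end Cfsg.Agent.Helper5
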