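import Mathlib
import Cfsg.Agent.Helper5.PgoKlein
import Cfsg.Agent.S0206

/-!
The image of the conformal orthogonal group in `Aut(PΩ(Q))` modulo the inner automorphisms
(even dimension, odd characteristic): a Klein four group when `-1 ∉ Ω`, dihedral of order `8`
when `-1 ∈ Ω`.
-/

set_option autoImplicit false

namespace Cfsg.Agent.Helper5

theorem nat_four_of (n : ℕ) (h : 2 * n ∣ 8) (h2 : ¬ n ∣ 2) : n = 4 := by
  have h4 : n ∣ 4 := Nat.dvd_of_mul_dvd_mul_left (by norm_num : 0 < 2) (show 2 * n ∣ 2 * 4 from h)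
  have hle : n ≤ 4 := Nat.le_of_dvd (by norm_num) h4
  interval_cases n
  · exact absurd h4 (by decide)
  · exact absurd (by decide : 1 ∣ 2) h2
  · exact absurd (by decide : 2 ∣ 2) h2
  · exact absurd h4 (by decide)
  · rfl

/-- A quotient of order `8` generated by two involutions whose product is not an involution is
dihedral. -/
theorem d8_hom {P : Type*} [Group P] (N : Subgroup P) [N.Normal] (h8 : N.index = 8)
    (x y : P) (hx : x * x ∈ N) (hy : y * y ∈ N) (hxy : x * y * (x * y) ∉ N) :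
    ∃ φ : P →* DihedralGroup 4, Function.Surjective φ ∧ φ.ker = N := by
  classical
  have : N.FiniteIndex := ⟨by rw [h8]; norm_num⟩
  have : Finite (P ⧸ N) := Subgroup.finite_quotient_of_finiteIndex
  have hcard : Nat.card (P ⧸ N) = 8 := by rw [← Subgroup.index_eq_card, h8]
  obtain ⟨a, ha⟩ : ∃ a : P ⧸ N, a = QuotientGroup.mk x := ⟨_, rfl⟩
  obtain ⟨b, hb⟩ : ∃ b : P ⧸ N, b = QuotientGroup.mk y := ⟨_, rfl⟩
  have haa : a * a = 1 := by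
    rw [ha, ← QuotientGroup.mk_mul]
    exact (QuotientGroup.eq_one_iff _).2 hx
  have hbb : b * b = 1 := by
    rw [hb, ← QuotientGroup.mk_mul]
    exact (QuotientGroup.eq_one_iff _).2 hy
  have hab : a * b * (a * b) ≠ 1 := by
    rw [ha, hb, ← QuotientGroup.mk_mul, ← QuotientGroup.mk_mul]
    intro h
    exact hxy ((QuotientGroup.eq_one_iff _).1 h)
  have ha1 : a ≠ 1 := by
    intro h
    apply hab
    rw [h, one_mul, hbb]
  have hb1 : b ≠ 1 := by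
    intro h
    apply hab
    rw [h, mul_one, haa]
  have hne : a ≠ b := by
    intro h
    apply hab
    rw [← h, haa, one_mul]
  have : Fact (Nat.Prime 2) := ⟨Nat.prime_two⟩
  have hoa : orderOf a = 2 := orderOf_eq_prime (by rw [pow_two]; exact haa) ha1
  have hob : orderOf b = 2 := orderOf_eq_prime (by rw [pow_two]; exact hbb) hb1
  obtain ⟨e₀⟩ := Cfsg.Agent.S0206.result a b hoa hob hne
  obtain ⟨n, hn⟩ : ∃ n, n = orderOf (a * b) := ⟨_, rfl⟩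
  rw [← hn] at e₀
  have hc : Nat.card ↥(Subgroup.closure ({a, b} : Set (P ⧸ N))) = 2 * n := by
    rw [Nat.card_congr e₀.toEquiv, DihedralGroup.nat_card]
  have hdvd : 2 * n ∣ 8 := by
    rw [← hc, ← hcard]
    exact Subgroup.card_subgroup_dvd_card _
  have hn2 : ¬ n ∣ 2 := by
    rw [hn, orderOf_dvd_iff_pow_eq_one, pow_two]
    exact hab
  have hn4 : n = 4 := nat_four_of n hdvd hn2
  rw [hn4] at e₀ hc
  have htop : Subgroup.closure ({a, b} : Set (P ⧸ N)) = ⊤ := by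
    apply Subgroup.eq_top_of_card_eq
    rw [hc, hcard]
  obtain ⟨e, -⟩ : ∃ e : (P ⧸ N) ≃* DihedralGroup 4, True :=
    ⟨(Subgroup.topEquiv.symm.trans (MulEquiv.subgroupCongr htop.symm)).trans e₀, trivial⟩
  refine ⟨e.toMonoidHom.comp (QuotientGroup.mk' N), ?_, ?_⟩
  · intro d
    obtain ⟨q, rfl⟩ := e.surjective d
    obtain ⟨p, rfl⟩ := QuotientGroup.mk_surjective q
    exact ⟨p, rfl⟩
  · ext p
    rw [MonoidHom.mem_ker]
    change e (QuotientGroup.mk p) = 1 ↔ p ∈ N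
    constructor
    · intro h
      have h' : e (QuotientGroup.mk p) = e 1 := by rw [h, map_one]
      exact (QuotientGroup.eq_one_iff _).1 (e.injective h')
    · intro h
      rw [(QuotientGroup.eq_one_iff _).2 h, map_one]

section PgoDih

variable {F : Type*} [Field F] {κ : Type} [Fintype κ] [DecidableEq κ]

theorem indG_unique (Qf : (κ → F) → F) (g : Matrix.GeneralLinearGroup κ F)
    (hg : g ∈ Cfsg.Geo.quadSimilarityGroup Qf) (β β' : MulAut (Cfsg.POmega F Qf))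
    (h : IndG Qf g β) (h' : IndG Qf g β') : β = β' := by
  apply MulEquiv.ext
  intro x
  obtain ⟨s, rfl⟩ := QuotientGroup.mk_surjective x
  obtain ⟨t, ht⟩ := sim_conj_omega Qf g hg s.1 s.2
  rw [h s t ht, h' s t ht]

theorem pso_le_pgo (Qf : (κ → F) → F) : Cfsg.psoAut F Qf ≤ Cfsg.pgoAut F Qf := by
  intro b hb
  obtain ⟨g, -, hgb⟩ := psoAut_mem Qf b hb
  refine pgoAut_of Qf (g : Matrix.GeneralLinearGroup κ F) ?_ b (indG_of_indO Qf g b hgb)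
  exact sim_mem_of Qf (g : Matrix.GeneralLinearGroup κ F) 1 one_ne_zero (fun v => by
    rw [one_mul]
    exact (Cfsg.Agent.Helper6.isometry_mem_iff Qf _).1 g.2 v)

theorem indO_conj (Qf : (κ → F) → F) (ω : ↥(commutator ↥(Cfsg.isometryGroup F Qf))) :
    IndO Qf (ω : ↥(Cfsg.isometryGroup F Qf))
      (MulAut.conj (QuotientGroup.mk ω : Cfsg.POmega F Qf)) := by
  intro s
  have e : MulAut.conjNormal (ω : ↥(Cfsg.isometryGroup F Qf)) s = ω * s * ω⁻¹ :=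
    Subtype.ext ((MulAut.conjNormal_apply (ω : ↥(Cfsg.isometryGroup F Qf)) s).trans rfl)
  rw [MulAut.conj_apply, e] <;> rfl

theorem inn_le_pso [Fintype F] (h2 : (2 : F) ≠ 0) (Q : QuadraticForm F (κ → F))
    (hQ : (QuadraticMap.polarBilin Q).Nondegenerate) (i₀ i₁ : κ) (hi : i₀ ≠ i₁) :
    Cfsg.Inn (Cfsg.POmega F ⇑Q) ≤ Cfsg.psoAut F ⇑Q := by
  rintro b ⟨w, rfl⟩
  obtain ⟨ω, rfl⟩ := QuotientGroup.mk_surjective w
  refine psoAut_of ⇑Q (ω : ↥(Cfsg.isometryGroup F ⇑Q)) ?_ _ (indO_conj ⇑Q ω)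
  rw [mem_SO_iff]
  exact ((omega_mem_iff h2 i₀ i₁ hi Q hQ _).1 ω.2).2

/-- An isometry inducing an inner automorphism of `PΩ` lies in `Ω` (when `-1 ∈ Ω`). -/
theorem inn_indO_mem (Q : QuadraticForm F (κ → F))
    (hperf : commutator ↥(commutator ↥(Cfsg.isometryGroup F ⇑Q)) = ⊤)
    (hcent : ∀ z : ↥(Cfsg.isometryGroup F ⇑Q),
      (∀ g ∈ commutator ↥(Cfsg.isometryGroup F ⇑Q), g * z = z * g) →
      ∃ a : F, a * a = 1 ∧
        ((z : Matrix.GeneralLinearGroup κ F) : Matrix κ κ F) = a • (1 : Matrix κ κ F))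
    (hneg : ∃ g : ↥(Cfsg.isometryGroup F ⇑Q), g ∈ Cfsg.Omega F ⇑Q ∧
        ((g : Matrix.GeneralLinearGroup κ F) : Matrix κ κ F) = -1)
    (g₀ : ↥(Cfsg.isometryGroup F ⇑Q)) (β₀ : MulAut (Cfsg.POmega F ⇑Q))
    (hβ₀ : IndO ⇑Q g₀ β₀) (hβ : β₀ ∈ Cfsg.Inn (Cfsg.POmega F ⇑Q)) :
    g₀ ∈ commutator ↥(Cfsg.isometryGroup F ⇑Q) := by
  obtain ⟨z, hzin, hzm⟩ := hneg
  obtain ⟨w, hw⟩ := hβ
  obtain ⟨ω, rfl⟩ := QuotientGroup.mk_surjective w
  obtain ⟨h, hh⟩ : ∃ h : ↥(Cfsg.isometryGroup F ⇑Q),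
      h = (ω : ↥(Cfsg.isometryGroup F ⇑Q))⁻¹ * g₀ := ⟨_, rfl⟩
  obtain ⟨c, hc⟩ : ∃ c : ↥(commutator ↥(Cfsg.isometryGroup F ⇑Q)) ≃*
      ↥(commutator ↥(Cfsg.isometryGroup F ⇑Q)), c = MulAut.conjNormal h := ⟨_, rfl⟩
  have e : ∀ s : ↥(commutator ↥(Cfsg.isometryGroup F ⇑Q)),
      c s = ω⁻¹ * MulAut.conjNormal g₀ s * ω := by
    intro s
    apply Subtype.ext
    rw [hc, hh, MulAut.conjNormal_apply, Subgroup.coe_mul, Subgroup.coe_mul,
      Subgroup.coe_inv, MulAut.conjNormal_apply]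
    group
  have key : ∀ s : ↥(commutator ↥(Cfsg.isometryGroup F ⇑Q)),
      (QuotientGroup.mk (c s) : Cfsg.POmega F ⇑Q) = QuotientGroup.mk s := by
    intro s
    have h1 : (QuotientGroup.mk (MulAut.conjNormal g₀ s) : Cfsg.POmega F ⇑Q)
        = QuotientGroup.mk ω * QuotientGroup.mk s * (QuotientGroup.mk ω)⁻¹ := by
      rw [← hβ₀ s, ← hw, MulAut.conj_apply]
    rw [e s, QuotientGroup.mk_mul, QuotientGroup.mk_mul, QuotientGroup.mk_inv, h1]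
    group
  have hd : ∀ s : ↥(commutator ↥(Cfsg.isometryGroup F ⇑Q)),
      s⁻¹ * c s ∈ Subgroup.center ↥(commutator ↥(Cfsg.isometryGroup F ⇑Q)) :=
    fun s => QuotientGroup.eq.1 (key s).symm
  have hfix : ∀ s : ↥(commutator ↥(Cfsg.isometryGroup F ⇑Q)), c s = s :=
    fun s => perfect_fix hperf c hd s
  have hcomm : ∀ g ∈ commutator ↥(Cfsg.isometryGroup F ⇑Q), g * h = h * g := by
    intro g hg
    have h7 := congrArg Subtype.val (hfix ⟨g, hg⟩)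
    rw [hc, MulAut.conjNormal_apply] at h7
    exact (mul_inv_eq_iff_eq_mul.1 h7).symm
  obtain ⟨a, haa, ham⟩ := hcent h hcomm
  have hhΩ : h ∈ commutator ↥(Cfsg.isometryGroup F ⇑Q) := by
    have h5 : (a - 1) * (a + 1) = 0 := by linear_combination haa
    rcases mul_eq_zero.1 h5 with h6 | h6
    · have e1 : h = 1 := by
        apply Subtype.ext
        apply Units.ext
        rw [ham, sub_eq_zero.1 h6, one_smul] <;> rfl
      rw [e1]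
      exact Subgroup.one_mem _
    · have e1 : h = z := by
        apply Subtype.ext
        apply Units.ext
        rw [ham, hzm, eq_neg_of_add_eq_zero_left h6, neg_smul, one_smul]
      rw [e1]
      exact hzin
  have e2 : g₀ = (ω : ↥(Cfsg.isometryGroup F ⇑Q)) * h := by
    rw [hh]
    group
  rw [e2]
  exact Subgroup.mul_mem _ ω.2 hhΩ

set_option maxHeartbeats 3200000 in
/-- `PGO / PΩ` is dihedral of order `8` when `-1 ∈ Ω`. -/
theorem pgo_dih [Fintype F] (h2 : (2 : F) ≠ 0) (Q : QuadraticForm F (κ → F))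
    (hQ : (QuadraticMap.polarBilin Q).Nondegenerate) (i₀ i₁ : κ) (hi : i₀ ≠ i₁)
    (hperf : commutator ↥(commutator ↥(Cfsg.isometryGroup F ⇑Q)) = ⊤)
    (hcent : ∀ z : ↥(Cfsg.isometryGroup F ⇑Q),
      (∀ g ∈ commutator ↥(Cfsg.isometryGroup F ⇑Q), g * z = z * g) →
      ∃ a : F, a * a = 1 ∧
        ((z : Matrix.GeneralLinearGroup κ F) : Matrix κ κ F) = a • (1 : Matrix κ κ F))
    (hneg : ∃ g : ↥(Cfsg.isometryGroup F ⇑Q), g ∈ Cfsg.Omega F ⇑Q ∧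
        ((g : Matrix.GeneralLinearGroup κ F) : Matrix κ κ F) = -1)
    (h8 : (Cfsg.Inn (Cfsg.POmega F ⇑Q)).relIndex (Cfsg.pgoAut F ⇑Q) = 8)
    (hγ : ∃ (g : Matrix.GeneralLinearGroup κ F) (c a : F), ¬ IsSquare c ∧
      (∀ v, Q (Matrix.mulVec (g : Matrix κ κ F) v) = c * Q v) ∧
      ((g * g : Matrix.GeneralLinearGroup κ F) : Matrix κ κ F) = a • (1 : Matrix κ κ F)) :
    ∃ φ : ↥(Cfsg.pgoAut F ⇑Q) →* DihedralGroup 4, Function.Surjective φ ∧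
      φ.ker = (Cfsg.Inn (Cfsg.POmega F ⇑Q)).subgroupOf (Cfsg.pgoAut F ⇑Q) := by
  classical
  obtain ⟨γ, c, a, hc, hγQ, hγγ⟩ := hγ
  have hc0 : c ≠ 0 := by
    rintro rfl
    exact hc IsSquare.zero
  have hγmem : γ ∈ Cfsg.Geo.quadSimilarityGroup (⇑Q) := sim_mem_of (⇑Q) γ c hc0 hγQ
  obtain ⟨v₀, hv₀⟩ := exists_norm_valK h2 i₀ i₁ hi Q hQ 1
  have hv₀' : Q v₀ ≠ 0 := by
    rw [hv₀]
    exact one_ne_zero
  obtain ⟨r, hr⟩ : ∃ r : ↥(Cfsg.isometryGroup F ⇑Q), r = reflEl Q v₀ hv₀' := ⟨_, rfl⟩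
  have hract : ActsRefl Q r v₀ := by
    rw [hr]
    exact actsRefl_reflEl Q v₀ hv₀'
  have hrr : r * r = 1 := by
    rw [hr]
    exact reflEl_sq Q v₀ hv₀'
  have hOmem : ∀ h : ↥(Cfsg.isometryGroup F ⇑Q),
      (h : Matrix.GeneralLinearGroup κ F) ∈ Cfsg.Geo.quadSimilarityGroup (⇑Q) := fun h =>
    sim_mem_of (⇑Q) (h : Matrix.GeneralLinearGroup κ F) 1 one_ne_zero (fun v => by
      rw [one_mul]
      exact (Cfsg.Agent.Helper6.isometry_mem_iff (⇑Q) _).1 h.2 v)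
  obtain ⟨r', hr'⟩ : ∃ r' : ↥(Cfsg.isometryGroup F ⇑Q),
      (r' : Matrix.GeneralLinearGroup κ F) = γ * (r : Matrix.GeneralLinearGroup κ F) * γ⁻¹ :=
    ⟨⟨γ * (r : Matrix.GeneralLinearGroup κ F) * γ⁻¹,
      sim_conj_mem (⇑Q) γ hγmem (r : Matrix.GeneralLinearGroup κ F) r.2⟩, rfl⟩
  obtain ⟨w, hw⟩ : ∃ w : κ → F, w = Matrix.mulVec (γ : Matrix κ κ F) v₀ := ⟨_, rfl⟩
  have hQw : Q w = c := by rw [hw, hγQ, hv₀, mul_one]
  have hQw0 : Q w ≠ 0 := by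
    rw [hQw]
    exact hc0
  have hr'act : ActsRefl Q r' w := by
    intro x
    obtain ⟨y, hy⟩ : ∃ y : κ → F,
        y = Matrix.mulVec ((γ⁻¹ : Matrix.GeneralLinearGroup κ F) : Matrix κ κ F) x := ⟨_, rfl⟩
    have hxy : Matrix.mulVec (γ : Matrix κ κ F) y = x := by
      rw [hy, Matrix.mulVec_mulVec, ← Units.val_mul, mul_inv_cancel, Units.val_one,
        Matrix.one_mulVec]
    have h1 : isoActF ⇑Q r' x = Matrix.mulVec (γ : Matrix κ κ F) (isoActF ⇑Q r y) := by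
      rw [isoActF_apply, isoActF_apply, hr', hy, Matrix.mulVec_mulVec, Matrix.mulVec_mulVec,
        ← Units.val_mul, ← Units.val_mul]
    have hpol : QuadraticMap.polar (⇑Q) w x = c * QuadraticMap.polar (⇑Q) v₀ y := by
      rw [hw, ← hxy]
      exact sim_polar (⇑Q) γ c hγQ v₀ y
    have e : (1 : F)⁻¹ * QuadraticMap.polar (⇑Q) v₀ y
        = c⁻¹ * (c * QuadraticMap.polar (⇑Q) v₀ y) := by
      rw [inv_one, one_mul, ← mul_assoc, inv_mul_cancel₀ hc0, one_mul]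
    rw [h1, hract y, Matrix.mulVec_sub, Matrix.mulVec_smul, hxy, ← hw, hQw, hpol, hv₀, e]
  have hcr : chi Q 1 r = -1 :=
    (chi_refl h2 Q 1 one_ne_zero v₀ hv₀' r hract).1 ⟨1, by rw [hv₀]; ring⟩
  have hcr' : chi Q 1 r' = 1 := by
    apply (chi_refl h2 Q 1 one_ne_zero w hQw0 r' hr'act).2
    rintro ⟨t, ht⟩
    rw [hQw] at ht
    apply hc
    have ht0 : t ≠ 0 := by
      rintro rfl
      rw [mul_zero, zero_mul] at ht
      exact zero_ne_one ht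
    refine ⟨t⁻¹, ?_⟩
    have htt : t⁻¹ * t = 1 := inv_mul_cancel₀ ht0
    linear_combination (t⁻¹ * t⁻¹) * ht - (c * (t⁻¹ * t + 1)) * htt
  obtain ⟨β₁, hβ₁⟩ := indO_exists ⇑Q r
  have hβ₁G : IndG ⇑Q (r : Matrix.GeneralLinearGroup κ F) β₁ := indG_of_indO ⇑Q r β₁ hβ₁
  have hβ₁mem : β₁ ∈ Cfsg.pgoAut F ⇑Q := pgoAut_of ⇑Q _ (hOmem r) β₁ hβ₁G
  obtain ⟨β₂, hβ₂⟩ := indG_exists ⇑Q γ hγmem
  have hβ₂mem : β₂ ∈ Cfsg.pgoAut F ⇑Q := pgoAut_of ⇑Q γ hγmem β₂ hβ₂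
  have hb11 : β₁ * β₁ = 1 := by
    have h1 := indG_mul ⇑Q _ _ (hOmem r) β₁ β₁ hβ₁G hβ₁G
    have e : (r : Matrix.GeneralLinearGroup κ F) * (r : Matrix.GeneralLinearGroup κ F) = 1 := by
      rw [← Subgroup.coe_mul, hrr, Subgroup.coe_one]
    rw [e] at h1
    exact indG_unique ⇑Q 1 (Subgroup.one_mem _) _ _ h1 (indG_one ⇑Q)
  have hz : ∀ x : Matrix.GeneralLinearGroup κ F, (γ * γ) * x = x * (γ * γ) := by
    intro x
    apply Units.ext
    have e1 : ((γ * γ * x : Matrix.GeneralLinearGroup κ F) : Matrix κ κ F)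
        = ((γ * γ : Matrix.GeneralLinearGroup κ F) : Matrix κ κ F) * (x : Matrix κ κ F) :=
      Units.val_mul _ _
    have e2 : ((x * (γ * γ) : Matrix.GeneralLinearGroup κ F) : Matrix κ κ F)
        = (x : Matrix κ κ F) * ((γ * γ : Matrix.GeneralLinearGroup κ F) : Matrix κ κ F) :=
      Units.val_mul _ _
    rw [e1, e2, hγγ, Matrix.smul_mul, Matrix.mul_smul, Matrix.one_mul, Matrix.mul_one]
  have hzc : ∀ x : Matrix.GeneralLinearGroup κ F, (γ * γ)⁻¹ * x = x * (γ * γ)⁻¹ := by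
    intro x
    calc (γ * γ)⁻¹ * x = (γ * γ)⁻¹ * (x * (γ * γ)) * (γ * γ)⁻¹ := by group
      _ = (γ * γ)⁻¹ * ((γ * γ) * x) * (γ * γ)⁻¹ := by rw [hz x]
      _ = x * (γ * γ)⁻¹ := by group
  have hb22 : β₂ * β₂ = 1 := by
    have h1 := indG_mul ⇑Q _ _ hγmem β₂ β₂ hβ₂ hβ₂
    have h3 := indG_central ⇑Q (γ * γ) 1 hz 1 (indG_one ⇑Q)
    rw [mul_one] at h3
    exact indG_unique ⇑Q (γ * γ) (Subgroup.mul_mem _ hγmem hγmem) _ _ h1 h3
  have hkey : β₁ * β₂ * (β₁ * β₂) ∉ Cfsg.Inn (Cfsg.POmega F ⇑Q) := by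
    intro hin
    have hrγ : (r : Matrix.GeneralLinearGroup κ F) * γ ∈ Cfsg.Geo.quadSimilarityGroup (⇑Q) :=
      Subgroup.mul_mem _ (hOmem r) hγmem
    have h12 : IndG ⇑Q ((r : Matrix.GeneralLinearGroup κ F) * γ) (β₁ * β₂) :=
      indG_mul ⇑Q _ _ hγmem β₁ β₂ hβ₁G hβ₂
    have h1 : IndG ⇑Q ((r : Matrix.GeneralLinearGroup κ F) * γ
        * ((r : Matrix.GeneralLinearGroup κ F) * γ)) (β₁ * β₂ * (β₁ * β₂)) :=
      indG_mul ⇑Q _ _ hrγ _ _ h12 h12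
    have h3 := indG_central ⇑Q (γ * γ)⁻¹ _ hzc _ h1
    rw [hzc] at h3
    have e : (r : Matrix.GeneralLinearGroup κ F) * γ
        * ((r : Matrix.GeneralLinearGroup κ F) * γ) * (γ * γ)⁻¹
        = ((r * r' : ↥(Cfsg.isometryGroup F ⇑Q)) : Matrix.GeneralLinearGroup κ F) := by
      rw [Subgroup.coe_mul, hr']
      group
    rw [e] at h3
    have h4 : IndO ⇑Q (r * r') (β₁ * β₂ * (β₁ * β₂)) := indO_of_indG ⇑Q (r * r') _ h3
    have h5 := inn_indO_mem Q hperf hcent hneg (r * r') _ h4 hin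
    have h6 := ((omega_mem_iff h2 i₀ i₁ hi Q hQ _).1 h5).1
    rw [map_mul, hcr, hcr'] at h6
    exact absurd h6 (by decide)
  obtain ⟨x, hx⟩ : ∃ x : ↥(Cfsg.pgoAut F ⇑Q), x = ⟨β₁, hβ₁mem⟩ := ⟨_, rfl⟩
  obtain ⟨y, hy⟩ : ∃ y : ↥(Cfsg.pgoAut F ⇑Q), y = ⟨β₂, hβ₂mem⟩ := ⟨_, rfl⟩
  refine d8_hom ((Cfsg.Inn (Cfsg.POmega F ⇑Q)).subgroupOf (Cfsg.pgoAut F ⇑Q)) h8 x y ?_ ?_ ?_
  · rw [Subgroup.mem_subgroupOf, hx]
    change β₁ * β₁ ∈ _
    rw [hb11]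
    exact Subgroup.one_mem _
  · rw [Subgroup.mem_subgroupOf, hy]
    change β₂ * β₂ ∈ _
    rw [hb22]
    exact Subgroup.one_mem _
  · rw [Subgroup.mem_subgroupOf, hx, hy]
    exact hkey

set_option maxHeartbeats 1600000 in
/-- `PGO / PΩ`: Klein four when `-1 ∉ Ω`, dihedral of order `8` when `-1 ∈ Ω`. -/
theorem pgo_inn_cases [Fintype F] (h2 : (2 : F) ≠ 0) (Q : QuadraticForm F (κ → F))
    (hQ : (QuadraticMap.polarBilin Q).Nondegenerate) (m : ℕ) (hκ : Fintype.card κ = 2 * m)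
    (i₀ i₁ : κ) (hi : i₀ ≠ i₁)
    (hperf : commutator ↥(commutator ↥(Cfsg.isometryGroup F ⇑Q)) = ⊤)
    (hcent : ∀ z : ↥(Cfsg.isometryGroup F ⇑Q),
      (∀ g ∈ commutator ↥(Cfsg.isometryGroup F ⇑Q), g * z = z * g) →
      ∃ a : F, a * a = 1 ∧
        ((z : Matrix.GeneralLinearGroup κ F) : Matrix κ κ F) = a • (1 : Matrix κ κ F))
    (hcentG : ∀ z : Matrix.GeneralLinearGroup κ F,
      (∀ g ∈ commutator ↥(Cfsg.isometryGroup F ⇑Q),
        z * (g : Matrix.GeneralLinearGroup κ F) = (g : Matrix.GeneralLinearGroup κ F) * z) →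
      (∀ x y, QuadraticMap.polar (⇑Q) x y = 0 →
        QuadraticMap.polar (⇑Q) (Matrix.mulVec (z : Matrix κ κ F) x)
          (Matrix.mulVec (z : Matrix κ κ F) y) = 0) →
      ∃ a : F, (z : Matrix κ κ F) = a • (1 : Matrix κ κ F))
    (hγ : ∃ (g : Matrix.GeneralLinearGroup κ F) (c a : F), ¬ IsSquare c ∧
      (∀ v, Q (Matrix.mulVec (g : Matrix κ κ F) v) = c * Q v) ∧
      ((g * g : Matrix.GeneralLinearGroup κ F) : Matrix κ κ F) = a • (1 : Matrix κ κ F)) :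
    ((¬ ∃ g : ↥(Cfsg.isometryGroup F ⇑Q), g ∈ Cfsg.Omega F ⇑Q ∧
        ((g : Matrix.GeneralLinearGroup κ F) : Matrix κ κ F) = -1) →
      ∃ φ : ↥(Cfsg.pgoAut F ⇑Q) →* Multiplicative (ZMod 2 × ZMod 2), Function.Surjective φ ∧
        φ.ker = (Cfsg.Inn (Cfsg.POmega F ⇑Q)).subgroupOf (Cfsg.pgoAut F ⇑Q)) ∧
    ((∃ g : ↥(Cfsg.isometryGroup F ⇑Q), g ∈ Cfsg.Omega F ⇑Q ∧
        ((g : Matrix.GeneralLinearGroup κ F) : Matrix κ κ F) = -1) →
      ∃ φ : ↥(Cfsg.pgoAut F ⇑Q) →* DihedralGroup 4, Function.Surjective φ ∧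
        φ.ker = (Cfsg.Inn (Cfsg.POmega F ⇑Q)).subgroupOf (Cfsg.pgoAut F ⇑Q)) := by
  have hle1 : Cfsg.Inn (Cfsg.POmega F ⇑Q) ≤ Cfsg.psoAut F ⇑Q := inn_le_pso h2 Q hQ i₀ i₁ hi
  have hle2 : Cfsg.psoAut F ⇑Q ≤ Cfsg.pgoAut F ⇑Q := pso_le_pgo ⇑Q
  have hδ : ∃ (g : Matrix.GeneralLinearGroup κ F) (c : F), ¬ IsSquare c ∧
      ∀ v, Q (Matrix.mulVec (g : Matrix κ κ F) v) = c * Q v := by
    obtain ⟨g, c, a, hc, hg, -⟩ := hγ
    exact ⟨g, c, hc, hg⟩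
  obtain ⟨φ₀, hφs, hφk⟩ := pgo_klein h2 Q hQ m hκ i₀ i₁ hi hperf hcentG hδ
  obtain ⟨hA, hB⟩ := pso_index h2 Q hQ ⟨m, by rw [hκ]; ring⟩ i₀ i₁ hi hperf hcent
  constructor
  · intro hno
    have h1 := hA hno
    rw [Subgroup.relIndex_eq_one] at h1
    have heq : Cfsg.Inn (Cfsg.POmega F ⇑Q) = Cfsg.psoAut F ⇑Q := le_antisymm hle1 h1
    refine ⟨φ₀, hφs, ?_⟩
    rw [hφk, heq]
  · intro hyes
    have h1 := hB hyes
    have hc4 : Nat.card (Multiplicative (ZMod 2 × ZMod 2)) = 4 := by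
      rw [Nat.card_eq_fintype_card]
      rfl
    have h4 : (Cfsg.psoAut F ⇑Q).relIndex (Cfsg.pgoAut F ⇑Q) = 4 := by
      have h5 : φ₀.ker.index = 4 := by
        rw [Subgroup.index_ker, MonoidHom.range_eq_top.2 hφs, Subgroup.card_top, hc4]
      rw [hφk] at h5
      exact h5
    have h8 : (Cfsg.Inn (Cfsg.POmega F ⇑Q)).relIndex (Cfsg.pgoAut F ⇑Q) = 8 := by
      rw [← Subgroup.relIndex_mul_relIndex _ _ _ hle1 hle2, h1, h4]
    exact pgo_dih h2 Q hQ i₀ i₁ hi hperf hcent hyes h8 hγ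

end PgoDih

end Cfsg.Agent.Helper5
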