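import Mathlib
import Cfsg.Prelude.Def_Classical
import Cfsg.Agent.Helper6.FinSq

/-!
Similitudes `γ` of the plus- and minus-type forms with prescribed multiplier `ν` and `γ² = ν`.
-/

set_option autoImplicit false

namespace Cfsg.Agent.Helper5

theorem gl_of_sq {F : Type*} [Field F] {κ : Type*} [Fintype κ] [DecidableEq κ]
    (G : Matrix κ κ F) (ν : F) (hν : ν ≠ 0) (h : G * G = ν • (1 : Matrix κ κ F)) :
    ∃ g : Matrix.GeneralLinearGroup κ F, (g : Matrix κ κ F) = G ∧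
      ((g * g : Matrix.GeneralLinearGroup κ F) : Matrix κ κ F) = ν • (1 : Matrix κ κ F) := by
  have h1 : G * (ν⁻¹ • G) = 1 := by
    rw [Matrix.mul_smul, h, smul_smul, inv_mul_cancel₀ hν, one_smul]
  have h2 : (ν⁻¹ • G) * G = 1 := by
    rw [Matrix.smul_mul, h, smul_smul, inv_mul_cancel₀ hν, one_smul]
  refine ⟨⟨G, ν⁻¹ • G, h1, h2⟩, rfl, ?_⟩
  rw [Units.val_mul]
  exact h

theorem plus_gamma {F : Type*} [Field F] (m : ℕ) (ν : F) (hν : ν ≠ 0) :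
    ∃ g : Matrix.GeneralLinearGroup (Fin m ⊕ Fin m) F,
      (∀ v : Fin m ⊕ Fin m → F, Cfsg.quadFormPlus m F
          (Matrix.mulVec (g : Matrix (Fin m ⊕ Fin m) (Fin m ⊕ Fin m) F) v)
        = ν * Cfsg.quadFormPlus m F v) ∧
      ((g * g : Matrix.GeneralLinearGroup (Fin m ⊕ Fin m) F) :
        Matrix (Fin m ⊕ Fin m) (Fin m ⊕ Fin m) F)
        = ν • (1 : Matrix (Fin m ⊕ Fin m) (Fin m ⊕ Fin m) F) := by
  classical
  obtain ⟨G, hG⟩ : ∃ G : Matrix (Fin m ⊕ Fin m) (Fin m ⊕ Fin m) F,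
      G = Matrix.fromBlocks 0 1 (ν • (1 : Matrix (Fin m) (Fin m) F)) 0 := ⟨_, rfl⟩
  have hGG : G * G = ν • (1 : Matrix (Fin m ⊕ Fin m) (Fin m ⊕ Fin m) F) := by
    rw [hG, Matrix.fromBlocks_multiply, ← Matrix.fromBlocks_one, Matrix.fromBlocks_smul]
    simp
  obtain ⟨g, hg, hgg⟩ := gl_of_sq G ν hν hGG
  refine ⟨g, fun v => ?_, hgg⟩
  have e1 : ∀ i : Fin m, Matrix.mulVec G v (Sum.inl i) = v (Sum.inr i) := by
    intro i
    rw [hG, Matrix.fromBlocks_mulVec]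
    simp
  have e2 : ∀ i : Fin m, Matrix.mulVec G v (Sum.inr i) = ν * v (Sum.inl i) := by
    intro i
    rw [hG, Matrix.fromBlocks_mulVec]
    simp [Matrix.smul_mulVec]
  rw [hg]
  unfold Cfsg.quadFormPlus
  rw [Finset.mul_sum]
  refine Finset.sum_congr rfl (fun i _ => ?_)
  rw [e1, e2]
  ring

theorem minus_gamma {F : Type*} [Field F] [Finite F] (h2 : (2 : F) ≠ 0) (m : ℕ) (a b : F)
    (hab : ∀ z₁ z₂ : F, z₁ ^ 2 + a * z₁ * z₂ + b * z₂ ^ 2 = 0 → z₁ = 0 ∧ z₂ = 0)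
    (ν : F) (hν : ν ≠ 0) :
    ∃ g : Matrix.GeneralLinearGroup ((Fin m ⊕ Fin m) ⊕ Fin 2) F,
      (∀ v : (Fin m ⊕ Fin m) ⊕ Fin 2 → F, Cfsg.quadFormMinus m F a b
          (Matrix.mulVec (g : Matrix ((Fin m ⊕ Fin m) ⊕ Fin 2) ((Fin m ⊕ Fin m) ⊕ Fin 2) F) v)
        = ν * Cfsg.quadFormMinus m F a b v) ∧
      ((g * g : Matrix.GeneralLinearGroup ((Fin m ⊕ Fin m) ⊕ Fin 2) F) :
        Matrix ((Fin m ⊕ Fin m) ⊕ Fin 2) ((Fin m ⊕ Fin m) ⊕ Fin 2) F)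
        = ν • (1 : Matrix ((Fin m ⊕ Fin m) ⊕ Fin 2) ((Fin m ⊕ Fin m) ⊕ Fin 2) F) := by
  classical
  have hB : 4 * b - a ^ 2 ≠ 0 := by
    intro hB
    have h3 := hab (-a) 2 (by linear_combination hB)
    exact h2 h3.2
  obtain ⟨s, t, hst⟩ := Cfsg.Agent.Helper6.exists_sq_add_sq h2 (one_ne_zero : (1 : F) ≠ 0) hB ν
  obtain ⟨w₁, hw₁⟩ : ∃ w₁ : F, w₁ = s - a * t := ⟨_, rfl⟩
  obtain ⟨w₂, hw₂⟩ : ∃ w₂ : F, w₂ = 2 * t := ⟨_, rfl⟩
  have hN : w₁ ^ 2 + a * w₁ * w₂ + b * w₂ ^ 2 = ν := by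
    rw [hw₁, hw₂]
    linear_combination hst
  obtain ⟨Gp, hGp⟩ : ∃ Gp : Matrix (Fin m ⊕ Fin m) (Fin m ⊕ Fin m) F,
      Gp = Matrix.fromBlocks 0 1 (ν • (1 : Matrix (Fin m) (Fin m) F)) 0 := ⟨_, rfl⟩
  obtain ⟨D, hD⟩ : ∃ D : Matrix (Fin 2) (Fin 2) F,
      D = !![w₁, a * w₁ + b * w₂; w₂, -w₁] := ⟨_, rfl⟩
  have hGpGp : Gp * Gp = ν • (1 : Matrix (Fin m ⊕ Fin m) (Fin m ⊕ Fin m) F) := by
    rw [hGp, Matrix.fromBlocks_multiply, ← Matrix.fromBlocks_one, Matrix.fromBlocks_smul]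
    simp
  have hDD : D * D = ν • (1 : Matrix (Fin 2) (Fin 2) F) := by
    rw [hD]
    ext i j
    fin_cases i <;> fin_cases j <;> simp [Matrix.mul_apply, Fin.sum_univ_two] <;>
      first | linear_combination hN | ring
  have hGG : Matrix.fromBlocks Gp 0 0 D * Matrix.fromBlocks Gp 0 0 D
      = ν • (1 : Matrix ((Fin m ⊕ Fin m) ⊕ Fin 2) ((Fin m ⊕ Fin m) ⊕ Fin 2) F) := by
    rw [Matrix.fromBlocks_multiply, ← Matrix.fromBlocks_one, Matrix.fromBlocks_smul, hGpGp, hDD]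
    simp
  obtain ⟨g, hg, hgg⟩ := gl_of_sq _ ν hν hGG
  refine ⟨g, fun v => ?_, hgg⟩
  have e1 : ∀ i : Fin m, Matrix.mulVec (Matrix.fromBlocks Gp 0 0 D) v (Sum.inl (Sum.inl i))
      = v (Sum.inl (Sum.inr i)) := by
    intro i
    rw [Matrix.fromBlocks_mulVec, hGp]
    simp [Matrix.fromBlocks_mulVec]
  have e2 : ∀ i : Fin m, Matrix.mulVec (Matrix.fromBlocks Gp 0 0 D) v (Sum.inl (Sum.inr i))
      = ν * v (Sum.inl (Sum.inl i)) := by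
    intro i
    rw [Matrix.fromBlocks_mulVec, hGp]
    simp [Matrix.fromBlocks_mulVec, Matrix.smul_mulVec]
  have e3 : Matrix.mulVec (Matrix.fromBlocks Gp 0 0 D) v (Sum.inr 0)
      = w₁ * v (Sum.inr 0) + (a * w₁ + b * w₂) * v (Sum.inr 1) := by
    rw [Matrix.fromBlocks_mulVec, hD]
    simp [dotProduct, Fin.sum_univ_two]
  have e4 : Matrix.mulVec (Matrix.fromBlocks Gp 0 0 D) v (Sum.inr 1)
      = w₂ * v (Sum.inr 0) + -w₁ * v (Sum.inr 1) := by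
    rw [Matrix.fromBlocks_mulVec, hD]
    simp [dotProduct, Fin.sum_univ_two]
  rw [hg]
  unfold Cfsg.quadFormMinus
  rw [e3, e4]
  have hsum : ∑ i : Fin m, Matrix.mulVec (Matrix.fromBlocks Gp 0 0 D) v (Sum.inl (Sum.inl i)) *
      Matrix.mulVec (Matrix.fromBlocks Gp 0 0 D) v (Sum.inl (Sum.inr i))
      = ν * ∑ i : Fin m, v (Sum.inl (Sum.inl i)) * v (Sum.inl (Sum.inr i)) := by
    rw [Finset.mul_sum]
    refine Finset.sum_congr rfl (fun i _ => ?_)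
    rw [e1, e2]
    ring
  rw [hsum]
  linear_combination (v (Sum.inr 0) ^ 2 + a * v (Sum.inr 0) * v (Sum.inr 1)
    + b * v (Sum.inr 1) ^ 2) * hN

end Cfsg.Agent.Helper5
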