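import Mathlib
import Cfsg.Agent.Helper5.RSign

/-!
Over the field with three elements, in dimension at least five, the subgroup generated by the
reflections of a fixed non-zero norm has index two in the isometry group.
-/

set_option autoImplicit false

namespace Cfsg.Agent.Helper5

section Abstract

variable {V : Type*} [AddCommGroup V] [Module (ZMod 3) V]

/-- A vector of non-zero norm orthogonal to three given vectors, when the radical of their span
lies on a line, in dimension at least five. -/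
theorem exists_perp_aniso5 [FiniteDimensional (ZMod 3) V] (Q : QuadraticForm (ZMod 3) V)
    (hQ : (QuadraticMap.polarBilin Q).Nondegenerate)
    (hdim : 5 ≤ Module.finrank (ZMod 3) V) (a b c' z₀ : V)
    (hS : ∀ α β γ : ZMod 3, QuadraticMap.polar Q a (α • a + β • b + γ • c') = 0 →
      QuadraticMap.polar Q b (α • a + β • b + γ • c') = 0 →
      QuadraticMap.polar Q c' (α • a + β • b + γ • c') = 0 →
      ∃ t : ZMod 3, α • a + β • b + γ • c' = t • z₀) :
    ∃ z, QuadraticMap.polar Q a z = 0 ∧ QuadraticMap.polar Q b z = 0 ∧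
      QuadraticMap.polar Q c' z = 0 ∧ Q z ≠ 0 := by
  classical
  by_contra hcon
  push Not at hcon
  have hrefl : (QuadraticMap.polarBilin Q).IsRefl := fun x y h => by
    change QuadraticMap.polar Q y x = 0
    rw [QuadraticMap.polar_comm]
    exact h
  obtain ⟨S, hSdef⟩ : ∃ S : Submodule (ZMod 3) V,
      S = Submodule.span (ZMod 3) (({a, b, c'} : Finset V) : Set V) := ⟨_, rfl⟩
  have hSfin : Module.finrank (ZMod 3) S ≤ 3 := by
    rw [hSdef]
    exact le_trans (finrank_span_finset_le_card (R := ZMod 3) ({a, b, c'} : Finset V))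
      Finset.card_le_three
  have haS : a ∈ S := by
    rw [hSdef]
    exact Submodule.subset_span (by simp)
  have hbS : b ∈ S := by
    rw [hSdef]
    exact Submodule.subset_span (by simp)
  have hcS : c' ∈ S := by
    rw [hSdef]
    exact Submodule.subset_span (by simp)
  have hT : ∀ y ∈ LinearMap.BilinForm.orthogonal (QuadraticMap.polarBilin Q) S, Q y = 0 := by
    intro y hy
    rw [LinearMap.BilinForm.mem_orthogonal_iff] at hy
    exact hcon y (hy a haS) (hy b hbS) (hy c' hcS)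
  have hle : LinearMap.BilinForm.orthogonal (QuadraticMap.polarBilin Q) S ≤ S := by
    intro y hy
    rw [← LinearMap.BilinForm.orthogonal_orthogonal hQ hrefl S,
      LinearMap.BilinForm.mem_orthogonal_iff]
    intro z hz
    change QuadraticMap.polar Q z y = 0
    rw [r3_polar_def, hT z hz, hT y hy, hT (z + y) (Submodule.add_mem _ hz hy)]
    simp
  have hfr := LinearMap.BilinForm.finrank_orthogonal hQ S
  have hle2 : LinearMap.BilinForm.orthogonal (QuadraticMap.polarBilin Q) S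
      ≤ Submodule.span (ZMod 3) (({z₀} : Finset V) : Set V) := by
    intro y hyT
    have hyS : y ∈ S := hle hyT
    rw [hSdef] at hyS
    have hcoe : ((({a, b, c'} : Finset V)) : Set V) = ({a, b, c'} : Set V) := by simp
    rw [hcoe, Submodule.mem_span_triple] at hyS
    obtain ⟨α, β, γ, rfl⟩ := hyS
    rw [LinearMap.BilinForm.mem_orthogonal_iff] at hyT
    obtain ⟨t, ht⟩ := hS α β γ (hyT a haS) (hyT b hbS) (hyT c' hcS)
    rw [ht]
    exact Submodule.smul_mem _ _ (Submodule.subset_span (by simp))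
  have h1 : Module.finrank (ZMod 3)
      ↥(LinearMap.BilinForm.orthogonal (QuadraticMap.polarBilin Q) S) ≤ 1 :=
    le_trans (Submodule.finrank_mono hle2)
      (le_trans (finrank_span_finset_le_card (R := ZMod 3) ({z₀} : Finset V))
        (by simp))
  omega

/-- In dimension at least five, two vectors of the same non-zero norm have a common orthogonal
vector of that norm. -/
theorem exists_perp_norm5 [FiniteDimensional (ZMod 3) V] (Q : QuadraticForm (ZMod 3) V)
    (hQ : (QuadraticMap.polarBilin Q).Nondegenerate)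
    (hdim : 5 ≤ Module.finrank (ZMod 3) V) (d : ZMod 3) (hd : d ≠ 0) (w w' : V)
    (hw : Q w = d) (_hw' : Q w' = d) :
    ∃ z, QuadraticMap.polar Q w z = 0 ∧ QuadraticMap.polar Q w' z = 0 ∧ Q z = d := by
  obtain ⟨p, hp⟩ : ∃ p, QuadraticMap.polar Q w w' = p := ⟨_, rfl⟩
  have hnz : ∀ c q : ZMod 3, c ≠ 0 → q ≠ 0 → q = c ∨ q = -c := by decide
  have hkey : ∀ d p α s : ZMod 3, d ≠ 0 → α * (2 * d) + s * p = 0 → α = s * (p * d) := by
    decide
  have h2d : ∀ d γ : ZMod 3, d ≠ 0 → γ * (2 * -d) = 0 → γ = 0 := by decide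
  obtain ⟨z₁, h1w, h1w', -, h1q⟩ := exists_perp_aniso5 Q hQ hdim w w' w' ((p * d) • w + w') (by
    intro α β γ h1 _ _
    simp only [QuadraticMap.polar_add_right, QuadraticMap.polar_smul_right, r3_polar_self, hp,
      hw, smul_eq_mul] at h1
    have hα := hkey d p α (β + γ) hd (by
      rw [add_mul, ← add_assoc]
      exact h1)
    refine ⟨β + γ, ?_⟩
    rw [hα]
    module)
  rcases hnz d _ hd h1q with hq1 | hq1
  · exact ⟨z₁, h1w, h1w', hq1⟩
  · have hz1w : QuadraticMap.polar Q z₁ w = 0 := by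
      rw [QuadraticMap.polar_comm]
      exact h1w
    have hz1w' : QuadraticMap.polar Q z₁ w' = 0 := by
      rw [QuadraticMap.polar_comm]
      exact h1w'
    obtain ⟨z₂, h2w, h2w', h2z, h2q⟩ := exists_perp_aniso5 Q hQ hdim w w' z₁
      ((p * d) • w + w') (by
      intro α β γ h1 _ h3
      simp only [QuadraticMap.polar_add_right, QuadraticMap.polar_smul_right, r3_polar_self,
        hp, hw, h1w, hz1w, hz1w', hq1, smul_eq_mul, mul_zero, add_zero, zero_add] at h1 h3
      have hα := hkey d p α β hd h1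
      have hγ := h2d d γ hd h3
      refine ⟨β, ?_⟩
      rw [hα, hγ]
      module)
    rcases hnz d _ hd h2q with hq2 | hq2
    · exact ⟨z₂, h2w, h2w', hq2⟩
    · refine ⟨z₁ + z₂, ?_, ?_, ?_⟩
      · rw [QuadraticMap.polar_add_right, h1w, h2w, add_zero]
      · rw [QuadraticMap.polar_add_right, h1w', h2w', add_zero]
      · rw [r3_add, hq1, hq2, h2z]
        have h : ∀ d : ZMod 3, -d + -d + 0 = d := by decide
        exact h d

end Abstract

/-- The reflections of norm `c` generate a group transitive on the vectors of norm `-c`. -/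
theorem refl3_trans_neg (n : ℕ) (hn : 5 ≤ n) (Q : QuadraticForm (ZMod 3) (Fin n → ZMod 3))
    (hQ : (QuadraticMap.polarBilin Q).Nondegenerate) (c : ZMod 3) (hc : c ≠ 0)
    (u v : Fin n → ZMod 3) (hu : Q u = -c) (hv : Q v = -c) :
    ∃ h ∈ Cfsg.reflectionSubgroup (⇑Q) c, isoActF ⇑Q h u = v := by
  have step : ∀ u v : Fin n → ZMod 3, Q u = -c → Q v = -c → QuadraticMap.polar Q u v = 0 →
      ∃ h ∈ Cfsg.reflectionSubgroup (⇑Q) c, isoActF ⇑Q h u = v := by
    intro u v hu hv huv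
    have hw : Q (u - v) = c := by
      rw [sub_eq_add_neg, r3_add, QuadraticMap.map_neg, QuadraticMap.polar_neg_right, hu, hv,
        huv]
      have h : ∀ c : ZMod 3, -c + -c + -0 = c := by decide
      exact h c
    have hw0 : Q (u - v) ≠ 0 := by
      rw [hw]
      exact hc
    refine ⟨reflEl Q (u - v) hw0, Subgroup.subset_closure
      ⟨u - v, hw, Cfsg.Agent.Helper6.reflectionGL_coe Q (u - v) hw0⟩, ?_⟩
    have h : c⁻¹ * (2 * -c) = 1 := by
      have h3 : ∀ c : ZMod 3, 2 * -c = c := by decide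
      rw [h3, inv_mul_cancel₀ hc]
    rw [actsRefl_reflEl Q (u - v) hw0 u, hw, QuadraticMap.polar_sub_left, r3_polar_self,
      QuadraticMap.polar_comm Q v u, huv, hu, sub_zero, h, one_smul, sub_sub_cancel]
  have hfin : 5 ≤ Module.finrank (ZMod 3) (Fin n → ZMod 3) := by
    rw [Module.finrank_fintype_fun_eq_card, Fintype.card_fin]
    exact hn
  obtain ⟨z, hzu, hzv, hzq⟩ := exists_perp_norm5 Q hQ hfin (-c) (neg_ne_zero.2 hc) u v hu hv
  obtain ⟨h₁, hh₁, e₁⟩ := step u z hu hzq hzu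
  obtain ⟨h₂, hh₂, e₂⟩ := step z v hzq hv (by
    rw [QuadraticMap.polar_comm]
    exact hzv)
  refine ⟨h₂ * h₁, Subgroup.mul_mem _ hh₂ hh₁, ?_⟩
  rw [map_mul, LinearEquiv.mul_apply, e₁, e₂]

/-- The subgroup generated by the reflections of norm `c` has index two. -/
theorem refl3_index (n : ℕ) (hn : 5 ≤ n) (Q : QuadraticForm (ZMod 3) (Fin n → ZMod 3))
    (hQ : (QuadraticMap.polarBilin Q).Nondegenerate) (c : ZMod 3) (hc : c ≠ 0) :
    (Cfsg.reflectionSubgroup (⇑Q) c).index = 2 := by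
  have h2 : (2 : ZMod 3) ≠ 0 := by decide
  have hfin4 : 4 ≤ Module.finrank (ZMod 3) (Fin n → ZMod 3) := by
    rw [Module.finrank_fintype_fun_eq_card, Fintype.card_fin]
    omega
  obtain ⟨w₀, hw₀⟩ := exists_norm3 Q hQ hfin4 (-c) (neg_ne_zero.2 hc)
  have hw₀0 : Q w₀ ≠ 0 := by
    rw [hw₀]
    exact neg_ne_zero.2 hc
  have hconj : ∀ y ∈ Cfsg.reflectionsOfNorm (⇑Q) c,
      ∀ g : ↥(Cfsg.isometryGroup (ZMod 3) ⇑Q), g * y * g⁻¹ ∈ Cfsg.reflectionsOfNorm (⇑Q) c := by
    rintro y ⟨v, hv, hy⟩ g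
    have h1 : ActsRefl Q (g * y * g⁻¹) (isoActF ⇑Q g v) :=
      actsRefl_conj Q y g v (actsRefl_of_matrix Q y v hy)
    have hgv : Q (isoActF ⇑Q g v) = c := by
      rw [isoActF_isom ⇑Q]
      exact hv
    have hgv0 : Q (isoActF ⇑Q g v) ≠ 0 := by
      rw [hgv]
      exact hc
    have h3 : g * y * g⁻¹ = reflEl Q (isoActF ⇑Q g v) hgv0 :=
      actsRefl_unique Q _ _ _ h1 (actsRefl_reflEl Q _ hgv0)
    rw [h3]
    exact ⟨isoActF ⇑Q g v, hgv, Cfsg.Agent.Helper6.reflectionGL_coe Q _ hgv0⟩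
  have hN : (Cfsg.reflectionSubgroup (⇑Q) c).Normal := by
    constructor
    intro x hx g
    unfold Cfsg.reflectionSubgroup at hx ⊢
    refine Subgroup.closure_induction
      (p := fun x _ => g * x * g⁻¹ ∈ Subgroup.closure (Cfsg.reflectionsOfNorm (⇑Q) c))
      ?_ ?_ ?_ ?_ hx
    · intro y hy
      exact Subgroup.subset_closure (hconj y hy g)
    · rw [mul_one, mul_inv_cancel]
      exact Subgroup.one_mem _
    · intro a b _ _ iha ihb
      have h3 : g * (a * b) * g⁻¹ = (g * a * g⁻¹) * (g * b * g⁻¹) := by group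
      rw [h3]
      exact Subgroup.mul_mem _ iha ihb
    · intro a _ iha
      have h3 : g * a⁻¹ * g⁻¹ = (g * a * g⁻¹)⁻¹ := by group
      rw [h3]
      exact Subgroup.inv_mem _ iha
  obtain ⟨π, hπ⟩ : ∃ π : ↥(Cfsg.isometryGroup (ZMod 3) ⇑Q) →*
      ↥(Cfsg.isometryGroup (ZMod 3) ⇑Q) ⧸ Cfsg.reflectionSubgroup (⇑Q) c,
      ∀ g, π g = 1 ↔ g ∈ Cfsg.reflectionSubgroup (⇑Q) c :=
    ⟨QuotientGroup.mk' _, fun g => QuotientGroup.eq_one_iff g⟩
  obtain ⟨χ, hχ⟩ : ∃ χ : ↥(Cfsg.isometryGroup (ZMod 3) ⇑Q) →* ℤˣ, χ = chi Q (-c) := ⟨_, rfl⟩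
  obtain ⟨g₀, hg₀⟩ : ∃ g₀, g₀ = reflEl Q w₀ hw₀0 := ⟨_, rfl⟩
  have hg₀a : ActsRefl Q g₀ w₀ := by
    rw [hg₀]
    exact actsRefl_reflEl Q w₀ hw₀0
  have key : ∀ g w, Q w ≠ 0 → ActsRefl Q g w →
      (Q w = c → χ g = 1 ∧ g ∈ Cfsg.reflectionSubgroup (⇑Q) c) ∧
      (Q w = -c → χ g = -1 ∧ π g = π g₀) := by
    intro g w hw hg
    have hc1 := chi_refl h2 Q (-c) (neg_ne_zero.2 hc) w hw g hg
    constructor
    · intro hwc
      refine ⟨?_, ?_⟩
      · rw [hχ]
        apply hc1.2
        rintro ⟨t, ht⟩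
        rw [hwc] at ht
        have h3 : ∀ c t : ZMod 3, c ≠ 0 → t * t * c ≠ -c := by decide
        exact h3 c t hc ht
      · have h3 : g = reflEl Q w hw := actsRefl_unique Q _ _ w hg (actsRefl_reflEl Q w hw)
        rw [h3]
        exact Subgroup.subset_closure ⟨w, hwc, Cfsg.Agent.Helper6.reflectionGL_coe Q w hw⟩
    · intro hwc
      refine ⟨?_, ?_⟩
      · rw [hχ]
        apply hc1.1
        exact ⟨1, by rw [hwc, one_mul, one_mul]⟩
      · obtain ⟨h, hh, e⟩ := refl3_trans_neg n hn Q hQ c hc w₀ w hw₀ hwc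
        have h1 : ActsRefl Q (h * g₀ * h⁻¹) w := by
          have h5 := actsRefl_conj Q g₀ h w₀ hg₀a
          rw [e] at h5
          exact h5
        have h3 : h * g₀ * h⁻¹ = g := actsRefl_unique Q _ _ w h1 hg
        rw [← h3, map_mul, map_mul, map_inv, (hπ h).2 hh, one_mul, inv_one, mul_one]
  have hsq : g₀ * g₀ = 1 := by
    apply isoActF_injective ⇑Q
    apply LinearEquiv.ext
    intro x
    rw [map_mul, LinearEquiv.mul_apply, map_one, hg₀a, hg₀a]
    exact (reflEquiv Q w₀ hw₀0).left_inv x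
  have hnz : ∀ c q : ZMod 3, c ≠ 0 → q ≠ 0 → q = c ∨ q = -c := by decide
  have hP : ∀ g, ∃ i : ℕ, π g = π g₀ ^ i ∧ χ g = (-1) ^ i := by
    apply refl_induction h2 Q hQ
    · exact ⟨0, by simp, by simp⟩
    · rintro a b ⟨i, h1, h3⟩ ⟨i', h1', h3'⟩
      exact ⟨i + i', by rw [map_mul, h1, h1', pow_add], by rw [map_mul, h3, h3', pow_add]⟩
    · intro g w hw hg
      rcases hnz c _ hc hw with hwc | hwc
      · obtain ⟨h3, h4⟩ := (key g w hw hg).1 hwc
        exact ⟨0, by rw [pow_zero]; exact (hπ g).2 h4, by rw [h3, pow_zero]⟩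
      · obtain ⟨h3, h4⟩ := (key g w hw hg).2 hwc
        exact ⟨1, by rw [h4, pow_one], by rw [h3, pow_one]⟩
  have hker : Cfsg.reflectionSubgroup (⇑Q) c = χ.ker := by
    apply le_antisymm
    · unfold Cfsg.reflectionSubgroup
      rw [Subgroup.closure_le]
      rintro y ⟨v, hv, hy⟩
      have hv0 : Q v ≠ 0 := by
        rw [hv]
        exact hc
      exact MonoidHom.mem_ker.2 ((key y v hv0 (actsRefl_of_matrix Q y v hy)).1 hv).1
    · intro g hg
      rw [MonoidHom.mem_ker] at hg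
      obtain ⟨i, h1, h3⟩ := hP g
      rw [hg] at h3
      have hne : (-1 : ℤˣ) ≠ 1 := by decide
      obtain ⟨k, hk⟩ := (neg_one_pow_eq_one_iff_even hne).1 h3.symm
      apply (hπ g).1
      rw [h1, hk, ← two_mul, pow_mul, pow_two, ← map_mul, hsq, map_one, one_pow]
  have hsurj : Function.Surjective χ := by
    intro x
    rcases Int.units_eq_one_or x with rfl | rfl
    · exact ⟨1, map_one _⟩
    · exact ⟨g₀, ((key g₀ w₀ hw₀0 hg₀a).2 hw₀).1⟩
  rw [hker, Subgroup.index_ker, MonoidHom.range_eq_top.2 hsurj, Subgroup.card_top,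
    Nat.card_eq_fintype_card, Fintype.card_units_int]

end Cfsg.Agent.Helper5
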