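import Mathlib
import Cfsg.Agent.Helper5.OmegaTrans

set_option autoImplicit false

namespace Cfsg.Agent.Helper5

section Abs3

variable {F V : Type*} [Field F] [AddCommGroup V] [Module F V]

theorem three_refl_scal (p s γ a b lam mu N a₁ C D : F) (hp : p ≠ 0) (hs : s ≠ 0) (hN : N ≠ 0)
    (hNdef : N = lam * lam * p + mu * mu * s + lam * mu * γ)
    (ha₁ : a₁ = a - s⁻¹ * b * γ)
    (hC : C = -(lam * a₁) + mu * (-b - p⁻¹ * a₁ * γ))
    (hD : D = -(mu * s) * a + (lam * p + mu * γ) * b) :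
    p⁻¹ * a₁ + N⁻¹ * C * lam = (p * s * N)⁻¹ * D * (-(mu * s)) ∧
    s⁻¹ * b + N⁻¹ * C * mu = (p * s * N)⁻¹ * D * (lam * p + mu * γ) := by
  subst ha₁ hC hD
  constructor
  · field_simp
    rw [hNdef]
    ring
  · field_simp
    rw [hNdef]
    ring

/-- The product of three reflections in coplanar vectors is a reflection. -/
theorem three_refl_vec (Q : QuadraticForm F V) (u w x : V) (lam mu p s γ a b N : F)
    (hpd : Q u = p) (hsd : Q w = s) (hγ : QuadraticMap.polar (⇑Q) u w = γ)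
    (ha : QuadraticMap.polar (⇑Q) u x = a) (hb : QuadraticMap.polar (⇑Q) w x = b)
    (hNd : Q (lam • u + mu • w) = N) (hp : p ≠ 0) (hs : s ≠ 0) (hN : N ≠ 0) :
    Q (-(mu * s) • u + (lam * p + mu * γ) • w) = p * s * N ∧
    (x - (s⁻¹ * b) • w - (p⁻¹ * QuadraticMap.polar (⇑Q) u (x - (s⁻¹ * b) • w)) • u)
      - (N⁻¹ * QuadraticMap.polar (⇑Q) (lam • u + mu • w)
          (x - (s⁻¹ * b) • w - (p⁻¹ * QuadraticMap.polar (⇑Q) u (x - (s⁻¹ * b) • w)) • u))
        • (lam • u + mu • w)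
      = x - ((p * s * N)⁻¹ * QuadraticMap.polar (⇑Q) (-(mu * s) • u + (lam * p + mu * γ) • w) x)
        • (-(mu * s) • u + (lam * p + mu * γ) • w) := by
  have huu : QuadraticMap.polar (⇑Q) u u = 2 * p := by rw [kit_polar_self, hpd]
  have hww : QuadraticMap.polar (⇑Q) w w = 2 * s := by rw [kit_polar_self, hsd]
  have hwu : QuadraticMap.polar (⇑Q) w u = γ := by rw [QuadraticMap.polar_comm, hγ]
  have hNe : N = lam * lam * p + mu * mu * s + lam * mu * γ := by
    rw [← hNd, kit_add, QuadraticMap.map_smul, QuadraticMap.map_smul,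
      QuadraticMap.polar_smul_left, QuadraticMap.polar_smul_right, hpd, hsd, hγ]
    simp only [smul_eq_mul]
    ring
  have hy : Q (-(mu * s) • u + (lam * p + mu * γ) • w) = p * s * N := by
    rw [hNe, kit_add, QuadraticMap.map_smul, QuadraticMap.map_smul,
      QuadraticMap.polar_smul_left, QuadraticMap.polar_smul_right, hpd, hsd, hγ]
    simp only [smul_eq_mul]
    ring
  obtain ⟨a₁, ha₁⟩ : ∃ a₁ : F, a₁ = a - s⁻¹ * b * γ := ⟨_, rfl⟩
  obtain ⟨C, hC⟩ : ∃ C : F, C = -(lam * a₁) + mu * (-b - p⁻¹ * a₁ * γ) := ⟨_, rfl⟩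
  obtain ⟨D, hD⟩ : ∃ D : F, D = -(mu * s) * a + (lam * p + mu * γ) * b := ⟨_, rfl⟩
  have h1 : QuadraticMap.polar (⇑Q) u (x - (s⁻¹ * b) • w) = a₁ := by
    rw [QuadraticMap.polar_sub_right, QuadraticMap.polar_smul_right, ha, hγ, smul_eq_mul, ha₁]
  have h1w : QuadraticMap.polar (⇑Q) w (x - (s⁻¹ * b) • w) = -b := by
    rw [QuadraticMap.polar_sub_right, QuadraticMap.polar_smul_right, hb, hww, smul_eq_mul]
    linear_combination (-2 * b) * inv_mul_cancel₀ hs
  rw [h1]
  have h2 : QuadraticMap.polar (⇑Q) u (x - (s⁻¹ * b) • w - (p⁻¹ * a₁) • u) = -a₁ := by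
    rw [QuadraticMap.polar_sub_right, QuadraticMap.polar_smul_right, h1, huu, smul_eq_mul]
    linear_combination (-2 * a₁) * inv_mul_cancel₀ hp
  have h3 : QuadraticMap.polar (⇑Q) w (x - (s⁻¹ * b) • w - (p⁻¹ * a₁) • u)
      = -b - p⁻¹ * a₁ * γ := by
    rw [QuadraticMap.polar_sub_right, QuadraticMap.polar_smul_right, h1w, hwu, smul_eq_mul]
  have h4 : QuadraticMap.polar (⇑Q) (lam • u + mu • w) (x - (s⁻¹ * b) • w - (p⁻¹ * a₁) • u)
      = C := by
    rw [QuadraticMap.polar_add_left, QuadraticMap.polar_smul_left, QuadraticMap.polar_smul_left,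
      h2, h3, hC]
    simp only [smul_eq_mul]
    ring
  have h5 : QuadraticMap.polar (⇑Q) (-(mu * s) • u + (lam * p + mu * γ) • w) x = D := by
    rw [QuadraticMap.polar_add_left, QuadraticMap.polar_smul_left, QuadraticMap.polar_smul_left,
      ha, hb, hD]
    simp only [smul_eq_mul]
  obtain ⟨e1, e2⟩ := three_refl_scal p s γ a b lam mu N a₁ C D hp hs hN hNe ha₁ hC hD
  refine ⟨hy, ?_⟩
  rw [h4, h5]
  have L : (x - (s⁻¹ * b) • w - (p⁻¹ * a₁) • u) - (N⁻¹ * C) • (lam • u + mu • w)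
      = x - (p⁻¹ * a₁ + N⁻¹ * C * lam) • u - (s⁻¹ * b + N⁻¹ * C * mu) • w := by
    module
  have Rr : x - ((p * s * N)⁻¹ * D) • (-(mu * s) • u + (lam * p + mu * γ) • w)
      = x - ((p * s * N)⁻¹ * D * (-(mu * s))) • u
        - ((p * s * N)⁻¹ * D * (lam * p + mu * γ)) • w := by
    module
  rw [L, Rr, e1, e2]

end Abs3

section Mat3

open Matrix

variable {F : Type*} [Field F] {κ : Type} [Fintype κ] [DecidableEq κ]

/-- In a non-degenerate plane: the square of a product of two reflections lies in every normal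
subgroup containing the reflections in the vectors of norm `c`. -/
theorem refl_sq_mem_nd [Finite F] (h2 : (2 : F) ≠ 0) (Q : QuadraticForm F (κ → F))
    (T : Subgroup ↥(Cfsg.isometryGroup F ⇑Q)) (hT : T.Normal) (c : F) (hc : c ≠ 0)
    (hTc : ∀ z (hz : Q z ≠ 0), Q z = c → reflEl Q z hz ∈ T)
    (u w : κ → F) (hu : Q u ≠ 0) (hw : Q w ≠ 0)
    (hnd : 4 * Q u * Q w ≠ QuadraticMap.polar (⇑Q) u w * QuadraticMap.polar (⇑Q) u w) :
    (reflEl Q u hu * reflEl Q w hw) * (reflEl Q u hu * reflEl Q w hw) ∈ T := by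
  obtain ⟨γ, hγ⟩ : ∃ γ : F, γ = QuadraticMap.polar (⇑Q) u w := ⟨_, rfl⟩
  obtain ⟨i, hi⟩ : ∃ i : F, i = (2 * Q u)⁻¹ := ⟨_, rfl⟩
  have e : 2 * Q u * i = 1 := by
    rw [hi]
    exact mul_inv_cancel₀ (mul_ne_zero h2 hu)
  rw [← hγ] at hnd
  have hd' : Q w - γ * γ * i * i * Q u ≠ 0 := by
    intro h0
    apply hnd
    linear_combination (4 * Q u) * h0 + (γ * γ * (2 * Q u * i + 1)) * e
  obtain ⟨X, mu, hX⟩ := Cfsg.Agent.Helper6.exists_sq_add_sq h2 hu hd' c
  obtain ⟨lam, hlam⟩ : ∃ lam : F, lam = X - γ * i * mu := ⟨_, rfl⟩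
  have hNe : Q (lam • u + mu • w) = lam * lam * Q u + mu * mu * Q w + lam * mu * γ := by
    rw [kit_add, QuadraticMap.map_smul, QuadraticMap.map_smul, QuadraticMap.polar_smul_left,
      QuadraticMap.polar_smul_right, ← hγ]
    simp only [smul_eq_mul]
    ring
  have hz : Q (lam • u + mu • w) = c := by
    rw [hNe, hlam]
    linear_combination hX - (X * γ * mu - γ * γ * mu * mu * i) * e
  have hz0 : Q (lam • u + mu • w) ≠ 0 := by
    rw [hz]
    exact hc
  have hzT := hTc (lam • u + mu • w) hz0 hz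
  have hvec := fun x => three_refl_vec Q u w x lam mu (Q u) (Q w) (QuadraticMap.polar (⇑Q) u w)
    (QuadraticMap.polar (⇑Q) u x) (QuadraticMap.polar (⇑Q) w x) (Q (lam • u + mu • w))
    rfl rfl rfl rfl rfl rfl hu hw hz0
  have hy0 : Q (-(mu * Q w) • u + (lam * Q u + mu * QuadraticMap.polar (⇑Q) u w) • w) ≠ 0 := by
    rw [(hvec 0).1]
    exact mul_ne_zero (mul_ne_zero hu hw) hz0
  have hact : ActsRefl Q (reflEl Q (lam • u + mu • w) hz0 * (reflEl Q u hu * reflEl Q w hw))
      (-(mu * Q w) • u + (lam * Q u + mu * QuadraticMap.polar (⇑Q) u w) • w) := by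
    intro x
    have e1 := actsRefl_reflEl Q w hw x
    have e2 := actsRefl_reflEl Q u hu (x - ((Q w)⁻¹ * QuadraticMap.polar (⇑Q) w x) • w)
    have e3 := actsRefl_reflEl Q (lam • u + mu • w) hz0
      (x - ((Q w)⁻¹ * QuadraticMap.polar (⇑Q) w x) • w
        - ((Q u)⁻¹ * QuadraticMap.polar (⇑Q) u
          (x - ((Q w)⁻¹ * QuadraticMap.polar (⇑Q) w x) • w)) • u)
    rw [map_mul, map_mul, LinearEquiv.mul_apply, LinearEquiv.mul_apply, e1, e2, e3, (hvec x).1]
    exact (hvec x).2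
  have hg := actsRefl_sq Q _ _ hy0 hact
  obtain ⟨ρ, hρ⟩ : ∃ ρ, ρ = reflEl Q u hu * reflEl Q w hw := ⟨_, rfl⟩
  obtain ⟨rz, hrz⟩ : ∃ rz, rz = reflEl Q (lam • u + mu • w) hz0 := ⟨_, rfl⟩
  rw [← hρ, ← hrz] at hg
  rw [← hrz] at hzT
  rw [← hρ]
  have h6 : rz * ρ = ρ⁻¹ * rz⁻¹ := by
    rw [← _root_.mul_inv_rev]
    exact eq_inv_of_mul_eq_one_left hg
  have h5 : ρ = rz⁻¹ * (ρ⁻¹ * rz⁻¹) := by
    rw [← h6, inv_mul_cancel_left]
  have h7 : ρ * ρ = ρ * rz⁻¹ * ρ⁻¹ * rz⁻¹ := by
    calc ρ * ρ = ρ * (rz⁻¹ * (ρ⁻¹ * rz⁻¹)) := congrArg (fun t => ρ * t) h5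
      _ = ρ * rz⁻¹ * ρ⁻¹ * rz⁻¹ := by simp only [mul_assoc]
  rw [h7]
  exact T.mul_mem (hT.conj_mem _ (T.inv_mem hzT) ρ) (T.inv_mem hzT)

/-- Two reflections in vectors of the same norm spanning a non-degenerate plane are congruent
modulo every normal subgroup containing the reflections in the vectors of norm `c`. -/
theorem refl_swap_mem [Finite F] (h2 : (2 : F) ≠ 0) (Q : QuadraticForm F (κ → F))
    (T : Subgroup ↥(Cfsg.isometryGroup F ⇑Q)) (hT : T.Normal) (c : F) (hc : c ≠ 0)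
    (hTc : ∀ z (hz : Q z ≠ 0), Q z = c → reflEl Q z hz ∈ T)
    (a t : κ → F) (ha : Q a ≠ 0) (ht : Q t ≠ 0) (hat : Q t = Q a)
    (h1 : QuadraticMap.polar (⇑Q) a t ≠ 2 * Q a)
    (h1' : QuadraticMap.polar (⇑Q) a t ≠ -(2 * Q a)) :
    reflEl Q a ha * reflEl Q t ht ∈ T := by
  have hQv : Q (a - t) = 2 * Q a - QuadraticMap.polar (⇑Q) a t := by
    rw [sub_eq_add_neg, kit_add, QuadraticMap.map_neg, QuadraticMap.polar_neg_right, hat]
    ring
  have hpav : QuadraticMap.polar (⇑Q) a (a - t)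
      = 2 * Q a - QuadraticMap.polar (⇑Q) a t := by
    rw [QuadraticMap.polar_sub_right, kit_polar_self]
  have hv : Q (a - t) ≠ 0 := by
    rw [hQv]
    exact fun h => h1 (by linear_combination -h)
  have hmove : isoActF ⇑Q (reflEl Q (a - t) hv) a = t := by
    have e := actsRefl_reflEl Q (a - t) hv a
    rw [e, QuadraticMap.polar_comm, hpav, ← hQv, inv_mul_cancel₀ hv, one_smul, sub_sub_cancel]
  have hconj : reflEl Q (a - t) hv * reflEl Q a ha * (reflEl Q (a - t) hv)⁻¹
      = reflEl Q t ht := by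
    have h3 := actsRefl_conj Q (reflEl Q a ha) (reflEl Q (a - t) hv) a (actsRefl_reflEl Q a ha)
    rw [hmove] at h3
    exact actsRefl_unique Q _ _ t h3 (actsRefl_reflEl Q t ht)
  have hsq := actsRefl_sq Q (reflEl Q (a - t) hv) (a - t) hv (actsRefl_reflEl Q (a - t) hv)
  have hinv : (reflEl Q (a - t) hv)⁻¹ = reflEl Q (a - t) hv := inv_eq_of_mul_eq_one_left hsq
  rw [hinv] at hconj
  have hnd : 4 * Q a * Q (a - t)
      ≠ QuadraticMap.polar (⇑Q) a (a - t) * QuadraticMap.polar (⇑Q) a (a - t) := by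
    rw [hpav, hQv]
    intro h
    have h4 : (2 * Q a - QuadraticMap.polar (⇑Q) a t)
        * (2 * Q a + QuadraticMap.polar (⇑Q) a t) = 0 := by
      linear_combination h
    rcases mul_eq_zero.1 h4 with h5 | h5
    · exact h1 (by linear_combination -h5)
    · exact h1' (by linear_combination h5)
  have hP := refl_sq_mem_nd h2 Q T hT c hc hTc a (a - t) ha hv hnd
  rw [← hconj]
  have e : reflEl Q a ha * (reflEl Q (a - t) hv * reflEl Q a ha * reflEl Q (a - t) hv)
      = (reflEl Q a ha * reflEl Q (a - t) hv) * (reflEl Q a ha * reflEl Q (a - t) hv) := by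
    simp only [mul_assoc]
  rw [e]
  exact hP

/-- An intermediate vector between `u` and `u + k`, `k` singular and orthogonal to `u`. -/
theorem exists_mid [Fintype F] (h2 : (2 : F) ≠ 0) (Q : QuadraticForm F (κ → F))
    (hQ : (QuadraticMap.polarBilin Q).Nondegenerate)
    (hn : Fintype.card F = 3 → 5 ≤ Fintype.card κ ∨ Fintype.card κ ≤ 2)
    (u k : κ → F) (hu : Q u ≠ 0) (hk0 : k ≠ 0) (hk : Q k = 0)
    (huk : QuadraticMap.polar (⇑Q) u k = 0) :
    ∃ t, Q t = Q u ∧ QuadraticMap.polar (⇑Q) u t = 0 ∧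
      QuadraticMap.polar (⇑Q) k t ≠ 2 * Q u ∧ QuadraticMap.polar (⇑Q) k t ≠ -(2 * Q u) := by
  classical
  have h2d : 2 * Q u ≠ 0 := mul_ne_zero h2 hu
  have hku : QuadraticMap.polar (⇑Q) k u = 0 := by
    rw [QuadraticMap.polar_comm]
    exact huk
  have hkk : QuadraticMap.polar (⇑Q) k k = 0 := by
    rw [kit_polar_self, hk, mul_zero]
  have huu : QuadraticMap.polar (⇑Q) u u = 2 * Q u := kit_polar_self Q u
  obtain ⟨y₀, hy₀⟩ : ∃ y, QuadraticMap.polar (⇑Q) k y ≠ 0 := by
    by_contra hcon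
    push Not at hcon
    exact hk0 (hQ.1 k (fun y => hcon y))
  obtain ⟨y, hyu, hyk⟩ : ∃ y, QuadraticMap.polar (⇑Q) u y = 0 ∧
      QuadraticMap.polar (⇑Q) k y ≠ 0 := by
    refine ⟨y₀ - (QuadraticMap.polar (⇑Q) u y₀ * (2 * Q u)⁻¹) • u, ?_, ?_⟩
    · rw [QuadraticMap.polar_sub_right, QuadraticMap.polar_smul_right, huu, smul_eq_mul,
        mul_assoc, inv_mul_cancel₀ h2d, mul_one, sub_self]
    · rw [QuadraticMap.polar_sub_right, QuadraticMap.polar_smul_right, hku, smul_zero, sub_zero]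
      exact hy₀
  obtain ⟨η, hη⟩ : ∃ η : F, η = QuadraticMap.polar (⇑Q) k y := ⟨_, rfl⟩
  rw [← hη] at hyk
  have hyk' : QuadraticMap.polar (⇑Q) y k = η := by
    rw [QuadraticMap.polar_comm, hη]
  by_cases h3 : Fintype.card F = 3
  · obtain ⟨k', hk'Q, hk'u, hk'k⟩ : ∃ k', Q k' = 0 ∧ QuadraticMap.polar (⇑Q) u k' = 0 ∧
        QuadraticMap.polar (⇑Q) k k' = η := by
      refine ⟨y - (Q y * η⁻¹) • k, ?_, ?_, ?_⟩
      · rw [sub_eq_add_neg, kit_add, QuadraticMap.map_neg, QuadraticMap.polar_neg_right,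
          QuadraticMap.map_smul, hk, smul_zero, add_zero, QuadraticMap.polar_smul_right, hyk',
          smul_eq_mul, mul_assoc, inv_mul_cancel₀ hyk, mul_one]
        ring
      · rw [QuadraticMap.polar_sub_right, QuadraticMap.polar_smul_right, hyu, huk, smul_zero,
          sub_zero]
      · rw [QuadraticMap.polar_sub_right, QuadraticMap.polar_smul_right, hkk, smul_zero,
          sub_zero, hη]
    have hk'k' : QuadraticMap.polar (⇑Q) k' k' = 0 := by
      rw [kit_polar_self, hk'Q, mul_zero]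
    have hk'k2 : QuadraticMap.polar (⇑Q) k' k = η := by
      rw [QuadraticMap.polar_comm, hk'k]
    have hk'u2 : QuadraticMap.polar (⇑Q) k' u = 0 := by
      rw [QuadraticMap.polar_comm, hk'u]
    have key : ∀ α β γ : F, QuadraticMap.polar (⇑Q) u (α • u + β • k + γ • k') = 0 →
        QuadraticMap.polar (⇑Q) k (α • u + β • k + γ • k') = 0 →
        QuadraticMap.polar (⇑Q) k' (α • u + β • k + γ • k') = 0 → α = 0 ∧ β = 0 ∧ γ = 0 := by
      intro α β γ e1 e2 e3
      simp only [QuadraticMap.polar_add_right, QuadraticMap.polar_smul_right, huu, huk, hk'u,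
        hku, hkk, hk'k, hk'u2, hk'k2, hk'k', smul_eq_mul, mul_zero, add_zero, zero_add]
        at e1 e2 e3
      exact ⟨(mul_eq_zero.1 e1).resolve_right h2d, (mul_eq_zero.1 e3).resolve_right hyk,
        (mul_eq_zero.1 e2).resolve_right hyk⟩
    have hli : LinearIndependent F ![u, k, k'] := by
      rw [Fintype.linearIndependent_iff]
      intro g hg
      rw [Fin.sum_univ_three] at hg
      have hg' : g 0 • u + g 1 • k + g 2 • k' = 0 := hg
      obtain ⟨e0, e1, e2⟩ := key (g 0) (g 1) (g 2)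
        (by rw [hg', QuadraticMap.polar_zero_right])
        (by rw [hg', QuadraticMap.polar_zero_right])
        (by rw [hg', QuadraticMap.polar_zero_right])
      intro j
      fin_cases j
      · exact e0
      · exact e1
      · exact e2
    have h3n : 3 ≤ Fintype.card κ := by
      have h4 := hli.fintype_card_le_finrank
      rw [Fintype.card_fin, Module.finrank_fintype_fun_eq_card] at h4
      exact h4
    have h5n : 5 ≤ Fintype.card κ := by
      rcases hn h3 with h | h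
      · exact h
      · omega
    obtain ⟨H, hH⟩ : ∃ H : Submodule F (κ → F),
        H = Submodule.span F {u} ⊔ Submodule.span F {k} ⊔ Submodule.span F {k'} := ⟨_, rfl⟩
    have huH : u ∈ H := by
      rw [hH]
      exact Submodule.mem_sup_left (Submodule.mem_sup_left (Submodule.mem_span_singleton_self u))
    have hkH : k ∈ H := by
      rw [hH]
      exact Submodule.mem_sup_left (Submodule.mem_sup_right (Submodule.mem_span_singleton_self k))
    have hk'H : k' ∈ H := by
      rw [hH]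
      exact Submodule.mem_sup_right (Submodule.mem_span_singleton_self k')
    have hHbot : H ⊓ LinearMap.BilinForm.orthogonal (QuadraticMap.polarBilin Q) H = ⊥ := by
      rw [eq_bot_iff]
      rintro x ⟨hxH, hxP⟩
      have hxP' := (mem_perp_iff Q H x).1 hxP
      rw [hH] at hxH
      obtain ⟨x₁, hx₁, x₂, hx₂, rfl⟩ := Submodule.mem_sup.1 hxH
      obtain ⟨x₃, hx₃, x₄, hx₄, rfl⟩ := Submodule.mem_sup.1 hx₁
      obtain ⟨α, rfl⟩ := Submodule.mem_span_singleton.1 hx₃
      obtain ⟨β, rfl⟩ := Submodule.mem_span_singleton.1 hx₄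
      obtain ⟨γ, rfl⟩ := Submodule.mem_span_singleton.1 hx₂
      obtain ⟨e0, e1, e2⟩ := key α β γ (hxP' u huH) (hxP' k hkH) (hxP' k' hk'H)
      rw [e0, e1, e2, zero_smul, zero_smul, zero_smul, add_zero, add_zero]
      exact Submodule.zero_mem _
    have hfH : Module.finrank F H ≤ 3 := by
      have hu0 : u ≠ 0 := by
        rintro rfl
        exact hu (QuadraticMap.map_zero Q)
      have f1 : Module.finrank F ↥(Submodule.span F {u}) = 1 := finrank_span_singleton hu0
      have f2 := finrank_sup_span_le (Submodule.span F {u}) k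
      have f3 := finrank_sup_span_le (Submodule.span F {u} ⊔ Submodule.span F {k}) k'
      rw [hH]
      omega
    have hfr := LinearMap.BilinForm.finrank_orthogonal hQ H
    rw [Module.finrank_fintype_fun_eq_card] at hfr
    have hYbot : LinearMap.BilinForm.orthogonal (QuadraticMap.polarBilin Q) H ⊓
        LinearMap.BilinForm.orthogonal (QuadraticMap.polarBilin Q)
          (LinearMap.BilinForm.orthogonal (QuadraticMap.polarBilin Q) H) = ⊥ := by
      rw [LinearMap.BilinForm.orthogonal_orthogonal hQ (kit_refl Q) H, inf_comm]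
      exact hHbot
    obtain ⟨t, htY, ht⟩ := univ_sub h2 Q _ hYbot (by omega) (Q u)
    have htP := (mem_perp_iff Q H t).1 htY
    refine ⟨t, ht, htP u huH, ?_, ?_⟩
    · rw [htP k hkH]
      exact Ne.symm h2d
    · rw [htP k hkH]
      exact Ne.symm (neg_ne_zero.2 h2d)
  · obtain ⟨σ, hσ0, hσ2, hσ2'⟩ : ∃ σ : F, σ ≠ 0 ∧ σ ≠ 2 ∧ σ ≠ -2 := by
      by_contra hall
      push Not at hall
      apply h3
      have h22 : (2 : F) ≠ -2 := by
        intro h
        have h4 : (2 : F) * 2 = 0 := by linear_combination h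
        exact h2 (mul_self_eq_zero.1 h4)
      have hsub : (Finset.univ : Finset F) = {0, 2, -2} := by
        ext σ
        simp only [Finset.mem_univ, Finset.mem_insert, Finset.mem_singleton, true_iff]
        by_cases h0 : σ = 0
        · exact Or.inl h0
        · by_cases h1 : σ = 2
          · exact Or.inr (Or.inl h1)
          · exact Or.inr (Or.inr (hall σ h0 h1))
      have hm1 : (2 : F) ∉ ({-2} : Finset F) := by
        rw [Finset.mem_singleton]
        exact h22
      have hm0 : (0 : F) ∉ ({2, -2} : Finset F) := by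
        rw [Finset.mem_insert, Finset.mem_singleton]
        exact not_or.2 ⟨Ne.symm h2, fun h => h2 (by linear_combination h)⟩
      rw [← Finset.card_univ, hsub, Finset.card_insert_of_notMem hm0,
        Finset.card_insert_of_notMem hm1, Finset.card_singleton]
    obtain ⟨t₀, ht₀u, ht₀k⟩ : ∃ t₀, QuadraticMap.polar (⇑Q) u t₀ = 0 ∧
        QuadraticMap.polar (⇑Q) k t₀ = σ * Q u := by
      refine ⟨(σ * Q u * η⁻¹) • y, ?_, ?_⟩
      · rw [QuadraticMap.polar_smul_right, hyu, smul_zero]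
      · rw [QuadraticMap.polar_smul_right, ← hη, smul_eq_mul, mul_assoc, inv_mul_cancel₀ hyk,
          mul_one]
    have hσd : σ * Q u ≠ 0 := mul_ne_zero hσ0 hu
    refine ⟨t₀ + ((Q u - Q t₀) * (σ * Q u)⁻¹) • k, ?_, ?_, ?_, ?_⟩
    · rw [kit_add, QuadraticMap.map_smul, hk, smul_zero, add_zero,
        QuadraticMap.polar_smul_right, QuadraticMap.polar_comm _ t₀ k, ht₀k, smul_eq_mul,
        mul_assoc, inv_mul_cancel₀ hσd, mul_one]
      ring
    · rw [QuadraticMap.polar_add_right, QuadraticMap.polar_smul_right, ht₀u, huk, smul_zero,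
        add_zero]
    · rw [QuadraticMap.polar_add_right, QuadraticMap.polar_smul_right, ht₀k, hkk, smul_zero,
        add_zero]
      intro h
      apply hσ2
      have h5 : (σ - 2) * Q u = 0 := by linear_combination h
      exact sub_eq_zero.1 ((mul_eq_zero.1 h5).resolve_right hu)
    · rw [QuadraticMap.polar_add_right, QuadraticMap.polar_smul_right, ht₀k, hkk, smul_zero,
        add_zero]
      intro h
      apply hσ2'
      have h5 : (σ + 2) * Q u = 0 := by linear_combination h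
      exact eq_neg_of_add_eq_zero_left ((mul_eq_zero.1 h5).resolve_right hu)

/-- In a degenerate plane: the square of a product of two reflections lies in every normal
subgroup containing the reflections in the vectors of norm `c`. -/
theorem refl_sq_mem_deg [Fintype F] (h2 : (2 : F) ≠ 0) (Q : QuadraticForm F (κ → F))
    (hQ : (QuadraticMap.polarBilin Q).Nondegenerate)
    (hn : Fintype.card F = 3 → 5 ≤ Fintype.card κ ∨ Fintype.card κ ≤ 2)
    (T : Subgroup ↥(Cfsg.isometryGroup F ⇑Q)) (hT : T.Normal) (c : F) (hc : c ≠ 0)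
    (hTc : ∀ z (hz : Q z ≠ 0), Q z = c → reflEl Q z hz ∈ T)
    (u w : κ → F) (hu : Q u ≠ 0) (hw : Q w ≠ 0)
    (hdeg : 4 * Q u * Q w = QuadraticMap.polar (⇑Q) u w * QuadraticMap.polar (⇑Q) u w) :
    (reflEl Q u hu * reflEl Q w hw) * (reflEl Q u hu * reflEl Q w hw) ∈ T := by
  obtain ⟨γ, hγ⟩ : ∃ γ : F, γ = QuadraticMap.polar (⇑Q) u w := ⟨_, rfl⟩
  rw [← hγ] at hdeg
  have hγ0 : γ ≠ 0 := by
    rintro rfl
    rw [mul_zero] at hdeg
    exact mul_ne_zero (mul_ne_zero (mul_ne_zero h2 h2) hu) hw (by linear_combination hdeg)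
  have hτ : 2 * Q u * γ⁻¹ ≠ 0 := mul_ne_zero (mul_ne_zero h2 hu) (inv_ne_zero hγ0)
  obtain ⟨w', hw'def⟩ : ∃ w' : κ → F, w' = (2 * Q u * γ⁻¹) • w := ⟨_, rfl⟩
  have hQw' : Q w' = Q u := by
    rw [hw'def, QuadraticMap.map_smul, smul_eq_mul]
    linear_combination (Q u * γ⁻¹ * γ⁻¹) * hdeg + Q u * (γ⁻¹ * γ + 1) * inv_mul_cancel₀ hγ0
  have huw' : QuadraticMap.polar (⇑Q) u w' = 2 * Q u := by
    rw [hw'def, QuadraticMap.polar_smul_right, ← hγ, smul_eq_mul, mul_assoc,
      inv_mul_cancel₀ hγ0, mul_one]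
  have hw'0 : Q w' ≠ 0 := by
    rw [hQw']
    exact hu
  have hrw : reflEl Q w hw = reflEl Q w' hw'0 := by
    apply actsRefl_unique Q _ _ w' _ (actsRefl_reflEl Q w' hw'0)
    rw [hw'def]
    exact actsRefl_smul Q _ w _ hτ (actsRefl_reflEl Q w hw)
  rw [hrw]
  obtain ⟨k, hkdef⟩ : ∃ k : κ → F, k = w' - u := ⟨_, rfl⟩
  have hw'k : w' = u + k := by
    rw [hkdef]
    abel
  have hw'u : QuadraticMap.polar (⇑Q) w' u = 2 * Q u := by
    rw [QuadraticMap.polar_comm, huw']
  have hQk : Q k = 0 := by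
    rw [hkdef, sub_eq_add_neg, kit_add, QuadraticMap.map_neg, QuadraticMap.polar_neg_right,
      hQw', hw'u]
    ring
  have hpuk : QuadraticMap.polar (⇑Q) u k = 0 := by
    rw [hkdef, QuadraticMap.polar_sub_right, huw', kit_polar_self, sub_self]
  by_cases hk0 : k = 0
  · have hw'u' : w' = u := by rw [hw'k, hk0, add_zero]
    have hr : reflEl Q w' hw'0 = reflEl Q u hu := by
      apply actsRefl_unique Q _ _ u _ (actsRefl_reflEl Q u hu)
      rw [← hw'u']
      exact actsRefl_reflEl Q w' hw'0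
    rw [hr, actsRefl_sq Q _ u hu (actsRefl_reflEl Q u hu), one_mul]
    exact T.one_mem
  · obtain ⟨t, ht, hut, hkt1, hkt2⟩ := exists_mid h2 Q hQ hn u k hu hk0 hQk hpuk
    have htn : Q t ≠ 0 := by
      rw [ht]
      exact hu
    have s1 := refl_swap_mem h2 Q T hT c hc hTc u t hu htn ht
      (by rw [hut]; exact Ne.symm (mul_ne_zero h2 hu))
      (by rw [hut]; exact Ne.symm (neg_ne_zero.2 (mul_ne_zero h2 hu)))
    have hptw : QuadraticMap.polar (⇑Q) t w' = QuadraticMap.polar (⇑Q) k t := by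
      rw [hw'k, QuadraticMap.polar_add_right, QuadraticMap.polar_comm _ t u, hut, zero_add,
        QuadraticMap.polar_comm _ t k]
    have s2 := refl_swap_mem h2 Q T hT c hc hTc t w' htn hw'0 (hQw'.trans ht.symm)
      (by rw [hptw, ht]; exact hkt1) (by rw [hptw, ht]; exact hkt2)
    have e : reflEl Q u hu * reflEl Q w' hw'0
        = (reflEl Q u hu * reflEl Q t htn) * (reflEl Q t htn * reflEl Q w' hw'0) := by
      rw [mul_assoc, ← mul_assoc (reflEl Q t htn),
        actsRefl_sq Q _ t htn (actsRefl_reflEl Q t htn), one_mul]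
    rw [e]
    exact T.mul_mem (T.mul_mem s1 s2) (T.mul_mem s1 s2)

/-- The subgroup generated by the reflections of one norm class is normal. -/
theorem refl_closure_normal (Q : QuadraticForm F (κ → F)) (c : F) (hc : c ≠ 0) :
    (Subgroup.closure {g : ↥(Cfsg.isometryGroup F ⇑Q) | ∃ (v : κ → F) (t : F), t ≠ 0 ∧
      Q v = c * t ^ 2 ∧ ((g : Matrix.GeneralLinearGroup κ F) : Matrix κ κ F)
        = Cfsg.reflectionMatrix ⇑Q v}).Normal := by
  obtain ⟨S, hS⟩ : ∃ S : Set ↥(Cfsg.isometryGroup F ⇑Q),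
      S = {g : ↥(Cfsg.isometryGroup F ⇑Q) | ∃ (v : κ → F) (t : F),
        t ≠ 0 ∧ Q v = c * t ^ 2 ∧ ((g : Matrix.GeneralLinearGroup κ F) : Matrix κ κ F)
          = Cfsg.reflectionMatrix ⇑Q v} := ⟨_, rfl⟩
  rw [← hS]
  have hconj : Group.conjugatesOfSet S = S := by
    apply Set.Subset.antisymm
    · intro x hx
      obtain ⟨a, haS, hax⟩ := Group.mem_conjugatesOfSet_iff.1 hx
      obtain ⟨h, rfl⟩ := isConj_iff.1 hax
      rw [hS] at haS ⊢
      obtain ⟨v, t, ht, hv, hmat⟩ := haS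
      have hv0 : Q v ≠ 0 := by
        rw [hv]
        exact mul_ne_zero hc (pow_ne_zero 2 ht)
      have h1 := actsRefl_conj Q a h v (actsRefl_of_matrix Q a v hmat)
      have hv' : Q (isoActF ⇑Q h v) = Q v := isoActF_isom ⇑Q h v
      have hv0' : Q (isoActF ⇑Q h v) ≠ 0 := by
        rw [hv']
        exact hv0
      have h3 := actsRefl_unique Q _ _ _ h1 (actsRefl_reflEl Q _ hv0')
      refine ⟨isoActF ⇑Q h v, t, ht, hv'.trans hv, ?_⟩
      rw [h3]
      rfl
    · exact Group.subset_conjugatesOfSet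
  have h4 : Subgroup.closure S = Subgroup.normalClosure S := by
    rw [Subgroup.normalClosure, hconj]
  rw [h4]
  exact Subgroup.normalClosure_normal

/-- For `q` odd, the reflections of one norm class generate a subgroup of index two of the
isometry group (in dimension at least two, and dimension `2` or at least `5` over the field
with three elements). -/
theorem refl_class_index [Fintype F] (h2 : (2 : F) ≠ 0) (i₀ i₁ : κ) (hi : i₀ ≠ i₁)
    (Q : QuadraticForm F (κ → F)) (hQ : (QuadraticMap.polarBilin Q).Nondegenerate)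
    (hn : Fintype.card F = 3 → 5 ≤ Fintype.card κ ∨ Fintype.card κ ≤ 2) (c : F) (hc : c ≠ 0) :
    (Subgroup.closure {g : ↥(Cfsg.isometryGroup F ⇑Q) | ∃ (v : κ → F) (t : F), t ≠ 0 ∧
      Q v = c * t ^ 2 ∧ ((g : Matrix.GeneralLinearGroup κ F) : Matrix κ κ F)
        = Cfsg.reflectionMatrix ⇑Q v}).index = 2 := by
  have hT := refl_closure_normal Q c hc
  obtain ⟨T, hTdef⟩ : ∃ T : Subgroup ↥(Cfsg.isometryGroup F ⇑Q),
      T = Subgroup.closure {g : ↥(Cfsg.isometryGroup F ⇑Q) | ∃ (v : κ → F) (t : F), t ≠ 0 ∧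
        Q v = c * t ^ 2 ∧ ((g : Matrix.GeneralLinearGroup κ F) : Matrix κ κ F)
          = Cfsg.reflectionMatrix ⇑Q v} := ⟨_, rfl⟩
  rw [← hTdef] at hT ⊢
  have hgen : ∀ (v : κ → F) (t : F) (hv : Q v ≠ 0), t ≠ 0 → Q v = c * t ^ 2 →
      reflEl Q v hv ∈ T := by
    intro v t hv ht hvt
    rw [hTdef]
    exact Subgroup.subset_closure ⟨v, t, ht, hvt, rfl⟩
  have hTc : ∀ z (hz : Q z ≠ 0), Q z = c → reflEl Q z hz ∈ T := fun z hz hzc =>
    hgen z 1 hz one_ne_zero (by rw [hzc, one_pow, mul_one])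
  have hcard2 : Fintype.card F ≠ 2 := by
    intro h
    apply h2
    have h3 := Nat.cast_card_eq_zero F
    rw [h] at h3
    exact_mod_cast h3
  have hΩ : commutator ↥(Cfsg.isometryGroup F ⇑Q) ≤ T := by
    apply comm_le_of_refl Q hQ (Or.inl hcard2) T hT
    intro r r' w w' hw hw' hr hr'
    rw [actsRefl_unique Q r _ w hr (actsRefl_reflEl Q w hw),
      actsRefl_unique Q r' _ w' hr' (actsRefl_reflEl Q w' hw')]
    by_cases hdeg : 4 * Q w * Q w'
        = QuadraticMap.polar (⇑Q) w w' * QuadraticMap.polar (⇑Q) w w'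
    · exact refl_sq_mem_deg h2 Q hQ hn T hT c hc hTc w w' hw hw' hdeg
    · exact refl_sq_mem_nd h2 Q T hT c hc hTc w w' hw hw' hdeg
  have hchar : ringChar F ≠ 2 := by
    intro h
    apply h2
    have h3 := CharP.cast_eq_zero F (ringChar F)
    rw [h] at h3
    exact_mod_cast h3
  obtain ⟨ε, hε⟩ := FiniteField.exists_nonsquare hchar
  have hε0 : ε ≠ 0 := by
    rintro rfl
    exact hε IsSquare.zero
  have hcε : c * ε ≠ 0 := mul_ne_zero hc hε0
  obtain ⟨v₀, hv₀⟩ := exists_norm_valK h2 i₀ i₁ hi Q hQ (c * ε)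
  have hv₀0 : Q v₀ ≠ 0 := by
    rw [hv₀]
    exact hcε
  obtain ⟨r₀, hr₀def⟩ : ∃ r₀, r₀ = reflEl Q v₀ hv₀0 := ⟨_, rfl⟩
  have hr₀a : ActsRefl Q r₀ v₀ := by
    rw [hr₀def]
    exact actsRefl_reflEl Q v₀ hv₀0
  have hsq := actsRefl_sq Q r₀ v₀ hv₀0 hr₀a
  have hψT : ∀ g ∈ T, chi Q (c * ε) g = 1 := by
    intro g hg
    have hle : T ≤ (chi Q (c * ε)).ker := by
      rw [hTdef]
      apply (Subgroup.closure_le _).2
      rintro g ⟨v, t, ht, hv, hmat⟩
      have hv0 : Q v ≠ 0 := by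
        rw [hv]
        exact mul_ne_zero hc (pow_ne_zero 2 ht)
      apply MonoidHom.mem_ker.2
      apply (chi_refl h2 Q (c * ε) hcε v hv0 g (actsRefl_of_matrix Q g v hmat)).2
      rintro ⟨s, hs⟩
      rw [hv] at hs
      apply hε
      have h0 : c * (ε - s * t * (s * t)) = 0 := by linear_combination -hs
      exact ⟨s * t, sub_eq_zero.1 ((mul_eq_zero.1 h0).resolve_left hc)⟩
    exact MonoidHom.mem_ker.1 (hle hg)
  have hψr : chi Q (c * ε) r₀ = -1 :=
    (chi_refl h2 Q (c * ε) hcε v₀ hv₀0 r₀ hr₀a).1 ⟨1, by rw [hv₀]; ring⟩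
  rw [Subgroup.index_eq_two_iff_exists_notMem_and']
  refine ⟨r₀, fun hmem => ?_, fun b => ?_⟩
  · have h5 := hψT r₀ hmem
    rw [hψr] at h5
    exact absurd h5 (by decide)
  · refine refl_induction h2 Q hQ (fun b => r₀ * b ∈ T ∨ b ∈ T) (Or.inr T.one_mem) ?_ ?_ b
    · intro a b ha hb
      rcases ha with ha | ha <;> rcases hb with hb | hb
      · right
        have e : a * b = (r₀ * (r₀ * a) * r₀⁻¹) * (r₀ * b) := by
          calc a * b = (r₀ * r₀) * a * b := by rw [hsq, one_mul]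
            _ = (r₀ * (r₀ * a) * r₀⁻¹) * (r₀ * b) := by group
        rw [e]
        exact T.mul_mem (hT.conj_mem _ ha r₀) hb
      · left
        rw [← mul_assoc]
        exact T.mul_mem ha hb
      · left
        have e : r₀ * (a * b) = (r₀ * a * r₀⁻¹) * (r₀ * b) := by group
        rw [e]
        exact T.mul_mem (hT.conj_mem _ ha r₀) hb
      · right
        exact T.mul_mem ha hb
    · intro g w hw hg
      have hgr := actsRefl_unique Q g _ w hg (actsRefl_reflEl Q w hw)
      obtain ⟨dd, hdd0, hdd⟩ := Cfsg.Agent.Helper6.exists_sq_or_nonsq_mul_sq hε (Q w * c⁻¹)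
        (mul_ne_zero hw (inv_ne_zero hc))
      have hQw : Q w = Q w * c⁻¹ * c := by
        rw [mul_assoc, inv_mul_cancel₀ hc, mul_one]
      rcases hdd with hdd | hdd
      · right
        rw [hgr]
        exact hgen w dd hw hdd0 (by rw [hQw, hdd]; ring)
      · left
        have hQw2 : Q w = c * ε * (dd * dd) := by
          rw [hQw, hdd]
          ring
        apply hΩ
        rw [omega_mem_iff h2 i₀ i₁ hi Q hQ]
        refine ⟨?_, ?_⟩
        · rw [map_mul]
          by_cases hs : ∃ t : F, t * t * (c * ε) = 1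
          · obtain ⟨t, ht⟩ := hs
            rw [(chi_refl h2 Q 1 one_ne_zero v₀ hv₀0 r₀ hr₀a).1 ⟨t, by rw [hv₀]; exact ht⟩,
              (chi_refl h2 Q 1 one_ne_zero w hw g hg).1 ⟨t * dd⁻¹, by
                rw [hQw2]
                linear_combination ht
                  + (t * t * (c * ε) * (dd⁻¹ * dd + 1)) * inv_mul_cancel₀ hdd0⟩]
            decide
          · rw [(chi_refl h2 Q 1 one_ne_zero v₀ hv₀0 r₀ hr₀a).2 (by rw [hv₀]; exact hs),
              (chi_refl h2 Q 1 one_ne_zero w hw g hg).2 (by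
                rintro ⟨t, ht⟩
                apply hs
                refine ⟨t * dd, ?_⟩
                rw [hQw2] at ht
                linear_combination ht)]
            decide
        · rw [coe_mul_mat, Matrix.det_mul, actsRefl_det Q r₀ v₀ hv₀0 hr₀a,
            actsRefl_det Q g w hw hg]
          ring

end Mat3

end Cfsg.Agent.Helper5
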