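import Mathlib.LinearAlgebra.Matrix.GeneralLinearGroup.Defs
import Mathlib.LinearAlgebra.Matrix.ToLinearEquiv
import Mathlib.LinearAlgebra.Matrix.Notation
import Mathlib.Data.ZMod.Basic
import Mathlib.GroupTheory.OrderOfElement
import Mathlib.SetTheory.Cardinal.Finite
import Mathlib.Tactic

set_option autoImplicit false

namespace Cfsg.Agent.Helper5

open Matrix

/-- A matrix group whose elements all lie in a set `L` of matrices acting freely on non-zero
vectors, and which has at least as many elements as there are non-zero vectors, is regular on the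
non-zero vectors. -/
theorem regular_of_free_of_card {n : Type*} [Fintype n] [DecidableEq n] {F : Type*} [Field F]
    [Finite F] (S : Set (GL n F)) (L : Set (Matrix n n F)) (h1 : 1 ∈ L)
    (hL : ∀ g ∈ S, ∀ m ∈ L, (g : Matrix n n F) * m ∈ L)
    (hfree : ∀ m ∈ L, ∀ v : n → F, v ≠ 0 → m *ᵥ v = v → m = 1)
    (v₀ : n → F) (hv₀ : v₀ ≠ 0)
    (hcard : Nat.card {v : n → F // v ≠ 0} ≤ Nat.card (Subgroup.closure S)) :
    Nat.card (Subgroup.closure S) = Nat.card {v : n → F // v ≠ 0} ∧
      ∀ v w : n → F, v ≠ 0 → w ≠ 0 →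
        ∃! h : Subgroup.closure S, ((h : GL n F) : Matrix n n F) *ᵥ v = w := by
  classical
  have hfinF : Fintype F := Fintype.ofFinite F
  have hmulL : ∀ h ∈ Subgroup.closure S, ∀ m ∈ L, ((h : GL n F) : Matrix n n F) * m ∈ L := by
    intro h hh
    induction hh using Subgroup.closure_induction with
    | mem x hx => exact hL x hx
    | one => intro m hm; simpa using hm
    | mul x y _ _ ihx ihy =>
      intro m hm
      rw [Units.val_mul, mul_assoc]
      exact ihx _ (ihy m hm)
    | inv x _ ihx =>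
      intro m hm
      have hpow : ∀ k : ℕ, ((x ^ k : GL n F) : Matrix n n F) * m ∈ L := by
        intro k
        induction k with
        | zero => simpa using hm
        | succ k ih =>
          rw [pow_succ', Units.val_mul, mul_assoc]
          exact ihx _ ih
      have hx : x⁻¹ = x ^ (orderOf x - 1) := by
        rw [inv_eq_iff_mul_eq_one, ← pow_succ', Nat.sub_add_cancel (orderOf_pos x),
          pow_orderOf_eq_one]
      rw [hx]
      exact hpow _
  have hmem : ∀ h ∈ Subgroup.closure S, ((h : GL n F) : Matrix n n F) ∈ L := by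
    intro h hh
    have := hmulL h hh 1 h1
    rwa [mul_one] at this
  have hfree' : ∀ h : Subgroup.closure S, ∀ v : n → F, v ≠ 0 →
      ((h : GL n F) : Matrix n n F) *ᵥ v = v → h = 1 := by
    intro h v hv hhv
    apply Subtype.ext
    apply Units.ext
    exact hfree _ (hmem h h.2) v hv hhv
  have hne : ∀ (h : Subgroup.closure S) (v : n → F), v ≠ 0 →
      ((h : GL n F) : Matrix n n F) *ᵥ v ≠ 0 := by
    intro h v hv h0
    apply hv
    have h2 : (((h : GL n F)⁻¹ : GL n F) : Matrix n n F) *ᵥ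
        (((h : GL n F) : Matrix n n F) *ᵥ v) = v := by
      rw [Matrix.mulVec_mulVec, ← Units.val_mul, inv_mul_cancel, Units.val_one, Matrix.one_mulVec]
    rw [← h2, h0, Matrix.mulVec_zero]
  have hinj : ∀ v : n → F, ∀ hv : v ≠ 0, Function.Injective
      (fun h : Subgroup.closure S =>
        (⟨((h : GL n F) : Matrix n n F) *ᵥ v, hne h v hv⟩ : {v : n → F // v ≠ 0})) := by
    intro v hv h h' hhh
    have h3 : ((h : GL n F) : Matrix n n F) *ᵥ v = ((h' : GL n F) : Matrix n n F) *ᵥ v :=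
      congrArg Subtype.val hhh
    have h4 : (((h'⁻¹ * h : Subgroup.closure S) : GL n F) : Matrix n n F) *ᵥ v = v := by
      rw [Subgroup.coe_mul, Subgroup.coe_inv, Units.val_mul, ← Matrix.mulVec_mulVec, h3,
        Matrix.mulVec_mulVec, ← Units.val_mul, inv_mul_cancel, Units.val_one, Matrix.one_mulVec]
    have h5 := hfree' _ v hv h4
    exact (inv_mul_eq_one.mp h5).symm
  have hbij : ∀ v : n → F, ∀ hv : v ≠ 0, Function.Bijective
      (fun h : Subgroup.closure S =>
        (⟨((h : GL n F) : Matrix n n F) *ᵥ v, hne h v hv⟩ : {v : n → F // v ≠ 0})) :=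
    fun v hv => (hinj v hv).bijective_of_nat_card_le hcard
  refine ⟨Nat.card_eq_of_bijective _ (hbij v₀ hv₀), ?_⟩
  intro v w hv hw
  obtain ⟨h, hh⟩ := (hbij v hv).2 ⟨w, hw⟩
  refine ⟨h, congrArg Subtype.val hh, ?_⟩
  intro h' hh'
  apply (hbij v hv).1
  apply Subtype.ext
  show ((h' : GL n F) : Matrix n n F) *ᵥ v = ((h : GL n F) : Matrix n n F) *ᵥ v
  rw [hh']
  exact (congrArg Subtype.val hh).symm

/-- Quadruples of naturals `(a, b, c, d)` standing for the matrix `!![a, b; c, d]`. -/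
abbrev Q4 := ℕ × ℕ × ℕ × ℕ

/-- Product of two quadruples as `2 × 2` matrices modulo `p`. -/
def mulQ (p : ℕ) (x y : Q4) : Q4 :=
  ((x.1 * y.1 + x.2.1 * y.2.2.1) % p, (x.1 * y.2.1 + x.2.1 * y.2.2.2) % p,
   (x.2.2.1 * y.1 + x.2.2.2 * y.2.2.1) % p, (x.2.2.1 * y.2.1 + x.2.2.2 * y.2.2.2) % p)

/-- The matrix over `ZMod p` of a quadruple. -/
def toM (p : ℕ) (x : Q4) : Matrix (Fin 2) (Fin 2) (ZMod p) :=
  !![(x.1 : ZMod p), (x.2.1 : ZMod p); (x.2.2.1 : ZMod p), (x.2.2.2 : ZMod p)]

/-- The identity quadruple. -/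
def oneQ : Q4 := (1, 0, 0, 1)

theorem toM_one (p : ℕ) : toM p oneQ = 1 := by
  simp [toM, oneQ, Matrix.one_fin_two]

theorem toM_mulQ (p : ℕ) (x y : Q4) : toM p (mulQ p x y) = toM p x * toM p y := by
  simp only [toM, mulQ, Matrix.mul_fin_two, ZMod.natCast_mod, Nat.cast_add, Nat.cast_mul]

/-- Entrywise reduction modulo `p`. -/
def redQ (p : ℕ) (x : Q4) : Q4 := (x.1 % p, x.2.1 % p, x.2.2.1 % p, x.2.2.2 % p)

theorem redQ_eq_of_toM_eq (p : ℕ) {x y : Q4} (h : toM p x = toM p y) : redQ p x = redQ p y := by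
  have h00 := congrFun (congrFun h 0) 0
  have h01 := congrFun (congrFun h 0) 1
  have h10 := congrFun (congrFun h 1) 0
  have h11 := congrFun (congrFun h 1) 1
  simp only [toM, Matrix.of_apply, Matrix.cons_val_zero, Matrix.cons_val_one,
    Matrix.cons_val', Matrix.cons_val_fin_one] at h00 h01 h10 h11
  rw [ZMod.natCast_eq_natCast_iff'] at h00 h01 h10 h11
  simp only [redQ, h00, h01, h10, h11]

/-- Evaluate a word (a list of indices into the list of generators). -/
def evalQ (p : ℕ) (gq : List Q4) (w : List ℕ) : Q4 :=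
  w.foldr (fun i acc => mulQ p (gq.getD i oneQ) acc) oneQ

theorem card_nonzero_vectors (p : ℕ) [Fact p.Prime] :
    Nat.card {v : Fin 2 → ZMod p // v ≠ 0} = p ^ 2 - 1 := by
  classical
  rw [Nat.card_eq_fintype_card, Fintype.card_subtype_compl, Fintype.card_subtype_eq,
    Fintype.card_fun, ZMod.card, Fintype.card_fin]

theorem regular_of_data (p : ℕ) [Fact p.Prime] (S : Set (GL (Fin 2) (ZMod p))) (gq : List Q4)
    (hS : ∀ g ∈ S, ∃ q ∈ gq, (g : Matrix (Fin 2) (Fin 2) (ZMod p)) = toM p q)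
    (hS' : ∀ q ∈ gq, ∃ g ∈ S, (g : Matrix (Fin 2) (Fin 2) (ZMod p)) = toM p q)
    (words : List (List ℕ)) (Lq : List Q4)
    (C1 : words.map (evalQ p gq) = Lq) (C2 : Lq.Nodup) (C3 : Lq.length = p ^ 2 - 1)
    (C4 : ∀ q ∈ Lq, redQ p q = q) (C5 : oneQ ∈ Lq)
    (C6 : ∀ g ∈ gq, ∀ q ∈ Lq, mulQ p g q ∈ Lq)
    (C7 : ∀ q ∈ Lq, q = oneQ ∨
      (q.1 * q.2.2.2 + 1) % p ≠ (q.2.1 * q.2.2.1 + q.1 + q.2.2.2) % p) :
    Nat.card (Subgroup.closure S) = p ^ 2 - 1 ∧
      ∀ v w : Fin 2 → ZMod p, v ≠ 0 → w ≠ 0 →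
        ∃! h : Subgroup.closure S,
          ((h : GL (Fin 2) (ZMod p)) : Matrix (Fin 2) (Fin 2) (ZMod p)) *ᵥ v = w := by
  classical
  have hword : ∀ w : List ℕ, ∃ h ∈ Subgroup.closure S,
      ((h : GL (Fin 2) (ZMod p)) : Matrix (Fin 2) (Fin 2) (ZMod p)) = toM p (evalQ p gq w) := by
    intro w
    induction w with
    | nil => exact ⟨1, Subgroup.one_mem _, by rw [Units.val_one]; exact (toM_one p).symm⟩
    | cons i w ih =>
      obtain ⟨h, hh, hhm⟩ := ih
      have hstep : evalQ p gq (i :: w) = mulQ p (gq.getD i oneQ) (evalQ p gq w) := rfl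
      rw [hstep, toM_mulQ]
      have hgen : ∃ g ∈ Subgroup.closure S,
          ((g : GL (Fin 2) (ZMod p)) : Matrix (Fin 2) (Fin 2) (ZMod p)) = toM p (gq.getD i oneQ) := by
        rw [List.getD_eq_getElem?_getD]
        cases hi : gq[i]? with
        | none =>
          exact ⟨1, Subgroup.one_mem _, by rw [Units.val_one]; exact (toM_one p).symm⟩
        | some q =>
          obtain ⟨g, hg, hgq⟩ := hS' q (List.mem_of_getElem? hi)
          exact ⟨g, Subgroup.subset_closure hg, hgq⟩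
      obtain ⟨g, hg, hgm⟩ := hgen
      exact ⟨g * h, Subgroup.mul_mem _ hg hh, by rw [Units.val_mul, hgm, hhm]⟩
  have hLq : ∀ q ∈ Lq, ∃ h ∈ Subgroup.closure S,
      ((h : GL (Fin 2) (ZMod p)) : Matrix (Fin 2) (Fin 2) (ZMod p)) = toM p q := by
    intro q hq
    rw [← C1, List.mem_map] at hq
    obtain ⟨w, _, rfl⟩ := hq
    exact hword w
  have hcard : Nat.card {v : Fin 2 → ZMod p // v ≠ 0} ≤ Nat.card (Subgroup.closure S) := by
    rw [card_nonzero_vectors, ← C3]
    have hch : ∀ i : Fin Lq.length, ∃ h : Subgroup.closure S,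
        ((h : GL (Fin 2) (ZMod p)) : Matrix (Fin 2) (Fin 2) (ZMod p)) = toM p (Lq.get i) := by
      intro i
      obtain ⟨h, hh, hhm⟩ := hLq (Lq.get i) (List.get_mem Lq i)
      exact ⟨⟨h, hh⟩, hhm⟩
    choose f hf using hch
    have hfinj : Function.Injective f := by
      intro i j hij
      have h1 : toM p (Lq.get i) = toM p (Lq.get j) := by rw [← hf i, ← hf j, hij]
      have h2 := redQ_eq_of_toM_eq p h1
      rw [C4 _ (List.get_mem Lq i), C4 _ (List.get_mem Lq j)] at h2
      exact (List.nodup_iff_injective_get.mp C2) h2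
    have h3 := Nat.card_le_card_of_injective f hfinj
    rwa [Nat.card_eq_fintype_card, Fintype.card_fin] at h3
  have hmain := regular_of_free_of_card S {m | ∃ q ∈ Lq, m = toM p q}
    ⟨oneQ, C5, (toM_one p).symm⟩ ?_ ?_ ![1, 0] ?_ hcard
  · rw [card_nonzero_vectors] at hmain
    exact hmain
  · rintro g hg m ⟨q, hq, rfl⟩
    obtain ⟨q', hq', hgq⟩ := hS g hg
    exact ⟨mulQ p q' q, C6 q' hq' q hq, by rw [hgq, toM_mulQ]⟩
  · rintro m ⟨q, hq, rfl⟩ v hv hmv
    rcases C7 q hq with h | h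
    · rw [h, toM_one]
    · exfalso
      apply h
      have hdet : (toM p q - 1).det = 0 := by
        apply Matrix.exists_mulVec_eq_zero_iff.mp
        exact ⟨v, hv, by rw [Matrix.sub_mulVec, Matrix.one_mulVec, hmv, sub_self]⟩
      rw [Matrix.det_fin_two] at hdet
      simp only [toM, Matrix.sub_apply, Matrix.of_apply, Matrix.cons_val_zero, Matrix.cons_val_one,
        Matrix.cons_val', Matrix.cons_val_fin_one, Matrix.one_apply_eq, ne_eq, zero_ne_one,
        not_false_eq_true, Matrix.one_apply_ne, one_ne_zero, sub_zero] at hdet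
      rw [← ZMod.natCast_eq_natCast_iff']
      push_cast
      linear_combination hdet
  · intro h0
    have := congrFun h0 0
    simp at this

end Cfsg.Agent.Helper5
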