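import Cfsg.Agent.Helper5.RegLin

set_option autoImplicit false

namespace Cfsg.Agent.Helper5

open Matrix

/-- Variant of `regular_of_data` for a group generated by a list of matrices together with one
scalar matrix `t • 1` whose order divides `nz`: the group is `{t ^ i • k}` with `k` in a list. -/
theorem regular_of_data_scalar (p : ℕ) [Fact p.Prime] (S : Set (GL (Fin 2) (ZMod p)))
    (gK : List Q4) (t nz : ℕ) (gz : GL (Fin 2) (ZMod p)) (hgz : gz ∈ S)
    (hgzm : (gz : Matrix (Fin 2) (Fin 2) (ZMod p)) = (t : ZMod p) • (1 : Matrix (Fin 2) (Fin 2) (ZMod p)))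
    (hS : ∀ g ∈ S, g = gz ∨ ∃ q ∈ gK, (g : Matrix (Fin 2) (Fin 2) (ZMod p)) = toM p q)
    (hS' : ∀ q ∈ gK, ∃ g ∈ S, (g : Matrix (Fin 2) (Fin 2) (ZMod p)) = toM p q)
    (words : List (List ℕ)) (Kq : List Q4)
    (C1 : words.map (evalQ p gK) = Kq) (C2 : Kq.Nodup) (C3 : nz * Kq.length = p ^ 2 - 1)
    (C4 : ∀ q ∈ Kq, redQ p q = q) (C5 : oneQ ∈ Kq)
    (C6 : ∀ g ∈ gK, ∀ q ∈ Kq, mulQ p g q ∈ Kq)
    (C8 : ∀ q ∈ Kq, (q.1 * q.2.2.2) % p = (q.2.1 * q.2.2.1 + 1) % p)
    (C9 : ((List.range nz).map (fun i => t ^ (2 * i) % p)).Nodup)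
    (ht : t ^ nz % p = 1) (hnz : 0 < nz)
    (C7 : ∀ i ∈ List.range nz, ∀ q ∈ Kq, (i = 0 ∧ q = oneQ) ∨
      (((t ^ i % p) * q.1) * ((t ^ i % p) * q.2.2.2) + 1) % p ≠
        (((t ^ i % p) * q.2.1) * ((t ^ i % p) * q.2.2.1) + (t ^ i % p) * q.1 +
          (t ^ i % p) * q.2.2.2) % p) :
    Nat.card (Subgroup.closure S) = p ^ 2 - 1 ∧
      ∀ v w : Fin 2 → ZMod p, v ≠ 0 → w ≠ 0 →
        ∃! h : Subgroup.closure S,
          ((h : GL (Fin 2) (ZMod p)) : Matrix (Fin 2) (Fin 2) (ZMod p)) *ᵥ v = w := by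
  classical
  have hp : p.Prime := Fact.out
  have htp : (t : ZMod p) ^ nz = 1 := by
    have h1 : ((t ^ nz % p : ℕ) : ZMod p) = ((1 : ℕ) : ZMod p) := by rw [ht]
    rw [ZMod.natCast_mod] at h1
    push_cast at h1
    exact h1
  have ht0 : (t : ZMod p) ≠ 0 := by
    intro h0
    rw [h0, zero_pow (by omega)] at htp
    exact zero_ne_one htp
  have hgzpow : ∀ i : ℕ, ((gz ^ i : GL (Fin 2) (ZMod p)) : Matrix (Fin 2) (Fin 2) (ZMod p)) =
      (t : ZMod p) ^ i • (1 : Matrix (Fin 2) (Fin 2) (ZMod p)) := by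
    intro i
    induction i with
    | zero => simp
    | succ i ih =>
      rw [pow_succ, Units.val_mul, ih, hgzm, Matrix.smul_mul, Matrix.one_mul, smul_smul, pow_succ]
  have hword : ∀ w : List ℕ, ∃ h ∈ Subgroup.closure S,
      ((h : GL (Fin 2) (ZMod p)) : Matrix (Fin 2) (Fin 2) (ZMod p)) = toM p (evalQ p gK w) := by
    intro w
    induction w with
    | nil => exact ⟨1, Subgroup.one_mem _, by rw [Units.val_one]; exact (toM_one p).symm⟩
    | cons i w ih =>
      obtain ⟨h, hh, hhm⟩ := ih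
      have hstep : evalQ p gK (i :: w) = mulQ p (gK.getD i oneQ) (evalQ p gK w) := rfl
      rw [hstep, toM_mulQ]
      have hgen : ∃ g ∈ Subgroup.closure S,
          ((g : GL (Fin 2) (ZMod p)) : Matrix (Fin 2) (Fin 2) (ZMod p)) = toM p (gK.getD i oneQ) := by
        rw [List.getD_eq_getElem?_getD]
        cases hi : gK[i]? with
        | none =>
          exact ⟨1, Subgroup.one_mem _, by rw [Units.val_one]; exact (toM_one p).symm⟩
        | some q =>
          obtain ⟨g, hg, hgq⟩ := hS' q (List.mem_of_getElem? hi)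
          exact ⟨g, Subgroup.subset_closure hg, hgq⟩
      obtain ⟨g, hg, hgm⟩ := hgen
      exact ⟨g * h, Subgroup.mul_mem _ hg hh, by rw [Units.val_mul, hgm, hhm]⟩
  have hKq : ∀ q ∈ Kq, ∃ h ∈ Subgroup.closure S,
      ((h : GL (Fin 2) (ZMod p)) : Matrix (Fin 2) (Fin 2) (ZMod p)) = toM p q := by
    intro q hq
    rw [← C1, List.mem_map] at hq
    obtain ⟨w, _, rfl⟩ := hq
    exact hword w
  have hdetK : ∀ q ∈ Kq, (toM p q).det = 1 := by
    intro q hq
    have h1 := C8 q hq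
    rw [← ZMod.natCast_eq_natCast_iff'] at h1
    push_cast at h1
    rw [toM, Matrix.det_fin_two_of]
    linear_combination h1
  have hcard : Nat.card {v : Fin 2 → ZMod p // v ≠ 0} ≤ Nat.card (Subgroup.closure S) := by
    rw [card_nonzero_vectors, ← C3]
    have hch : ∀ x : Fin nz × Fin Kq.length, ∃ h : Subgroup.closure S,
        ((h : GL (Fin 2) (ZMod p)) : Matrix (Fin 2) (Fin 2) (ZMod p)) =
          (t : ZMod p) ^ (x.1 : ℕ) • toM p (Kq.get x.2) := by
      intro x
      obtain ⟨h, hh, hhm⟩ := hKq (Kq.get x.2) (List.get_mem Kq x.2)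
      refine ⟨⟨gz ^ (x.1 : ℕ) * h, Subgroup.mul_mem _
        (Subgroup.pow_mem _ (Subgroup.subset_closure hgz) _) hh⟩, ?_⟩
      show ((gz ^ (x.1 : ℕ) * h : GL (Fin 2) (ZMod p)) : Matrix (Fin 2) (Fin 2) (ZMod p)) = _
      rw [Units.val_mul, hgzpow, hhm, Matrix.smul_mul, Matrix.one_mul]
    choose f hf using hch
    have hfinj : Function.Injective f := by
      intro x y hxy
      have h1 : (t : ZMod p) ^ (x.1 : ℕ) • toM p (Kq.get x.2) =
          (t : ZMod p) ^ (y.1 : ℕ) • toM p (Kq.get y.2) := by rw [← hf x, ← hf y, hxy]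
      have h2 := congrArg Matrix.det h1
      rw [Matrix.det_smul, Matrix.det_smul, hdetK _ (List.get_mem Kq x.2),
        hdetK _ (List.get_mem Kq y.2), Fintype.card_fin, mul_one, mul_one, ← pow_mul, ← pow_mul] at h2
      have h3 : t ^ (2 * (x.1 : ℕ)) % p = t ^ (2 * (y.1 : ℕ)) % p := by
        rw [← ZMod.natCast_eq_natCast_iff']
        push_cast
        rw [mul_comm 2, mul_comm 2]
        exact h2
      have hx1 : (x.1 : ℕ) = (y.1 : ℕ) := by
        have hinj := List.nodup_iff_injective_get.mp C9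
        have hlen : ((List.range nz).map (fun i => t ^ (2 * i) % p)).length = nz := by simp
        have h4 := @hinj ⟨(x.1 : ℕ), by rw [hlen]; exact x.1.2⟩ ⟨(y.1 : ℕ), by rw [hlen]; exact y.1.2⟩
          (by simpa using h3)
        exact Fin.mk.inj_iff.mp h4
      rw [hx1] at h1
      have h5 : toM p (Kq.get x.2) = toM p (Kq.get y.2) := by
        have h6 := congrArg (fun m => ((t : ZMod p) ^ (y.1 : ℕ))⁻¹ • m) h1
        simp only [smul_smul] at h6
        rwa [inv_mul_cancel₀ (pow_ne_zero _ ht0), one_smul, one_smul] at h6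
      have h7 := redQ_eq_of_toM_eq p h5
      rw [C4 _ (List.get_mem Kq x.2), C4 _ (List.get_mem Kq y.2)] at h7
      have h8 := (List.nodup_iff_injective_get.mp C2) h7
      exact Prod.ext (Fin.ext hx1) h8
    have h3 := Nat.card_le_card_of_injective f hfinj
    rwa [Nat.card_prod, Nat.card_eq_fintype_card, Fintype.card_fin, Nat.card_eq_fintype_card,
      Fintype.card_fin] at h3
  have hmain := regular_of_free_of_card S
    {m | ∃ i < nz, ∃ q ∈ Kq, m = (t : ZMod p) ^ i • toM p q}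
    ⟨0, hnz, oneQ, C5, by rw [pow_zero, one_smul, toM_one]⟩ ?_ ?_ ![1, 0] ?_ hcard
  · rw [card_nonzero_vectors] at hmain
    exact hmain
  · rintro g hg m ⟨i, hi, q, hq, rfl⟩
    rcases hS g hg with rfl | ⟨q', hq', hgq⟩
    · rw [hgzm, Matrix.smul_mul, Matrix.one_mul, smul_smul, ← pow_succ']
      by_cases hi' : i + 1 < nz
      · exact ⟨i + 1, hi', q, hq, rfl⟩
      · have hi'' : i + 1 = nz := by omega
        refine ⟨0, hnz, q, hq, ?_⟩
        rw [hi'', htp, pow_zero]
    · refine ⟨i, hi, mulQ p q' q, C6 q' hq' q hq, ?_⟩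
      rw [hgq, toM_mulQ, Matrix.mul_smul]
  · rintro m ⟨i, hi, q, hq, rfl⟩ v hv hmv
    rcases C7 i (List.mem_range.mpr hi) q hq with ⟨h1, h2⟩ | h
    · rw [h1, h2, pow_zero, one_smul, toM_one]
    · exfalso
      apply h
      have hdet : ((t : ZMod p) ^ i • toM p q - 1).det = 0 := by
        apply Matrix.exists_mulVec_eq_zero_iff.mp
        exact ⟨v, hv, by rw [Matrix.sub_mulVec, Matrix.one_mulVec, hmv, sub_self]⟩
      rw [Matrix.det_fin_two] at hdet
      simp only [toM, Matrix.sub_apply, Matrix.smul_apply, Matrix.of_apply, Matrix.cons_val_zero,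
        Matrix.cons_val_one, Matrix.cons_val', Matrix.cons_val_fin_one, Matrix.one_apply_eq, ne_eq,
        zero_ne_one, not_false_eq_true, Matrix.one_apply_ne, one_ne_zero, sub_zero,
        smul_eq_mul] at hdet
      rw [← ZMod.natCast_eq_natCast_iff']
      push_cast
      simp only [ZMod.natCast_mod, Nat.cast_pow]
      linear_combination hdet
  · intro h0
    have := congrFun h0 0
    simp at this

end Cfsg.Agent.Helper5
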