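import Mathlib

set_option autoImplicit false
set_option linter.unusedSectionVars false

namespace Cfsg.Agent.Helper5

open MulAction

section Sharp2

variable {α : Type*} [Fintype α] [DecidableEq α]

/-- Elementary form of sharp 2-transitivity for a permutation group. -/
structure Sharp2 (G : Subgroup (Equiv.Perm α)) : Prop where
  trans : ∀ a b c d : α, a ≠ b → c ≠ d → ∃ g : G, g • a = c ∧ g • b = d
  sharp : ∀ g : G, ∀ a b : α, a ≠ b → g • a = a → g • b = b → g = 1

theorem sharp2_of_hyp (G : Subgroup (Equiv.Perm α)) [MulAction.IsMultiplyPretransitive G α 2]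
    (hsharp : ∀ x : Fin 2 ↪ α, MulAction.stabilizer G x = ⊥) : Sharp2 G := by
  constructor
  · have h : ∀ {a b c d : α}, a ≠ b → c ≠ d → ∃ g : G, g • a = c ∧ g • b = d :=
      (MulAction.is_two_pretransitive_iff (G := G) (α := α)).mp inferInstance
    intro a b c d hab hcd
    exact h hab hcd
  · intro g a b hab ha hb
    let x : Fin 2 ↪ α := ⟨![a, b], by
      intro i j hij
      fin_cases i <;> fin_cases j <;> simp_all⟩
    have hx : g ∈ MulAction.stabilizer G x := by
      rw [MulAction.mem_stabilizer_iff]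
      ext i
      fin_cases i
      · exact ha
      · exact hb
    rw [hsharp x, Subgroup.mem_bot] at hx
    exact hx

/-- fixed-point-free -/
def Fpf (G : Subgroup (Equiv.Perm α)) (g : G) : Prop := ∀ a : α, g • a ≠ a

variable {G : Subgroup (Equiv.Perm α)}

theorem Fpf.conj {x : G} (hx : Fpf G x) (g : G) : Fpf G (g * x * g⁻¹) := by
  intro a h
  rw [mul_smul, mul_smul] at h
  exact hx (g⁻¹ • a) (by rw [eq_inv_smul_iff]; exact h)

theorem Sharp2.exists_ne (h2 : 2 ≤ Fintype.card α) (a : α) : ∃ b : α, b ≠ a := by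
  by_contra hcon
  push Not at hcon
  have : Fintype.card α ≤ 1 := Fintype.card_le_one_iff.mpr (fun x y => (hcon x).trans (hcon y).symm)
  omega

theorem Sharp2.trans1 (h : Sharp2 G) (h2 : 2 ≤ Fintype.card α) (a b : α) : ∃ g : G, g • a = b := by
  obtain ⟨c, hc⟩ := Sharp2.exists_ne h2 a
  obtain ⟨d, hd⟩ := Sharp2.exists_ne h2 b
  obtain ⟨g, hg, _⟩ := h.trans a c b d hc.symm hd.symm
  exact ⟨g, hg⟩

theorem Sharp2.card (h : Sharp2 G) (h2 : 2 ≤ Fintype.card α) :
    Nat.card G = Fintype.card α * (Fintype.card α - 1) := by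
  classical
  have ha : Nonempty α := Fintype.card_pos_iff.mp (by omega)
  obtain ⟨a⟩ := ha
  obtain ⟨b, hb⟩ := Sharp2.exists_ne h2 a
  let f : G → {p : α × α // p.1 ≠ p.2} := fun g =>
    ⟨(g • a, g • b), fun hh => hb ((MulAction.injective g hh).symm)⟩
  have hf : Function.Bijective f := by
    constructor
    · intro g g' hgg'
      have h1 : g • a = g' • a := congrArg (fun p : {p : α × α // p.1 ≠ p.2} => p.1.1) hgg'
      have h2' : g • b = g' • b := congrArg (fun p : {p : α × α // p.1 ≠ p.2} => p.1.2) hgg'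
      have h3 : g'⁻¹ * g = 1 := by
        apply h.sharp _ a b hb.symm
        · rw [mul_smul, h1, inv_smul_smul]
        · rw [mul_smul, h2', inv_smul_smul]
      exact (inv_mul_eq_one.mp h3).symm
    · rintro ⟨⟨c, d⟩, hcd⟩
      obtain ⟨g, hg1, hg2⟩ := h.trans a b c d hb.symm hcd
      refine ⟨g, ?_⟩
      apply Subtype.ext
      exact Prod.ext hg1 hg2
  rw [Nat.card_congr (Equiv.ofBijective f hf), Nat.card_eq_fintype_card, Fintype.card_subtype]
  have : (Finset.univ.filter (fun p : α × α => p.1 ≠ p.2)) = (Finset.univ : Finset α).offDiag := by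
    ext p
    simp [Finset.mem_offDiag]
  rw [this, Finset.offDiag_card, Finset.card_univ, Nat.mul_sub_one]

theorem Sharp2.one_not_fpf (h2 : 2 ≤ Fintype.card α) : ¬ Fpf G 1 := by
  intro h
  have ha : Nonempty α := Fintype.card_pos_iff.mp (by omega)
  obtain ⟨a⟩ := ha
  exact h a (one_smul _ _)

/-- Burnside count: the number of fixed-point-free elements is `n - 1`. -/
theorem Sharp2.card_fpf (h : Sharp2 G) (h2 : 2 ≤ Fintype.card α) :
    Nat.card {g : G // Fpf G g} + 1 = Fintype.card α := by
  classical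
  have : Fintype G := Fintype.ofFinite G
  have ha : Nonempty α := Fintype.card_pos_iff.mp (by omega)
  obtain ⟨a₀⟩ := ha
  have hB := MulAction.sum_card_fixedBy_eq_card_orbits_mul_card_group G α
  have horb : Fintype.card (Quotient (MulAction.orbitRel G α)) = 1 := by
    rw [Fintype.card_eq_one_iff]
    refine ⟨Quotient.mk'' a₀, ?_⟩
    intro q
    induction q using Quotient.inductionOn with
    | _ b =>
      apply Quotient.sound
      obtain ⟨g, hg⟩ := h.trans1 h2 a₀ b
      exact ⟨g, hg⟩
  rw [horb, one_mul] at hB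
  have hpt : ∀ g : G, Fintype.card (MulAction.fixedBy α g) =
      (if g = 1 then Fintype.card α else 0) + (if g ≠ 1 ∧ ¬ Fpf G g then 1 else 0) := by
    intro g
    by_cases hg1 : g = 1
    · subst hg1
      simp only [if_true, ne_eq, not_true_eq_false, false_and, if_false, add_zero]
      rw [← Nat.card_eq_fintype_card, MulAction.fixedBy_one_eq_univ, Nat.card_coe_set_eq,
        Set.ncard_univ, Nat.card_eq_fintype_card]
    · by_cases hgf : Fpf G g
      · simp only [hg1, if_false, ne_eq, not_false_eq_true, true_and, hgf, not_true_eq_false,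
          zero_add]
        rw [Fintype.card_eq_zero_iff]
        exact ⟨fun x => hgf x.1 x.2⟩
      · simp only [hg1, if_false, ne_eq, not_false_eq_true, true_and, hgf, if_true, zero_add]
        unfold Fpf at hgf
        push Not at hgf
        obtain ⟨a, hga⟩ := hgf
        rw [Fintype.card_eq_one_iff]
        refine ⟨⟨a, hga⟩, ?_⟩
        rintro ⟨b, hgb⟩
        apply Subtype.ext
        by_contra hba
        exact hg1 (h.sharp g b a hba hgb hga)
  have hsplit : ∀ g : G, (1 : ℕ) = (if g = 1 then 1 else 0) + (if Fpf G g then 1 else 0)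
      + (if g ≠ 1 ∧ ¬ Fpf G g then 1 else 0) := by
    intro g
    by_cases hg1 : g = 1
    · subst hg1
      simp [Sharp2.one_not_fpf h2]
    · by_cases hgf : Fpf G g <;> simp [hg1, hgf]
  have hcardG : Fintype.card G = 1 + (Finset.univ.filter (fun g : G => Fpf G g)).card
      + (Finset.univ.filter (fun g : G => g ≠ 1 ∧ ¬ Fpf G g)).card := by
    rw [Finset.card_filter, Finset.card_filter]
    have : (Fintype.card G) = ∑ g : G, (1 : ℕ) := by simp
    rw [this, Finset.sum_congr rfl (fun g _ => hsplit g), Finset.sum_add_distrib,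
      Finset.sum_add_distrib]
    simp
  have hsum : ∑ g : G, Fintype.card (MulAction.fixedBy α g) = Fintype.card α
      + (Finset.univ.filter (fun g : G => g ≠ 1 ∧ ¬ Fpf G g)).card := by
    rw [Finset.sum_congr rfl (fun g _ => hpt g), Finset.sum_add_distrib, Finset.card_filter]
    simp
  rw [hsum] at hB
  have hF : Nat.card {g : G // Fpf G g} = (Finset.univ.filter (fun g : G => Fpf G g)).card := by
    rw [Nat.card_eq_fintype_card, Fintype.card_subtype]
  rw [hF]
  omega

theorem Sharp2.card_NS (h : Sharp2 G) (h2 : 2 ≤ Fintype.card α) :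
    Nat.card {g : G // g = 1 ∨ Fpf G g} = Fintype.card α := by
  classical
  have hF := h.card_fpf h2
  let ψ : Option {g : G // Fpf G g} → {g : G // g = 1 ∨ Fpf G g} := fun o =>
    match o with
    | none => ⟨1, Or.inl rfl⟩
    | some y => ⟨y.1, Or.inr y.2⟩
  have hψ : Function.Bijective ψ := by
    constructor
    · intro o o' hoo
      cases o with
      | none =>
        cases o' with
        | none => rfl
        | some y =>
          exfalso
          have h1 : (1 : G) = y.1 :=
            congrArg (fun z : {g : G // g = 1 ∨ Fpf G g} => z.1) hoo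
          have hy := y.2
          rw [← h1] at hy
          exact Sharp2.one_not_fpf h2 hy
      | some y =>
        cases o' with
        | none =>
          exfalso
          have h1 : y.1 = (1 : G) :=
            congrArg (fun z : {g : G // g = 1 ∨ Fpf G g} => z.1) hoo
          have hy := y.2
          rw [h1] at hy
          exact Sharp2.one_not_fpf h2 hy
        | some y' =>
          have h1 : y.1 = y'.1 :=
            congrArg (fun z : {g : G // g = 1 ∨ Fpf G g} => z.1) hoo
          rw [Subtype.ext h1]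
    · rintro ⟨g, hg | hg⟩
      · exact ⟨none, Subtype.ext hg.symm⟩
      · exact ⟨some ⟨g, hg⟩, rfl⟩
  rw [← Nat.card_congr (Equiv.ofBijective ψ hψ), Finite.card_option, hF]

/-- the centralizer of a fixed-point-free element consists exactly of `1` and the fixed-point-free
elements. -/
theorem Sharp2.mem_centralizer_iff (h : Sharp2 G) (h2 : 2 ≤ Fintype.card α) {x : G} (hx : Fpf G x)
    (g : G) : g ∈ Subgroup.centralizer ({x} : Set G) ↔ (g = 1 ∨ Fpf G g) := by
  classical
  have hC1 : ∀ c ∈ Subgroup.centralizer ({x} : Set G), c = 1 ∨ Fpf G c := by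
    intro c hc
    by_cases hcf : Fpf G c
    · exact Or.inr hcf
    left
    unfold Fpf at hcf
    push Not at hcf
    obtain ⟨a, hca⟩ := hcf
    have hcx : x * c = c * x := (Subgroup.mem_centralizer_iff.mp hc) x rfl
    apply h.sharp c a (x • a) (fun hh => hx a hh.symm) hca
    rw [← mul_smul, ← hcx, mul_smul, hca]
  have hn := h.card h2
  have hF := h.card_fpf h2
  have hquot : Nat.card (G ⧸ Subgroup.centralizer ({x} : Set G)) ≤ Nat.card {g : G // Fpf G g} := by
    let φ : G ⧸ Subgroup.centralizer ({x} : Set G) → {g : G // Fpf G g} :=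
      Quotient.lift (fun g : G => (⟨g * x * g⁻¹, hx.conj g⟩ : {g : G // Fpf G g})) (by
        intro g g' hgg'
        have hm : g⁻¹ * g' ∈ Subgroup.centralizer ({x} : Set G) :=
          QuotientGroup.leftRel_apply.mp hgg'
        have hcx : x * (g⁻¹ * g') = (g⁻¹ * g') * x := (Subgroup.mem_centralizer_iff.mp hm) x rfl
        apply Subtype.ext
        show g * x * g⁻¹ = g' * x * g'⁻¹
        calc g * x * g⁻¹ = g * (x * (g⁻¹ * g')) * g'⁻¹ := by group
          _ = g * ((g⁻¹ * g') * x) * g'⁻¹ := by rw [hcx]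
          _ = g' * x * g'⁻¹ := by group)
    apply Nat.card_le_card_of_injective φ
    intro q q' hqq
    induction q using Quotient.inductionOn with
    | _ g =>
      induction q' using Quotient.inductionOn with
      | _ g' =>
        apply Quotient.sound
        apply QuotientGroup.leftRel_apply.mpr
        have h1 : g * x * g⁻¹ = g' * x * g'⁻¹ := congrArg Subtype.val hqq
        rw [Subgroup.mem_centralizer_iff]
        intro y hy
        rw [Set.mem_singleton_iff] at hy
        subst hy
        calc y * (g⁻¹ * g') = g⁻¹ * (g * y * g⁻¹) * g' := by group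
          _ = g⁻¹ * (g' * y * g'⁻¹) * g' := by rw [h1]
          _ = g⁻¹ * g' * y := by group
  have hmul := Subgroup.card_eq_card_quotient_mul_card_subgroup (Subgroup.centralizer ({x} : Set G))
  let ι : Subgroup.centralizer ({x} : Set G) → {g : G // g = 1 ∨ Fpf G g} :=
    fun c => ⟨c.1, hC1 c.1 c.2⟩
  have hι : Function.Injective ι := by
    intro c c' hcc
    exact Subtype.ext (congrArg (fun z : {g : G // g = 1 ∨ Fpf G g} => z.1) hcc)
  have hNS := h.card_NS h2
  have hCge : Fintype.card α ≤ Nat.card (Subgroup.centralizer ({x} : Set G)) := by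
    have h3 : Fintype.card α * (Fintype.card α - 1) ≤
        (Fintype.card α - 1) * Nat.card (Subgroup.centralizer ({x} : Set G)) := by
      rw [← hn, hmul]
      apply Nat.mul_le_mul_right
      omega
    have hpos : 0 < Fintype.card α - 1 := by omega
    rw [mul_comm] at h3
    exact Nat.le_of_mul_le_mul_left h3 hpos
  have hbij : Function.Bijective ι := hι.bijective_of_nat_card_le (by rw [hNS]; exact hCge)
  constructor
  · exact hC1 g
  · intro hg
    obtain ⟨c, hc⟩ := hbij.2 ⟨g, hg⟩
    have h4 : (c : G) = g := congrArg (fun z : {g : G // g = 1 ∨ Fpf G g} => z.1) hc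
    rw [← h4]; exact c.2

/-- Structure of a finite sharply 2-transitive group: the identity together with the
fixed-point-free elements form a regular normal elementary abelian subgroup. -/
theorem Sharp2.kernel (h : Sharp2 G) (h2 : 2 ≤ Fintype.card α) :
    ∃ (K : Subgroup G) (p j : ℕ), p.Prime ∧ 1 ≤ j ∧ Fintype.card α = p ^ j ∧ Nat.card K = p ^ j ∧
      K.Normal ∧ IsMulCommutative K ∧ (∀ x ∈ K, x ^ p = 1) ∧
      (∀ g : G, g ∈ K ↔ (g = 1 ∨ Fpf G g)) ∧ (∀ a b : α, ∃ k ∈ K, k • a = b) := by
  classical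
  have hF := h.card_fpf h2
  have hFne : Nonempty {g : G // Fpf G g} := by
    by_contra hcon
    rw [not_nonempty_iff] at hcon
    rw [Nat.card_of_isEmpty] at hF
    omega
  obtain ⟨⟨x₀, hx₀⟩⟩ := hFne
  have hKmem : ∀ g : G, g ∈ Subgroup.centralizer ({x₀} : Set G) ↔ (g = 1 ∨ Fpf G g) :=
    fun g => h.mem_centralizer_iff h2 hx₀ g
  generalize Subgroup.centralizer ({x₀} : Set G) = K at hKmem
  have hKn : K.Normal := by
    refine ⟨fun k hk g => ?_⟩
    rw [hKmem] at hk ⊢
    rcases hk with rfl | hk
    · left; group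
    · right; exact hk.conj g
  have hKcomm : ∀ y ∈ K, ∀ z ∈ K, y * z = z * y := by
    intro y hy z hz
    rcases (hKmem y).mp hy with rfl | hyf
    · simp
    · have h3 : z ∈ Subgroup.centralizer ({y} : Set G) :=
        (h.mem_centralizer_iff h2 hyf z).mpr ((hKmem z).mp hz)
      exact (Subgroup.mem_centralizer_iff.mp h3) y rfl
  have hKab : IsMulCommutative K := ⟨⟨fun a b => Subtype.ext (hKcomm a.1 a.2 b.1 b.2)⟩⟩
  have hKcard : Nat.card K = Fintype.card α := by
    rw [← h.card_NS h2]
    exact Nat.card_congr (Equiv.subtypeEquivRight hKmem)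
  have ha : Nonempty α := Fintype.card_pos_iff.mp (by omega)
  obtain ⟨a₀⟩ := ha
  have hreg : ∀ k ∈ K, ∀ a : α, k • a = a → k = 1 := by
    intro k hk a hka
    rcases (hKmem k).mp hk with h1 | h1
    · exact h1
    · exact absurd hka (h1 a)
  have hconj : ∀ y z : G, Fpf G y → Fpf G z → ∃ g : G, g * y * g⁻¹ = z := by
    intro y z hy hz
    obtain ⟨g, hga, hgy⟩ := h.trans a₀ (y • a₀) a₀ (z • a₀) (hy a₀).symm (hz a₀).symm
    refine ⟨g, ?_⟩
    have h1 : z⁻¹ * (g * y * g⁻¹) ∈ K :=
      K.mul_mem (K.inv_mem ((hKmem z).mpr (Or.inr hz))) ((hKmem _).mpr (Or.inr (hy.conj g)))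
    have h3 := hreg _ h1 a₀ (by
      have h4 : g⁻¹ • a₀ = a₀ := by rw [inv_smul_eq_iff, hga]
      rw [mul_smul, mul_smul, mul_smul, h4, hgy, inv_smul_smul])
    exact (inv_mul_eq_one.mp h3).symm
  have hn1 : Fintype.card α ≠ 1 := by omega
  obtain ⟨p, hp, hpd⟩ := Nat.exists_prime_and_dvd hn1
  have : Fact p.Prime := ⟨hp⟩
  have hpK : p ∣ Nat.card K := hKcard ▸ hpd
  obtain ⟨y, hy⟩ := exists_prime_orderOf_dvd_card' p hpK
  have hy1 : (y : G) ≠ 1 := by
    intro hh
    have h5 : y = 1 := Subtype.ext hh
    rw [h5, orderOf_one] at hy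
    exact hp.one_lt.ne hy
  have hyf : Fpf G (y : G) := ((hKmem _).mp y.2).resolve_left hy1
  have hyp : (y : G) ^ p = 1 := by
    rw [← Subgroup.coe_pow, ← hy, pow_orderOf_eq_one]; rfl
  have hexp : ∀ x ∈ K, x ^ p = 1 := by
    intro x hx
    rcases (hKmem x).mp hx with rfl | hxf
    · exact one_pow p
    · obtain ⟨g, hg⟩ := hconj (y : G) x hyf hxf
      rw [← hg, conj_pow, hyp]; group
  have hKp : IsPGroup p K := by
    intro k
    refine ⟨1, ?_⟩
    apply Subtype.ext
    rw [pow_one, Subgroup.coe_pow, hexp _ k.2]; rfl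
  obtain ⟨j, hj⟩ := IsPGroup.iff_card.mp hKp
  refine ⟨K, p, j, hp, ?_, by rw [← hKcard, hj], hj, hKn, hKab, hexp, hKmem, ?_⟩
  · by_contra hj0
    have hj00 : j = 0 := by omega
    rw [hj00, pow_zero] at hj
    omega
  · intro a b
    let f : K → α := fun k => k • a
    have hf : Function.Injective f := by
      intro k k' hkk
      have h6 : (k'⁻¹ * k) • a = a := by
        rw [mul_smul]
        exact inv_smul_eq_iff.mpr hkk
      have h7 := hreg _ (k'⁻¹ * k).2 a h6
      have h8 : k'⁻¹ * k = 1 := Subtype.ext h7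
      exact (inv_mul_eq_one.mp h8).symm
    have hbij : Function.Bijective f :=
      hf.bijective_of_nat_card_le (by rw [hKcard, Nat.card_eq_fintype_card])
    obtain ⟨k, hk⟩ := hbij.2 b
    exact ⟨k.1, k.2, hk⟩

end Sharp2

end Cfsg.Agent.Helper5
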