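import Mathlib
import Cfsg.Agent.Helper5.PerpKit
import Cfsg.Agent.Helper5.SiegelComm

/-!
For a quadratic form with non-degenerate polar form on a space of dimension at least five over
a finite field of odd characteristic, the commutator subgroup of the isometry group is generated
by the Siegel transformations.
-/

set_option autoImplicit false

namespace Cfsg.Agent.Helper5

section

variable {F : Type*} [Field F] {n : ℕ}

/-- The Siegel transformations as elements of the isometry group. -/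
theorem siegelEl_exists (Q : QuadraticForm F (Fin n → F)) (u v : Fin n → F) (hu : Q u = 0)
    (hv : Q v = 0) (huv : QuadraticMap.polar (⇑Q) u v = 0) (c : F) :
    ∃ s : ↥(Cfsg.isometryGroup F ⇑Q),
      ((s : Matrix.GeneralLinearGroup (Fin n) F) : Matrix (Fin n) (Fin n) F)
        = Cfsg.siegelMatrix ⇑Q u v c := by
  have h0 : Cfsg.siegelMatrix ⇑Q u v 0 = 1 := by simp [Cfsg.siegelMatrix]
  have hmem : (⟨Cfsg.siegelMatrix ⇑Q u v c, Cfsg.siegelMatrix ⇑Q u v (-c),
      by rw [Cfsg.Agent.Helper6.siegelMatrix_mul Q u v hu hv huv, add_neg_cancel, h0],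
      by rw [Cfsg.Agent.Helper6.siegelMatrix_mul Q u v hu hv huv, neg_add_cancel, h0]⟩ :
      Matrix.GeneralLinearGroup (Fin n) F) ∈ Cfsg.isometryGroup F ⇑Q := by
    rw [Cfsg.Agent.Helper6.isometry_mem_iff]
    intro x
    exact Cfsg.Agent.Helper6.siegelMatrix_preserves Q u v hu hv huv c x
  exact ⟨⟨_, hmem⟩, rfl⟩

theorem siegel_act (Q : QuadraticForm F (Fin n → F)) (s : ↥(Cfsg.isometryGroup F ⇑Q))
    (u v : Fin n → F) (c : F)
    (hs : ((s : Matrix.GeneralLinearGroup (Fin n) F) : Matrix (Fin n) (Fin n) F)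
      = Cfsg.siegelMatrix ⇑Q u v c) (x : Fin n → F) :
    isoActF ⇑Q s x = x + c • (QuadraticMap.polar (⇑Q) u x • v
      - QuadraticMap.polar (⇑Q) v x • u) := by
  rw [isoActF_apply, hs, Cfsg.Agent.Helper6.siegelMatrix_mulVec]

variable [Fintype F]

/-- A singular vector orthogonal to an anisotropic `x` and not orthogonal to `y`, when `y` is
not a multiple of `x`. -/
theorem exists_sing_perp_x (h2 : (2 : F) ≠ 0) (hn : 5 ≤ n) (Q : QuadraticForm F (Fin n → F))
    (hQ : (QuadraticMap.polarBilin Q).Nondegenerate) (x y : Fin n → F) (hx : Q x ≠ 0)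
    (hy : y - (QuadraticMap.polar (⇑Q) x y * (2 * Q x)⁻¹) • x ≠ 0) :
    ∃ s, Q s = 0 ∧ QuadraticMap.polar (⇑Q) s x = 0 ∧ QuadraticMap.polar (⇑Q) s y ≠ 0 := by
  have h2x : (2 * Q x)⁻¹ * (2 * Q x) = 1 := inv_mul_cancel₀ (mul_ne_zero h2 hx)
  have hS : NDeg Q (⊥ ⊔ Submodule.span F {x}) :=
    ndeg_sup_aniso h2 Q ⊥ (ndeg_bot Q) x (perp_bot Q x) hx
  have hd := finrank_sup_span_le (⊥ : Submodule F (Fin n → F)) x
  rw [finrank_bot] at hd
  have hfin : Module.finrank F (Fin n → F) = n := by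
    rw [Module.finrank_fintype_fun_eq_card, Fintype.card_fin]
  have hperp : QuadraticMap.polar (⇑Q) x
      (y - (QuadraticMap.polar (⇑Q) x y * (2 * Q x)⁻¹) • x) = 0 := by
    rw [QuadraticMap.polar_sub_right, QuadraticMap.polar_smul_right, kit_polar_self,
      smul_eq_mul]
    linear_combination (-QuadraticMap.polar (⇑Q) x y) * h2x
  obtain ⟨s, hsS, hs0, hsy⟩ := exists_sing_pair h2 Q hQ _ hS (by omega) _ hy
    (perp_sup_span Q ⊥ x _ (perp_bot Q _) hperp)
  have hsx : QuadraticMap.polar (⇑Q) s x = 0 := by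
    rw [QuadraticMap.polar_comm]
    exact hsS x (mem_sup_span_self ⊥ x)
  refine ⟨s, hs0, hsx, ?_⟩
  rw [QuadraticMap.polar_sub_right, QuadraticMap.polar_smul_right, hsx, smul_zero,
    sub_zero] at hsy
  exact hsy

/-- A singular vector orthogonal to a singular `v` and not orthogonal to an anisotropic `x`
orthogonal to `v`. -/
theorem exists_sing_perp_v (h2 : (2 : F) ≠ 0) (hn : 5 ≤ n) (Q : QuadraticForm F (Fin n → F))
    (hQ : (QuadraticMap.polarBilin Q).Nondegenerate) (x v : Fin n → F) (hx : Q x ≠ 0)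
    (hv : Q v = 0) (hv0 : v ≠ 0) (hxv : QuadraticMap.polar (⇑Q) x v = 0) :
    ∃ u, Q u = 0 ∧ QuadraticMap.polar (⇑Q) u v = 0 ∧ QuadraticMap.polar (⇑Q) u x ≠ 0 := by
  have h2x : (2 * Q x)⁻¹ * (2 * Q x) = 1 := inv_mul_cancel₀ (mul_ne_zero h2 hx)
  have hvx : QuadraticMap.polar (⇑Q) v x = 0 := by
    rw [QuadraticMap.polar_comm]
    exact hxv
  have hvv : QuadraticMap.polar (⇑Q) v v = 0 := by
    rw [kit_polar_self, hv, mul_zero]
  -- a hyperbolic partner of `v` orthogonal to `x`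
  obtain ⟨t₀, ht₀⟩ : ∃ t₀, QuadraticMap.polar (⇑Q) v t₀ ≠ 0 := by
    by_contra hcon
    push Not at hcon
    exact hv0 (hQ.1 v hcon)
  obtain ⟨t₁, ht₁⟩ : ∃ t₁, t₁ = t₀ - (QuadraticMap.polar (⇑Q) x t₀ * (2 * Q x)⁻¹) • x :=
    ⟨_, rfl⟩
  have hvt₁ : QuadraticMap.polar (⇑Q) v t₁ = QuadraticMap.polar (⇑Q) v t₀ := by
    rw [ht₁, QuadraticMap.polar_sub_right, QuadraticMap.polar_smul_right, hvx, smul_zero,
      sub_zero]
  have hxt₁ : QuadraticMap.polar (⇑Q) x t₁ = 0 := by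
    rw [ht₁, QuadraticMap.polar_sub_right, QuadraticMap.polar_smul_right, kit_polar_self,
      smul_eq_mul]
    linear_combination (-QuadraticMap.polar (⇑Q) x t₀) * h2x
  obtain ⟨μ, hμ⟩ : ∃ μ, QuadraticMap.polar (⇑Q) v t₁ = μ := ⟨_, rfl⟩
  have hμ0 : μ ≠ 0 := by
    rw [← hμ, hvt₁]
    exact ht₀
  have hμi : μ⁻¹ * μ = 1 := inv_mul_cancel₀ hμ0
  obtain ⟨v', hv'⟩ : ∃ v', v' = t₁ - (Q t₁ * μ⁻¹) • v := ⟨_, rfl⟩
  have hQv' : Q v' = 0 := by
    rw [hv', sub_eq_add_neg, ← neg_smul, kit_add, QuadraticMap.map_smul,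
      QuadraticMap.polar_smul_right, hv, QuadraticMap.polar_comm (⇑Q) t₁ v, hμ, smul_eq_mul,
      smul_eq_mul]
    linear_combination (-Q t₁) * hμi
  have hvv' : QuadraticMap.polar (⇑Q) v v' = μ := by
    rw [hv', QuadraticMap.polar_sub_right, QuadraticMap.polar_smul_right, hvv, hμ, smul_zero,
      sub_zero]
  have hv'v : QuadraticMap.polar (⇑Q) v' v = μ := by
    rw [QuadraticMap.polar_comm]
    exact hvv'
  have hxv' : QuadraticMap.polar (⇑Q) x v' = 0 := by
    rw [hv', QuadraticMap.polar_sub_right, QuadraticMap.polar_smul_right, hxt₁, hxv, smul_zero,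
      sub_zero]
  have hv'v' : QuadraticMap.polar (⇑Q) v' v' = 0 := by
    rw [kit_polar_self, hQv', mul_zero]
  have hz : Q (v + v') = μ := by
    rw [kit_add, hv, hQv', hvv']
    ring
  have hz' : Q (v - v') = -μ := by
    rw [sub_eq_add_neg, kit_add, QuadraticMap.map_neg, QuadraticMap.polar_neg_right, hv, hQv',
      hvv']
    ring
  have hzz' : QuadraticMap.polar (⇑Q) (v + v') (v - v') = 0 := by
    rw [QuadraticMap.polar_add_left, QuadraticMap.polar_sub_right,
      QuadraticMap.polar_sub_right, hvv, hvv', hv'v, hv'v']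
    ring
  have hS₁ : NDeg Q (⊥ ⊔ Submodule.span F {v + v'}) :=
    ndeg_sup_aniso h2 Q ⊥ (ndeg_bot Q) _ (perp_bot Q _) (by rw [hz]; exact hμ0)
  have hS₂ : NDeg Q ((⊥ ⊔ Submodule.span F {v + v'}) ⊔ Submodule.span F {v - v'}) :=
    ndeg_sup_aniso h2 Q _ hS₁ _ (perp_sup_span Q ⊥ _ _ (perp_bot Q _) hzz')
      (by rw [hz']; exact neg_ne_zero.2 hμ0)
  have hd₁ := finrank_sup_span_le (⊥ : Submodule F (Fin n → F)) (v + v')
  have hd₂ := finrank_sup_span_le ((⊥ : Submodule F (Fin n → F)) ⊔ Submodule.span F {v + v'})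
    (v - v')
  rw [finrank_bot] at hd₁
  have hfin : Module.finrank F (Fin n → F) = n := by
    rw [Module.finrank_fintype_fun_eq_card, Fintype.card_fin]
  have hx0 : x ≠ 0 := by
    rintro rfl
    exact hx (QuadraticMap.map_zero Q)
  have hzx : QuadraticMap.polar (⇑Q) (v + v') x = 0 := by
    rw [QuadraticMap.polar_add_left, hvx, QuadraticMap.polar_comm (⇑Q) v' x, hxv', add_zero]
  have hz'x : QuadraticMap.polar (⇑Q) (v - v') x = 0 := by
    rw [QuadraticMap.polar_sub_left, hvx, QuadraticMap.polar_comm (⇑Q) v' x, hxv', sub_zero]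
  obtain ⟨u, huS, hu0, hux⟩ := exists_sing_pair h2 Q hQ _ hS₂ (by omega) x hx0
    (perp_sup_span Q _ _ _ (perp_sup_span Q ⊥ _ _ (perp_bot Q _) hzx) hz'x)
  have h1 : QuadraticMap.polar (⇑Q) (v + v') u = 0 :=
    huS _ (Submodule.mem_sup_left (mem_sup_span_self ⊥ _))
  have h3 : QuadraticMap.polar (⇑Q) (v - v') u = 0 := huS _ (mem_sup_span_self _ _)
  rw [QuadraticMap.polar_add_left] at h1
  rw [QuadraticMap.polar_sub_left] at h3
  refine ⟨u, hu0, ?_, hux⟩
  rw [QuadraticMap.polar_comm]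
  have h4 : 2 * QuadraticMap.polar (⇑Q) v u = 0 := by linear_combination h1 + h3
  rcases mul_eq_zero.1 h4 with h5 | h5
  · exact absurd h5 h2
  · exact h5

/-- The Siegel transformations move an anisotropic `x` to `x + v` for every singular `v`
orthogonal to `x`. -/
theorem siegel_move (h2 : (2 : F) ≠ 0) (hn : 5 ≤ n) (Q : QuadraticForm F (Fin n → F))
    (hQ : (QuadraticMap.polarBilin Q).Nondegenerate)
    (N : Subgroup ↥(Cfsg.isometryGroup F ⇑Q))
    (hN : ∀ (s : ↥(Cfsg.isometryGroup F ⇑Q)) (u v : Fin n → F) (c : F), Q u = 0 → Q v = 0 →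
      QuadraticMap.polar (⇑Q) u v = 0 →
      ((s : Matrix.GeneralLinearGroup (Fin n) F) : Matrix (Fin n) (Fin n) F)
        = Cfsg.siegelMatrix ⇑Q u v c → s ∈ N)
    (x v : Fin n → F) (hx : Q x ≠ 0) (hv : Q v = 0) (hxv : QuadraticMap.polar (⇑Q) x v = 0) :
    ∃ h ∈ N, isoActF ⇑Q h x = x + v := by
  by_cases hv0 : v = 0
  · refine ⟨1, Subgroup.one_mem _, ?_⟩
    rw [hv0, add_zero, map_one]
    rfl
  · obtain ⟨u, hu0, huv, hux⟩ := exists_sing_perp_v h2 hn Q hQ x v hx hv hv0 hxv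
    obtain ⟨s, hs⟩ := siegelEl_exists Q u v hu0 hv huv (QuadraticMap.polar (⇑Q) u x)⁻¹
    refine ⟨s, hN s u v _ hu0 hv huv hs, ?_⟩
    rw [siegel_act Q s u v _ hs, QuadraticMap.polar_comm (⇑Q) v x, hxv, zero_smul, sub_zero,
      smul_smul, inv_mul_cancel₀ hux, one_smul]

/-- Transitivity up to sign of the group generated by the Siegel transformations on the
vectors of a fixed non-zero norm. -/
theorem siegel_trans (h2 : (2 : F) ≠ 0) (hn : 5 ≤ n) (Q : QuadraticForm F (Fin n → F))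
    (hQ : (QuadraticMap.polarBilin Q).Nondegenerate)
    (N : Subgroup ↥(Cfsg.isometryGroup F ⇑Q))
    (hN : ∀ (s : ↥(Cfsg.isometryGroup F ⇑Q)) (u v : Fin n → F) (c : F), Q u = 0 → Q v = 0 →
      QuadraticMap.polar (⇑Q) u v = 0 →
      ((s : Matrix.GeneralLinearGroup (Fin n) F) : Matrix (Fin n) (Fin n) F)
        = Cfsg.siegelMatrix ⇑Q u v c → s ∈ N)
    (x y : Fin n → F) (hx : Q x ≠ 0) (hxy : Q y = Q x) :
    ∃ h ∈ N, isoActF ⇑Q h x = y ∨ isoActF ⇑Q h x = -y := by
  obtain ⟨a, ha⟩ : ∃ a, a = QuadraticMap.polar (⇑Q) x y * (2 * Q x)⁻¹ := ⟨_, rfl⟩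
  have e1 : (1 : (Fin n → F) ≃ₗ[F] (Fin n → F)) x = x := rfl
  by_cases hy' : y - a • x = 0
  · have hya : y = a • x := sub_eq_zero.1 hy'
    have ha2 : (a - 1) * (a + 1) = 0 := by
      have h3 : Q y = a * a * Q x := by
        rw [hya, QuadraticMap.map_smul, smul_eq_mul]
      have h4 : ((a - 1) * (a + 1)) * Q x = 0 := by linear_combination hxy - h3
      rcases mul_eq_zero.1 h4 with h5 | h5
      · exact h5
      · exact absurd h5 hx
    refine ⟨1, Subgroup.one_mem _, ?_⟩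
    rw [map_one, e1]
    rcases mul_eq_zero.1 ha2 with h5 | h5
    · left
      rw [hya, sub_eq_zero.1 h5, one_smul]
    · right
      rw [hya, eq_neg_of_add_eq_zero_left h5, neg_smul, one_smul, neg_neg]
  · rw [ha] at hy'
    obtain ⟨s₀, hs₀, hs₀x, hs₀y⟩ := exists_sing_perp_x h2 hn Q hQ x y hx hy'
    obtain ⟨δ, hδ⟩ : ∃ δ, δ = 2 * Q x - QuadraticMap.polar (⇑Q) x y := ⟨_, rfl⟩
    obtain ⟨σ, hσ⟩ : ∃ σ, QuadraticMap.polar (⇑Q) s₀ y = σ := ⟨_, rfl⟩
    rw [hσ] at hs₀y
    have hσi : σ⁻¹ * σ = 1 := inv_mul_cancel₀ hs₀y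
    obtain ⟨s, hs⟩ : ∃ s, s = (δ * σ⁻¹) • s₀ := ⟨_, rfl⟩
    have hQs : Q s = 0 := by
      rw [hs, QuadraticMap.map_smul, hs₀, smul_zero]
    have hxs : QuadraticMap.polar (⇑Q) x s = 0 := by
      rw [hs, QuadraticMap.polar_smul_right, QuadraticMap.polar_comm (⇑Q) x s₀, hs₀x, smul_zero]
    have hsy : QuadraticMap.polar (⇑Q) s y = δ := by
      rw [hs, QuadraticMap.polar_smul_left, hσ, smul_eq_mul, mul_assoc, hσi, mul_one]
    obtain ⟨h₁, hh₁, e₁⟩ := siegel_move h2 hn Q hQ N hN x s hx hQs hxs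
    have hQw : Q (x + s) = Q x := by
      rw [kit_add, hQs, hxs, add_zero, add_zero]
    have hQd : Q (y - (x + s)) = 0 := by
      rw [sub_eq_add_neg, kit_add, QuadraticMap.map_neg, QuadraticMap.polar_neg_right, hQw, hxy,
        QuadraticMap.polar_add_right, QuadraticMap.polar_comm (⇑Q) y x,
        QuadraticMap.polar_comm (⇑Q) y s, hsy, hδ]
      ring
    have hwd : QuadraticMap.polar (⇑Q) (x + s) (y - (x + s)) = 0 := by
      rw [QuadraticMap.polar_sub_right, kit_polar_self, hQw, QuadraticMap.polar_add_left, hsy,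
        hδ]
      ring
    obtain ⟨h₂, hh₂, e₂⟩ := siegel_move h2 hn Q hQ N hN (x + s) (y - (x + s))
      (by rw [hQw]; exact hx) hQd hwd
    refine ⟨h₂ * h₁, Subgroup.mul_mem _ hh₂ hh₁, Or.inl ?_⟩
    rw [map_mul, LinearEquiv.mul_apply, e₁, e₂, add_sub_cancel]

/-- The commutator subgroup of the isometry group is generated by the Siegel
transformations. -/
theorem siegel_gen (h2 : (2 : F) ≠ 0) (hn : 5 ≤ n) (Q : QuadraticForm F (Fin n → F))
    (hQ : (QuadraticMap.polarBilin Q).Nondegenerate) :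
    commutator ↥(Cfsg.isometryGroup F ⇑Q)
      = Subgroup.closure {g : ↥(Cfsg.isometryGroup F ⇑Q) | ∃ (u v : Fin n → F) (c : F),
          Q u = 0 ∧ Q v = 0 ∧ QuadraticMap.polar ⇑Q u v = 0 ∧
          ((g : Matrix.GeneralLinearGroup (Fin n) F) : Matrix (Fin n) (Fin n) F)
            = Cfsg.siegelMatrix ⇑Q u v c} := by
  obtain ⟨S, hSdef⟩ : ∃ S : Set ↥(Cfsg.isometryGroup F ⇑Q),
      S = {g : ↥(Cfsg.isometryGroup F ⇑Q) | ∃ (u v : Fin n → F) (c : F),
          Q u = 0 ∧ Q v = 0 ∧ QuadraticMap.polar ⇑Q u v = 0 ∧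
          ((g : Matrix.GeneralLinearGroup (Fin n) F) : Matrix (Fin n) (Fin n) F)
            = Cfsg.siegelMatrix ⇑Q u v c} := ⟨_, rfl⟩
  rw [← hSdef]
  obtain ⟨N, hNdef⟩ : ∃ N : Subgroup ↥(Cfsg.isometryGroup F ⇑Q), N = Subgroup.closure S :=
    ⟨_, rfl⟩
  rw [← hNdef]
  have hSmem : ∀ (s : ↥(Cfsg.isometryGroup F ⇑Q)) (u v : Fin n → F) (c : F), Q u = 0 →
      Q v = 0 → QuadraticMap.polar (⇑Q) u v = 0 →
      ((s : Matrix.GeneralLinearGroup (Fin n) F) : Matrix (Fin n) (Fin n) F)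
        = Cfsg.siegelMatrix ⇑Q u v c → s ∈ S := by
    intro s u v c hu hv huv hs
    rw [hSdef]
    exact ⟨u, v, c, hu, hv, huv, hs⟩
  have hN : ∀ (s : ↥(Cfsg.isometryGroup F ⇑Q)) (u v : Fin n → F) (c : F), Q u = 0 →
      Q v = 0 → QuadraticMap.polar (⇑Q) u v = 0 →
      ((s : Matrix.GeneralLinearGroup (Fin n) F) : Matrix (Fin n) (Fin n) F)
        = Cfsg.siegelMatrix ⇑Q u v c → s ∈ N := by
    intro s u v c hu hv huv hs
    rw [hNdef]
    exact Subgroup.subset_closure (hSmem s u v c hu hv huv hs)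
  apply le_antisymm
  · have hconj : ∀ g ∈ S, ∀ h : ↥(Cfsg.isometryGroup F ⇑Q), h * g * h⁻¹ ∈ N := by
      intro g hgS h
      rw [hSdef] at hgS
      obtain ⟨u, v, c, hu, hv, huv, hg⟩ := hgS
      have hu' : Q (isoActF ⇑Q h u) = 0 := by
        rw [isoActF_isom ⇑Q]
        exact hu
      have hv' : Q (isoActF ⇑Q h v) = 0 := by
        rw [isoActF_isom ⇑Q]
        exact hv
      have huv' : QuadraticMap.polar (⇑Q) (isoActF ⇑Q h u) (isoActF ⇑Q h v) = 0 := by
        rw [isoActF_polar]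
        exact huv
      obtain ⟨s', hs'⟩ := siegelEl_exists Q _ _ hu' hv' huv' c
      have heq : h * g * h⁻¹ = s' := by
        apply isoActF_injective ⇑Q
        apply LinearEquiv.ext
        intro x
        have h1 : isoActF ⇑Q h (isoActF ⇑Q h⁻¹ x) = x := by
          rw [← LinearEquiv.mul_apply, ← map_mul, mul_inv_cancel, map_one]
          rfl
        have hpu := isoActF_polar Q h u (isoActF ⇑Q h⁻¹ x)
        have hpv := isoActF_polar Q h v (isoActF ⇑Q h⁻¹ x)
        rw [h1] at hpu hpv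
        rw [map_mul, map_mul, LinearEquiv.mul_apply, LinearEquiv.mul_apply,
          siegel_act Q g u v c hg, siegel_act Q s' _ _ c hs', map_add, map_smul, map_sub,
          map_smul, map_smul, h1, hpu, hpv]
      rw [heq]
      exact hN s' _ _ c hu' hv' huv' hs'
    have hNn : N.Normal := by
      constructor
      intro x hx g
      rw [hNdef] at hx
      refine Subgroup.closure_induction (p := fun x _ => g * x * g⁻¹ ∈ N) ?_ ?_ ?_ ?_ hx
      · intro y hy
        exact hconj y hy g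
      · rw [mul_one, mul_inv_cancel]
        exact Subgroup.one_mem _
      · intro a b _ _ iha ihb
        have h3 : g * (a * b) * g⁻¹ = (g * a * g⁻¹) * (g * b * g⁻¹) := by group
        rw [h3]
        exact Subgroup.mul_mem _ iha ihb
      · intro a _ iha
        have h3 : g * a⁻¹ * g⁻¹ = (g * a * g⁻¹)⁻¹ := by group
        rw [h3]
        exact Subgroup.inv_mem _ iha
    obtain ⟨π, hπ⟩ : ∃ π : ↥(Cfsg.isometryGroup F ⇑Q) →* ↥(Cfsg.isometryGroup F ⇑Q) ⧸ N,
        ∀ g, π g = 1 ↔ g ∈ N :=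
      ⟨QuotientGroup.mk' N, fun g => QuotientGroup.eq_one_iff g⟩
    have hfin : Module.finrank F (Fin n → F) = n := by
      rw [Module.finrank_fintype_fun_eq_card, Fintype.card_fin]
    have hchar : ringChar F ≠ 2 := by
      intro h
      apply h2
      have h3 := CharP.cast_eq_zero F (ringChar F)
      rw [h] at h3
      exact_mod_cast h3
    obtain ⟨ε, hε⟩ := FiniteField.exists_nonsquare hchar
    have hε0 : ε ≠ 0 := by
      rintro rfl
      exact hε IsSquare.zero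
    obtain ⟨x₁, hx₁⟩ := exists_norm_val h2 (by omega : 2 ≤ n) Q hQ 1
    have hx₁0 : Q x₁ ≠ 0 := by
      rw [hx₁]
      exact one_ne_zero
    obtain ⟨x₂, hx₂, hx₁x₂⟩ : ∃ x₂, Q x₂ = ε ∧ QuadraticMap.polar (⇑Q) x₁ x₂ = 0 := by
      have hS₁ : NDeg Q (⊥ ⊔ Submodule.span F {x₁}) :=
        ndeg_sup_aniso h2 Q ⊥ (ndeg_bot Q) x₁ (perp_bot Q x₁) hx₁0
      have hd₁ := finrank_sup_span_le (⊥ : Submodule F (Fin n → F)) x₁
      rw [finrank_bot] at hd₁
      obtain ⟨z₁, hz₁S, hz₁⟩ := exists_perp_aniso_sub Q hQ _ hS₁ (by omega)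
      have hS₂ := ndeg_sup_aniso h2 Q _ hS₁ z₁ hz₁S hz₁
      have hd₂ := finrank_sup_span_le
        ((⊥ : Submodule F (Fin n → F)) ⊔ Submodule.span F {x₁}) z₁
      obtain ⟨z₂, hz₂S, hz₂⟩ := exists_perp_aniso_sub Q hQ _ hS₂ (by omega)
      have h1 : QuadraticMap.polar (⇑Q) x₁ z₁ = 0 := hz₁S x₁ (mem_sup_span_self ⊥ x₁)
      have h3 : QuadraticMap.polar (⇑Q) x₁ z₂ = 0 :=
        hz₂S x₁ (Submodule.mem_sup_left (mem_sup_span_self ⊥ x₁))
      have h4 : QuadraticMap.polar (⇑Q) z₁ z₂ = 0 := hz₂S z₁ (mem_sup_span_self _ z₁)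
      obtain ⟨α, β, hαβ⟩ := Cfsg.Agent.Helper6.exists_sq_add_sq h2 hz₁ hz₂ ε
      refine ⟨α • z₁ + β • z₂, ?_, ?_⟩
      · rw [kit_add, QuadraticMap.map_smul, QuadraticMap.map_smul,
          QuadraticMap.polar_smul_left, QuadraticMap.polar_smul_right, h4]
        simp only [smul_eq_mul, mul_zero, add_zero]
        linear_combination hαβ
      · rw [QuadraticMap.polar_add_right, QuadraticMap.polar_smul_right,
          QuadraticMap.polar_smul_right, h1, h3, smul_zero, smul_zero, add_zero]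
    have hx₂0 : Q x₂ ≠ 0 := by
      rw [hx₂]
      exact hε0
    obtain ⟨g₁, hg₁⟩ : ∃ g₁ : ↥(Cfsg.isometryGroup F ⇑Q), ActsRefl Q g₁ x₁ :=
      ⟨reflEl Q x₁ hx₁0, actsRefl_reflEl Q x₁ hx₁0⟩
    obtain ⟨g₂, hg₂⟩ : ∃ g₂ : ↥(Cfsg.isometryGroup F ⇑Q), ActsRefl Q g₂ x₂ :=
      ⟨reflEl Q x₂ hx₂0, actsRefl_reflEl Q x₂ hx₂0⟩
    have hcomm12 : g₁ * g₂ = g₂ * g₁ := by
      have hc := actsRefl_conj Q g₂ g₁ x₂ hg₂
      have e : isoActF ⇑Q g₁ x₂ = x₂ := by
        rw [hg₁ x₂, hx₁x₂, mul_zero, zero_smul, sub_zero]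
      rw [e] at hc
      exact mul_inv_eq_iff_eq_mul.1 (actsRefl_unique Q _ _ x₂ hc hg₂)
    have key : ∀ g w, Q w ≠ 0 → ActsRefl Q g w → π g = π g₁ ∨ π g = π g₂ := by
      intro g w hw hg
      have hcl : ∀ (g₀ : ↥(Cfsg.isometryGroup F ⇑Q)) (x₀ : Fin n → F) (r : F),
          ActsRefl Q g₀ x₀ → Q w = r * r * Q x₀ → π g = π g₀ := by
        intro g₀ x₀ r hg₀ hr
        have hr0 : r ≠ 0 := by
          rintro rfl
          apply hw
          rw [hr, mul_zero, zero_mul]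
        have hg₀' : ActsRefl Q g₀ (r • x₀) := actsRefl_smul Q g₀ x₀ r hr0 hg₀
        have hQ1 : Q (r • x₀) = Q w := by
          rw [QuadraticMap.map_smul, smul_eq_mul, hr]
        obtain ⟨h, hh, e⟩ := siegel_trans h2 hn Q hQ N hN (r • x₀) w
          (by rw [hQ1]; exact hw) hQ1.symm
        have hc := actsRefl_conj Q g₀ h (r • x₀) hg₀'
        have hc' : ActsRefl Q (h * g₀ * h⁻¹) w := by
          rcases e with e | e
          · rw [e] at hc
            exact hc
          · rw [e] at hc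
            have h5 := actsRefl_smul Q _ (-w) (-1) (neg_ne_zero.2 one_ne_zero) hc
            rw [neg_one_smul, neg_neg] at h5
            exact h5
        have heq : h * g₀ * h⁻¹ = g := actsRefl_unique Q _ _ w hc' hg
        rw [← heq, map_mul, map_mul, map_inv, (hπ h).2 hh, one_mul, inv_one, mul_one]
      by_cases hsq : IsSquare (Q w)
      · obtain ⟨r, hr⟩ := hsq
        left
        exact hcl g₁ x₁ r hg₁ (by rw [hx₁, mul_one]; exact hr)
      · obtain ⟨r, hr⟩ := Cfsg.Agent.Helper6.isSquare_div_of_not_isSquare hsq hε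
        right
        exact hcl g₂ x₂ r hg₂ (by rw [hx₂, ← hr, div_mul_cancel₀ _ hε0])
    have h12 : Commute (π g₁) (π g₂) := by
      change π g₁ * π g₂ = π g₂ * π g₁
      rw [← map_mul, ← map_mul, hcomm12]
    have hP1 : ∀ a, Commute (π a) (π g₁) ∧ Commute (π a) (π g₂) := by
      apply refl_induction h2 Q hQ
      · rw [map_one]
        exact ⟨Commute.one_left _, Commute.one_left _⟩
      · rintro a b ⟨ha1, ha2⟩ ⟨hb1, hb2⟩
        rw [map_mul]
        exact ⟨ha1.mul_left hb1, ha2.mul_left hb2⟩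
      · intro g w hw hg
        rcases key g w hw hg with h | h
        · rw [h]
          exact ⟨Commute.refl _, h12⟩
        · rw [h]
          exact ⟨h12.symm, Commute.refl _⟩
    have hP2 : ∀ b a, Commute (π a) (π b) := by
      apply refl_induction h2 Q hQ
      · intro a
        rw [map_one]
        exact Commute.one_right _
      · intro b b' hb hb' a
        rw [map_mul]
        exact (hb a).mul_right (hb' a)
      · intro g w hw hg a
        rcases key g w hw hg with h | h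
        · rw [h]
          exact (hP1 a).1
        · rw [h]
          exact (hP1 a).2
    rw [commutator_eq_closure, Subgroup.closure_le]
    rintro _ ⟨a, b, rfl⟩
    apply (hπ _).1
    have hc : π a * π b = π b * π a := hP2 b a
    rw [commutatorElement_def, map_mul, map_mul, map_mul, map_inv, map_inv, hc,
      mul_assoc (π b), mul_inv_cancel, mul_one, mul_inv_cancel]
  · rw [hNdef, Subgroup.closure_le]
    intro g hgS
    rw [hSdef] at hgS
    obtain ⟨u, v, c, hu, hv, huv, hg⟩ := hgS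
    have h := siegel_comm h2 Q hQ u v hu hv huv c g hg
    rw [commutator_eq_closure]
    exact Subgroup.subset_closure h

end

end Cfsg.Agent.Helper5
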