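import Mathlib
import Cfsg.Agent.Helper5.SympGen
import Cfsg.Agent.S0768
import Cfsg.Agent.Helper6.Quad
import Cfsg.Prelude.Def_GeometricClasses

/-!
Over the field with two elements, the stabiliser in `Sp_{2m}(2)` of a decomposition into pairwise
orthogonal non-degenerate planes preserves the quadratic form "parity of the number of non-zero
components", so it lies in an orthogonal group and is not maximal.
-/

set_option autoImplicit false

namespace Cfsg.Agent.Helper5

section SpPlanes

open Classical in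
/-- The parity (as an element of `F`) of the number of members of `D` on which `B x` does not
vanish. -/
noncomputable def npar {F V : Type*} [Field F] [AddCommGroup V] [Module F V] {t : ℕ}
    (B : LinearMap.BilinForm F V) (D : Fin t → Submodule F V) (x : V) : F :=
  ∑ i : Fin t, if ∃ y ∈ D i, B x y ≠ 0 then (1 : F) else 0

variable {F V : Type*} [Field F] [AddCommGroup V] [Module F V] {t : ℕ}

theorem plane_span [FiniteDimensional F V] (W : Submodule F V) (hW : Module.finrank F W = 2)
    (d e : V) (hd : d ∈ W) (he : e ∈ W) (hind : LinearIndependent F ![d, e]) :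
    ∀ z ∈ W, ∃ α β : F, z = α • d + β • e := by
  have hspan : Submodule.span F (Set.range ![d, e]) = W := by
    apply Submodule.eq_of_le_of_finrank_eq
    · rw [Submodule.span_le]
      rintro _ ⟨i, rfl⟩
      fin_cases i
      · exact hd
      · exact he
    · rw [finrank_span_eq_card hind, hW, Fintype.card_fin]
  intro z hz
  rw [← hspan, Submodule.mem_span_range_iff_exists_fun] at hz
  obtain ⟨c, hc⟩ := hz
  rw [Fin.sum_univ_two] at hc
  exact ⟨c 0, c 1, hc.symm⟩

open Classical in
theorem plane_ind [FiniteDimensional F V] (hF2 : ∀ a : F, a = 0 ∨ a = 1)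
    (h11 : (1 : F) + 1 = 0) (B : LinearMap.BilinForm F V) (hA : B.IsAlt) (W : Submodule F V)
    (hW : Module.finrank F W = 2) (x d : V) (hd : d ∈ W) (hnd : ∃ e ∈ W, B d e ≠ 0) :
    (if ∃ y ∈ W, B (x + d) y ≠ 0 then (1 : F) else 0)
      = (if ∃ y ∈ W, B x y ≠ 0 then (1 : F) else 0) + B x d + 1 := by
  obtain ⟨e, he, hde⟩ := hnd
  have hde1 : B d e = 1 := (hF2 _).resolve_left hde
  have hdd : B d d = 0 := hA d
  have hee : B e e = 0 := hA e
  have hind : LinearIndependent F ![d, e] := by
    rw [LinearIndependent.pair_iff]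
    intro α β h0
    have h1 : B d (α • d + β • e) = 0 := by rw [h0, map_zero]
    have h2 : B (α • d + β • e) e = 0 := by rw [h0, map_zero, LinearMap.zero_apply]
    simp only [map_add, map_smul, LinearMap.add_apply, LinearMap.smul_apply, smul_eq_mul, hdd,
      hde1, hee, mul_zero, mul_one, zero_add, add_zero] at h1 h2
    exact ⟨h2, h1⟩
  have hsp := plane_span W hW d e hd he hind
  rcases hF2 (B x d) with hε | hε
  · rcases hF2 (B x e) with hη | hη
    · have hL : ∃ y ∈ W, B (x + d) y ≠ 0 := ⟨e, he, by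
        rw [map_add, LinearMap.add_apply, hη, hde1, zero_add]
        exact one_ne_zero⟩
      have hR : ¬ ∃ y ∈ W, B x y ≠ 0 := by
        rintro ⟨y, hy, hxy⟩
        obtain ⟨α, β, rfl⟩ := hsp y hy
        apply hxy
        rw [map_add, map_smul, map_smul, hε, hη, smul_zero, smul_zero, add_zero]
      rw [if_pos hL, if_neg hR, hε]
      ring
    · have hL : ¬ ∃ y ∈ W, B (x + d) y ≠ 0 := by
        rintro ⟨y, hy, hxy⟩
        obtain ⟨α, β, rfl⟩ := hsp y hy
        apply hxy
        simp only [map_add, map_smul, LinearMap.add_apply, smul_eq_mul, hε, hη, hdd, hde1,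
          mul_zero, zero_add]
        linear_combination β * h11
      have hR : ∃ y ∈ W, B x y ≠ 0 := ⟨e, he, by
        rw [hη]
        exact one_ne_zero⟩
      rw [if_neg hL, if_pos hR, hε]
      linear_combination (-1 : F) * h11
  · have hL : ∃ y ∈ W, B (x + d) y ≠ 0 := ⟨d, hd, by
      rw [map_add, LinearMap.add_apply, hε, hdd, add_zero]
      exact one_ne_zero⟩
    have hR : ∃ y ∈ W, B x y ≠ 0 := ⟨d, hd, by
      rw [hε]
      exact one_ne_zero⟩
    rw [if_pos hL, if_pos hR, hε]
    linear_combination (-1 : F) * h11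

open Classical in
theorem npar_shift [FiniteDimensional F V] (hF2 : ∀ a : F, a = 0 ∨ a = 1)
    (h11 : (1 : F) + 1 = 0) (B : LinearMap.BilinForm F V) (hA : B.IsAlt)
    (D : Fin t → Submodule F V) (hfin : ∀ i, Module.finrank F (D i) = 2)
    (hnd : ∀ i, ∀ w ∈ D i, w ≠ 0 → ∃ x ∈ D i, B w x ≠ 0)
    (horth : ∀ i j, i ≠ j → ∀ u ∈ D i, ∀ v ∈ D j, B u v = 0)
    (i₀ : Fin t) (d : V) (hd : d ∈ D i₀) (hd0 : d ≠ 0) (x : V) :
    npar B D (x + d) = npar B D x + B x d + 1 := by
  unfold npar
  have h1 : ∀ i : Fin t, (if ∃ y ∈ D i, B (x + d) y ≠ 0 then (1 : F) else 0)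
      = (if ∃ y ∈ D i, B x y ≠ 0 then (1 : F) else 0)
        + (if i = i₀ then B x d + 1 else 0) := by
    intro i
    by_cases hi : i = i₀
    · subst hi
      rw [if_pos rfl, plane_ind hF2 h11 B hA (D i) (hfin i) x d hd (hnd i d hd hd0)]
      ring
    · rw [if_neg hi, add_zero]
      have h2 : ∀ y ∈ D i, B (x + d) y = B x y := by
        intro y hy
        rw [map_add, LinearMap.add_apply, horth i₀ i (Ne.symm hi) d hd y hy, add_zero]
      have h3 : (∃ y ∈ D i, B (x + d) y ≠ 0) ↔ (∃ y ∈ D i, B x y ≠ 0) := by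
        constructor
        · rintro ⟨y, hy, h⟩
          exact ⟨y, hy, by rw [← h2 y hy]; exact h⟩
        · rintro ⟨y, hy, h⟩
          exact ⟨y, hy, by rw [h2 y hy]; exact h⟩
      simp only [h3]
  rw [Finset.sum_congr rfl (fun i _ => h1 i), Finset.sum_add_distrib]
  simp only [Finset.sum_ite_eq', Finset.mem_univ, if_true]
  ring

open Classical in
theorem npar_map (B : LinearMap.BilinForm F V) (D : Fin t → Submodule F V) (g : V →ₗ[F] V)
    (hg : ∀ x y, B (g x) (g y) = B x y) (σ : Equiv.Perm (Fin t))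
    (hσ : ∀ i, (D i).map g = D (σ i)) (x : V) : npar B D (g x) = npar B D x := by
  unfold npar
  rw [← Equiv.sum_comp σ (fun j => if ∃ y ∈ D j, B (g x) y ≠ 0 then (1 : F) else 0)]
  apply Finset.sum_congr rfl
  intro i _
  have h3 : (∃ y ∈ D (σ i), B (g x) y ≠ 0) ↔ (∃ y ∈ D i, B x y ≠ 0) := by
    constructor
    · rintro ⟨y', hy', h⟩
      rw [← hσ i] at hy'
      obtain ⟨y, hy, rfl⟩ := hy'
      exact ⟨y, hy, by rw [← hg x y]; exact h⟩
    · rintro ⟨y, hy, h⟩
      refine ⟨g y, ?_, by rw [hg x y]; exact h⟩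
      rw [← hσ i]
      exact ⟨y, hy, rfl⟩
  simp only [h3]

end SpPlanes

section SpConc

variable {F : Type*} [Field F]

/-- A symplectic transvection as an element of `spGL`. -/
theorem sp_transv_el (m : ℕ) (v : Fin m ⊕ Fin m → F) :
    ∃ s : ↥(Cfsg.spGL m F), ∀ x : Fin m ⊕ Fin m → F,
      ((s : Matrix.GeneralLinearGroup (Fin m ⊕ Fin m) F) :
        Matrix (Fin m ⊕ Fin m) (Fin m ⊕ Fin m) F).mulVec x = x + sB m x v • v := by
  obtain ⟨s, hs⟩ := Cfsg.Agent.S0768.IT_to_spGL m _ (IT_transv m 1 v)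
  refine ⟨s, fun x => ?_⟩
  have h := hs x
  have h2 : Cfsg.Agent.S0749.transv (sB m) (sB_alt m) 1 v x = x + sB m x v • v := by
    change x + (1 * sB m x v) • v = x + sB m x v • v
    rw [one_mul]
  rw [← h2]
  exact h

theorem sp_planes_not_max [Fintype F] (m : ℕ) (hm : 7 ≤ m)
    (hq : Fintype.card F = 2) {t : ℕ} (D : Fin t → Submodule F (Fin m ⊕ Fin m → F))
    (hD : Cfsg.Geo.IsNondegenerateMDecomposition (Cfsg.sympForm m F) 2 D) :
    ∃ K : Subgroup (Matrix.GeneralLinearGroup (Fin m ⊕ Fin m) F),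
      Cfsg.Geo.decompositionStabilizer D ⊓ Cfsg.spGL m F < K ∧ K < Cfsg.spGL m F := by
  classical
  have hF2 : ∀ a : F, a = 0 ∨ a = 1 := by
    intro a
    by_cases ha : a = 0
    · exact Or.inl ha
    · right
      have h1 := FiniteField.pow_card_sub_one_eq_one a ha
      rw [hq] at h1
      simpa using h1
  have h11 : (1 : F) + 1 = 0 := by
    rcases hF2 (1 + 1) with h | h
    · exact h
    · exfalso
      have h2 : (1 : F) = 0 := by linear_combination h
      exact one_ne_zero h2
  have hfin := hD.decomp.finrank_eq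
  have hnd : ∀ i, ∀ w ∈ D i, w ≠ 0 → ∃ x ∈ D i, sB m w x ≠ 0 := by
    intro i w hw hw0
    obtain ⟨-, x, hx, hwx⟩ := hD.nondegenerate i w hw hw0
    exact ⟨x, hx, by rw [sB_apply]; exact hwx⟩
  have horth : ∀ i j, i ≠ j → ∀ u ∈ D i, ∀ v ∈ D j, sB m u v = 0 := by
    intro i j hij u hu v hv
    rw [sB_apply]
    exact hD.orthogonal i j hij u hu v hv
  have ht3 : 3 ≤ t := by
    by_contra hcon
    have h2 := hD.decomp.two_le
    obtain rfl : t = 2 := by omega
    have hsup : D 0 ⊔ D 1 = ⊤ := by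
      rw [← hD.decomp.iSup_eq_top]
      apply le_antisymm
      · apply sup_le
        · exact le_iSup D 0
        · exact le_iSup D 1
      · apply iSup_le
        intro i
        fin_cases i
        · exact le_sup_left
        · exact le_sup_right
    have h3 := Submodule.finrank_add_le_finrank_add_finrank (D 0) (D 1)
    rw [hsup, finrank_top, hfin 0, hfin 1, Module.finrank_fintype_fun_eq_card, Fintype.card_sum,
      Fintype.card_fin] at h3
    omega
  obtain ⟨i0, i1, i2, h01, h02, h12⟩ : ∃ i0 i1 i2 : Fin t, i0 ≠ i1 ∧ i0 ≠ i2 ∧ i1 ≠ i2 :=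
    ⟨⟨0, by omega⟩, ⟨1, by omega⟩, ⟨2, by omega⟩, by simp [Fin.ext_iff], by simp [Fin.ext_iff],
      by simp [Fin.ext_iff]⟩
  have hne : ∀ i, ∃ w ∈ D i, w ≠ 0 := by
    intro i
    have hbot : D i ≠ ⊥ := by
      intro h0
      have h1 := hfin i
      rw [h0, finrank_bot] at h1
      omega
    exact Submodule.exists_mem_ne_zero_of_ne_bot hbot
  obtain ⟨a, ha, ha0⟩ := hne i0
  obtain ⟨b, hb, hb0⟩ := hne i1
  obtain ⟨c, hc, hc0⟩ := hne i2
  obtain ⟨a', ha', haa'⟩ := hnd i0 a ha ha0
  have hA := sB_alt (F := F) m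
  have ha'a : sB m a' a = 1 := by
    rcases hF2 (sB m a' a) with h | h
    · exfalso
      apply haa'
      rw [← hA.neg_eq a' a, h, neg_zero]
    · exact h
  have hab : sB m a b = 0 := horth i0 i1 h01 a ha b hb
  have hac : sB m a c = 0 := horth i0 i2 h02 a ha c hc
  have hbc : sB m b c = 0 := horth i1 i2 h12 b hb c hc
  obtain ⟨N, hN⟩ : ∃ N : (Fin m ⊕ Fin m → F) → F, N = npar (sB m) D := ⟨_, rfl⟩
  have shift : ∀ (i : Fin t) (d : Fin m ⊕ Fin m → F), d ∈ D i → d ≠ 0 →
      ∀ x, N (x + d) = N x + sB m x d + 1 := by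
    intro i d hd hd0 x
    rw [hN]
    exact npar_shift hF2 h11 (sB m) hA D hfin hnd horth i d hd hd0 x
  refine ⟨Cfsg.isometryGroup F N ⊓ Cfsg.spGL m F, ?_, ?_⟩
  · rw [SetLike.lt_iff_le_and_exists]
    refine ⟨?_, ?_⟩
    · rintro g ⟨hgD, hgS⟩
      refine ⟨?_, hgS⟩
      have hgD' : ∃ σ : Equiv.Perm (Fin t), ∀ i, (D i).map (Matrix.toLin'
          (g : Matrix (Fin m ⊕ Fin m) (Fin m ⊕ Fin m) F)) = D (σ i) := hgD
      obtain ⟨σ, hσ⟩ := hgD'
      have hgS' : ∀ u w, Cfsg.sympForm m F
          ((g : Matrix (Fin m ⊕ Fin m) (Fin m ⊕ Fin m) F).mulVec u)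
          ((g : Matrix (Fin m ⊕ Fin m) (Fin m ⊕ Fin m) F).mulVec w)
          = Cfsg.sympForm m F u w := hgS
      refine (Cfsg.Agent.Helper6.isometry_mem_iff N g).2 ?_
      intro u
      rw [hN, ← Matrix.toLin'_apply]
      exact npar_map (sB m) D (Matrix.toLin' (g : Matrix (Fin m ⊕ Fin m) (Fin m ⊕ Fin m) F))
        (fun x y => by
          rw [sB_apply, sB_apply, Matrix.toLin'_apply, Matrix.toLin'_apply]
          exact hgS' x y) σ hσ u
    · obtain ⟨v, hv⟩ : ∃ v, v = a + b + c := ⟨_, rfl⟩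
      obtain ⟨s, hs⟩ := sp_transv_el m v
      have hNv : ∀ x, N (x + v) = N x + sB m x v + 1 := by
        intro x
        have e1 : x + v = ((x + a) + b) + c := by
          rw [hv]
          abel
        rw [e1, shift i2 c hc hc0, shift i1 b hb hb0, shift i0 a ha ha0, hv]
        simp only [map_add, LinearMap.add_apply, hab, hac, hbc]
        linear_combination h11
      have hsN : ∀ x, N (((s : Matrix.GeneralLinearGroup (Fin m ⊕ Fin m) F) :
          Matrix (Fin m ⊕ Fin m) (Fin m ⊕ Fin m) F).mulVec x) = N x := by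
        intro x
        rw [hs x]
        rcases hF2 (sB m x v) with h | h
        · rw [h, zero_smul, add_zero]
        · rw [h, one_smul, hNv x, h]
          linear_combination h11
      refine ⟨(s : Matrix.GeneralLinearGroup (Fin m ⊕ Fin m) F), ⟨?_, s.2⟩, ?_⟩
      · exact (Cfsg.Agent.Helper6.isometry_mem_iff N _).2 hsN
      · rintro ⟨hsD, -⟩
        have hsD' : ∃ σ : Equiv.Perm (Fin t), ∀ i, (D i).map (Matrix.toLin'
            ((s : Matrix.GeneralLinearGroup (Fin m ⊕ Fin m) F) :
              Matrix (Fin m ⊕ Fin m) (Fin m ⊕ Fin m) F)) = D (σ i) := hsD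
        obtain ⟨σ, hσ⟩ := hsD'
        have ha'v : sB m a' v = 1 := by
          rw [hv, map_add, map_add, ha'a, horth i0 i1 h01 a' ha' b hb,
            horth i0 i2 h02 a' ha' c hc, add_zero, add_zero]
        have hmem : a' + v ∈ D (σ i0) := by
          rw [← hσ i0]
          refine ⟨a', ha', ?_⟩
          rw [Matrix.toLin'_apply, hs a', ha'v, one_smul]
        have key : ∀ (j : Fin t) (d : Fin m ⊕ Fin m → F), j ≠ σ i0 → d ∈ D j → d ≠ 0 →
            (∀ y ∈ D j, sB m (a' + v) y = sB m d y) → False := by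
          intro j d hj hd hd0 hy
          obtain ⟨y, hyD, hdy⟩ := hnd j d hd hd0
          apply hdy
          rw [← hy y hyD]
          exact horth (σ i0) j (Ne.symm hj) (a' + v) hmem y hyD
        by_cases hj : i1 = σ i0
        · have hj2 : i2 ≠ σ i0 := by
            intro h
            exact h12 (hj.trans h.symm)
          apply key i2 c hj2 hc hc0
          intro y hy
          simp only [hv, map_add, LinearMap.add_apply, horth i0 i2 h02 a' ha' y hy,
            horth i0 i2 h02 a ha y hy, horth i1 i2 h12 b hb y hy, zero_add, add_zero]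
        · apply key i1 b hj hb hb0
          intro y hy
          simp only [hv, map_add, LinearMap.add_apply, horth i0 i1 h01 a' ha' y hy,
            horth i0 i1 h01 a ha y hy, horth i2 i1 (Ne.symm h12) c hc y hy, zero_add, add_zero]
  · rw [SetLike.lt_iff_le_and_exists]
    refine ⟨inf_le_right, ?_⟩
    obtain ⟨v, hv⟩ : ∃ v, v = a + b := ⟨_, rfl⟩
    obtain ⟨s, hs⟩ := sp_transv_el m v
    have hNv : ∀ x, N (x + v) = N x + sB m x v := by
      intro x
      have e1 : x + v = (x + a) + b := by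
        rw [hv]
        abel
      rw [e1, shift i1 b hb hb0, shift i0 a ha ha0, hv]
      simp only [map_add, LinearMap.add_apply, hab]
      linear_combination h11
    refine ⟨(s : Matrix.GeneralLinearGroup (Fin m ⊕ Fin m) F), s.2, ?_⟩
    rintro ⟨hsN0, -⟩
    have hsN := (Cfsg.Agent.Helper6.isometry_mem_iff N _).1 hsN0
    have ha'v : sB m a' v = 1 := by
      rw [hv, map_add, ha'a, horth i0 i1 h01 a' ha' b hb, add_zero]
    have h1 := hsN a'
    rw [hs a', ha'v, one_smul, hNv a', ha'v] at h1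
    have h2 : (1 : F) = 0 := by linear_combination h1
    exact one_ne_zero h2

end SpConc

end Cfsg.Agent.Helper5
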