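import Mathlib

set_option autoImplicit false

namespace Cfsg.Agent.Helper5

open scoped Matrix

theorem map_J {l : Type*} [DecidableEq l] {K F : Type*} [CommRing K] [CommRing F]
    (φ : K →+* F) : (Matrix.J l K).map φ = Matrix.J l F := by
  ext (i | i) (j | j)
  · simp [Matrix.J]
  · by_cases h : i = j <;> simp [Matrix.J, h]
  · by_cases h : i = j <;> simp [Matrix.J, h]
  · simp [Matrix.J]

/-- Transfer of symplectic matrices along an injective ring homomorphism. -/
theorem sp_transfer {l : Type*} [DecidableEq l] [Fintype l] {K F : Type*} [CommRing K]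
    [CommRing F] (φ : K →+* F) (hφ : Function.Injective φ) :
    ∃ Φ : ↥(Matrix.symplecticGroup l K) →* ↥(Matrix.symplecticGroup l F),
      Function.Injective Φ := by
  have hmem : ∀ A : ↥(Matrix.symplecticGroup l K),
      (A : Matrix (l ⊕ l) (l ⊕ l) K).map φ ∈ Matrix.symplecticGroup l F := by
    intro A
    rw [SymplecticGroup.mem_iff]
    have h1 := (SymplecticGroup.mem_iff).1 A.2
    have h2 := congrArg (fun M : Matrix (l ⊕ l) (l ⊕ l) K => M.map φ) h1
    simp only [Matrix.map_mul, map_J, Matrix.transpose_map] at h2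
    exact h2
  refine ⟨((RingHom.mapMatrix φ).toMonoidHom.comp
    (Submonoid.subtype _)).codRestrict (Matrix.symplecticGroup l F) hmem, ?_⟩
  intro A B h
  have h1 : (A : Matrix (l ⊕ l) (l ⊕ l) K).map φ = (B : Matrix (l ⊕ l) (l ⊕ l) K).map φ :=
    congrArg Subtype.val h
  apply Subtype.ext
  ext i j
  have h2 : φ ((A : Matrix (l ⊕ l) (l ⊕ l) K) i j) = φ ((B : Matrix (l ⊕ l) (l ⊕ l) K) i j) :=
    congrArg (fun M : Matrix (l ⊕ l) (l ⊕ l) F => M i j) h1
  exact hφ h2

end Cfsg.Agent.Helper5
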