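import Mathlib
import Cfsg.Agent.Helper5.OmegaAll

/-!
The orthogonal direct sum of two quadratic forms on coordinate spaces, the embedding
`g ↦ diag(g, 1)` of isometry groups and the swap of two equal summands.
-/

set_option autoImplicit false

namespace Cfsg.Agent.Helper5

section

open Matrix

variable {F : Type*} [Field F] {κ₁ κ₂ : Type} [Fintype κ₁] [DecidableEq κ₁] [Fintype κ₂]
  [DecidableEq κ₂]

/-- The orthogonal direct sum of two quadratic forms on coordinate spaces. -/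
noncomputable def sumForm (Q₁ : QuadraticForm F (κ₁ → F)) (Q₂ : QuadraticForm F (κ₂ → F)) :
    QuadraticForm F (κ₁ ⊕ κ₂ → F) :=
  Q₁.comp (LinearMap.funLeft F F Sum.inl) + Q₂.comp (LinearMap.funLeft F F Sum.inr)

omit [Fintype κ₁] [DecidableEq κ₁] [Fintype κ₂] [DecidableEq κ₂] in
theorem sumForm_apply (Q₁ : QuadraticForm F (κ₁ → F)) (Q₂ : QuadraticForm F (κ₂ → F))
    (v : κ₁ ⊕ κ₂ → F) : sumForm Q₁ Q₂ v = Q₁ (v ∘ Sum.inl) + Q₂ (v ∘ Sum.inr) := rfl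

omit [Fintype κ₁] [DecidableEq κ₁] [Fintype κ₂] [DecidableEq κ₂] in
theorem sumForm_coe (Q₁ : QuadraticForm F (κ₁ → F)) (Q₂ : QuadraticForm F (κ₂ → F)) :
    (fun v : κ₁ ⊕ κ₂ → F => Q₁ (v ∘ Sum.inl) + Q₂ (v ∘ Sum.inr)) = ⇑(sumForm Q₁ Q₂) := rfl

omit [Fintype κ₁] [DecidableEq κ₁] [Fintype κ₂] [DecidableEq κ₂] in
theorem sumForm_polar (Q₁ : QuadraticForm F (κ₁ → F)) (Q₂ : QuadraticForm F (κ₂ → F))
    (x y : κ₁ ⊕ κ₂ → F) : QuadraticMap.polar (⇑(sumForm Q₁ Q₂)) x y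
      = QuadraticMap.polar (⇑Q₁) (x ∘ Sum.inl) (y ∘ Sum.inl)
        + QuadraticMap.polar (⇑Q₂) (x ∘ Sum.inr) (y ∘ Sum.inr) := by
  rw [kit_polar_def, kit_polar_def, kit_polar_def, sumForm_apply, sumForm_apply, sumForm_apply]
  have e1 : (x + y) ∘ Sum.inl = x ∘ Sum.inl + y ∘ (Sum.inl : κ₁ → κ₁ ⊕ κ₂) := rfl
  have e2 : (x + y) ∘ Sum.inr = x ∘ Sum.inr + y ∘ (Sum.inr : κ₂ → κ₁ ⊕ κ₂) := rfl
  rw [e1, e2]
  ring

omit [Fintype κ₁] [DecidableEq κ₁] [Fintype κ₂] [DecidableEq κ₂] in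
theorem sumForm_nondeg (Q₁ : QuadraticForm F (κ₁ → F)) (Q₂ : QuadraticForm F (κ₂ → F))
    (h₁ : (QuadraticMap.polarBilin Q₁).Nondegenerate)
    (h₂ : (QuadraticMap.polarBilin Q₂).Nondegenerate) :
    (QuadraticMap.polarBilin (sumForm Q₁ Q₂)).Nondegenerate := by
  have hsep : ∀ x : κ₁ ⊕ κ₂ → F,
      (∀ y, QuadraticMap.polar (⇑(sumForm Q₁ Q₂)) x y = 0) → x = 0 := by
    intro x hx
    have hl : x ∘ Sum.inl = 0 := by
      apply h₁.1
      intro y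
      have h5 := hx (Sum.elim y 0)
      rw [sumForm_polar] at h5
      have e1 : (Sum.elim y (0 : κ₂ → F)) ∘ Sum.inl = y := rfl
      have e2 : (Sum.elim y (0 : κ₂ → F)) ∘ Sum.inr = 0 := rfl
      rw [e1, e2, QuadraticMap.polar_zero_right, add_zero] at h5
      exact h5
    have hr : x ∘ Sum.inr = 0 := by
      apply h₂.1
      intro y
      have h5 := hx (Sum.elim 0 y)
      rw [sumForm_polar] at h5
      have e1 : (Sum.elim (0 : κ₁ → F) y) ∘ Sum.inl = 0 := rfl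
      have e2 : (Sum.elim (0 : κ₁ → F) y) ∘ Sum.inr = y := rfl
      rw [e1, e2, QuadraticMap.polar_zero_right, zero_add] at h5
      exact h5
    funext i
    rcases i with i | i
    · exact congrFun hl i
    · exact congrFun hr i
  refine ⟨fun x hx => hsep x (fun y => hx y), fun x hx => hsep x (fun y => ?_)⟩
  rw [QuadraticMap.polar_comm]
  exact hx y

/-- The block matrix `diag(A, 1)` as an invertible matrix. -/
noncomputable def blockInlGL (A : Matrix.GeneralLinearGroup κ₁ F) :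
    Matrix.GeneralLinearGroup (κ₁ ⊕ κ₂) F :=
  ⟨Matrix.fromBlocks (A : Matrix κ₁ κ₁ F) 0 0 1,
    Matrix.fromBlocks ((A⁻¹ : Matrix.GeneralLinearGroup κ₁ F) : Matrix κ₁ κ₁ F) 0 0 1,
    by
      rw [Matrix.fromBlocks_multiply]
      simp only [Matrix.mul_zero, Matrix.zero_mul, add_zero, zero_add, ← Units.val_mul,
        mul_inv_cancel, Units.val_one, Matrix.mul_one, Matrix.fromBlocks_one],
    by
      rw [Matrix.fromBlocks_multiply]
      simp only [Matrix.mul_zero, Matrix.zero_mul, add_zero, zero_add, ← Units.val_mul,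
        inv_mul_cancel, Units.val_one, Matrix.mul_one, Matrix.fromBlocks_one]⟩

theorem sumInl_mem (Q₁ : QuadraticForm F (κ₁ → F)) (Q₂ : QuadraticForm F (κ₂ → F))
    (g : ↥(Cfsg.isometryGroup F ⇑Q₁)) :
    blockInlGL (κ₂ := κ₂) (g : Matrix.GeneralLinearGroup κ₁ F)
      ∈ Cfsg.isometryGroup F ⇑(sumForm Q₁ Q₂) := by
  rw [Cfsg.Agent.Helper6.isometry_mem_iff]
  intro u
  change sumForm Q₁ Q₂ (Matrix.fromBlocks
    ((g : Matrix.GeneralLinearGroup κ₁ F) : Matrix κ₁ κ₁ F) 0 0 1 *ᵥ u) = _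
  rw [Matrix.fromBlocks_mulVec, sumForm_apply, sumForm_apply, Sum.elim_comp_inl,
    Sum.elim_comp_inr]
  simp only [Matrix.zero_mulVec, Matrix.one_mulVec, add_zero, zero_add]
  rw [(Cfsg.Agent.Helper6.isometry_mem_iff ⇑Q₁ g.1).1 g.2]

/-- `g ↦ diag(g, 1)` on isometry groups. -/
noncomputable def sumInl (Q₁ : QuadraticForm F (κ₁ → F)) (Q₂ : QuadraticForm F (κ₂ → F)) :
    ↥(Cfsg.isometryGroup F ⇑Q₁) →* ↥(Cfsg.isometryGroup F ⇑(sumForm Q₁ Q₂)) where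
  toFun g := ⟨blockInlGL (κ₂ := κ₂) (g : Matrix.GeneralLinearGroup κ₁ F), sumInl_mem Q₁ Q₂ g⟩
  map_one' := by
    apply Subtype.ext
    apply Units.ext
    change Matrix.fromBlocks ((1 : Matrix.GeneralLinearGroup κ₁ F) : Matrix κ₁ κ₁ F) 0 0
      (1 : Matrix κ₂ κ₂ F) = 1
    rw [Units.val_one, Matrix.fromBlocks_one]
  map_mul' a b := by
    apply Subtype.ext
    apply Units.ext
    change Matrix.fromBlocks (((a : Matrix.GeneralLinearGroup κ₁ F) * (b :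
        Matrix.GeneralLinearGroup κ₁ F) : Matrix.GeneralLinearGroup κ₁ F) : Matrix κ₁ κ₁ F) 0 0
      (1 : Matrix κ₂ κ₂ F)
      = Matrix.fromBlocks ((a : Matrix.GeneralLinearGroup κ₁ F) : Matrix κ₁ κ₁ F) 0 0 1
        * Matrix.fromBlocks ((b : Matrix.GeneralLinearGroup κ₁ F) : Matrix κ₁ κ₁ F) 0 0 1
    rw [Matrix.fromBlocks_multiply, Units.val_mul]
    simp only [Matrix.mul_zero, Matrix.zero_mul, add_zero, zero_add, Matrix.mul_one]

theorem sumInl_coe (Q₁ : QuadraticForm F (κ₁ → F)) (Q₂ : QuadraticForm F (κ₂ → F))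
    (g : ↥(Cfsg.isometryGroup F ⇑Q₁)) :
    ((sumInl Q₁ Q₂ g : Matrix.GeneralLinearGroup (κ₁ ⊕ κ₂) F) :
      Matrix (κ₁ ⊕ κ₂) (κ₁ ⊕ κ₂) F)
      = Matrix.fromBlocks ((g : Matrix.GeneralLinearGroup κ₁ F) : Matrix κ₁ κ₁ F) 0 0 1 := rfl

theorem sumInl_refl (Q₁ : QuadraticForm F (κ₁ → F)) (Q₂ : QuadraticForm F (κ₂ → F))
    (r : ↥(Cfsg.isometryGroup F ⇑Q₁)) (w : κ₁ → F) (hr : ActsRefl Q₁ r w) :
    ActsRefl (sumForm Q₁ Q₂) (sumInl Q₁ Q₂ r) (Sum.elim w 0) := by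
  intro x
  have hr' := hr (x ∘ Sum.inl)
  rw [isoActF_apply] at hr'
  rw [isoActF_apply, sumInl_coe, Matrix.fromBlocks_mulVec, sumForm_apply, sumForm_polar,
    Sum.elim_comp_inl, Sum.elim_comp_inr, map_zero, add_zero, QuadraticMap.polar_zero_left,
    add_zero]
  simp only [Matrix.zero_mulVec, Matrix.one_mulVec, add_zero, zero_add]
  rw [hr']
  funext i
  rcases i with i | i
  · simp
  · simp

/-- The swap of two equal summands. -/
noncomputable def sumSwap (Q : QuadraticForm F (κ₁ → F)) :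
    ↥(Cfsg.isometryGroup F ⇑(sumForm Q Q)) :=
  ⟨⟨Matrix.fromBlocks 0 1 1 0, Matrix.fromBlocks 0 1 1 0,
      by
        rw [Matrix.fromBlocks_multiply]
        simp only [Matrix.mul_zero, add_zero, zero_add, Matrix.mul_one,
          Matrix.fromBlocks_one],
      by
        rw [Matrix.fromBlocks_multiply]
        simp only [Matrix.mul_zero, add_zero, zero_add, Matrix.mul_one,
          Matrix.fromBlocks_one]⟩,
    by
      rw [Cfsg.Agent.Helper6.isometry_mem_iff]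
      intro u
      change sumForm Q Q (Matrix.fromBlocks (0 : Matrix κ₁ κ₁ F) 1 1 0 *ᵥ u) = _
      rw [Matrix.fromBlocks_mulVec, sumForm_apply, sumForm_apply, Sum.elim_comp_inl,
        Sum.elim_comp_inr]
      simp only [Matrix.zero_mulVec, Matrix.one_mulVec, add_zero, zero_add]
      exact add_comm _ _⟩

theorem sumSwap_coe (Q : QuadraticForm F (κ₁ → F)) :
    ((sumSwap Q : Matrix.GeneralLinearGroup (κ₁ ⊕ κ₁) F) : Matrix (κ₁ ⊕ κ₁) (κ₁ ⊕ κ₁) F)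
      = Matrix.fromBlocks 0 1 1 0 := rfl

theorem sumSwap_inv_coe (Q : QuadraticForm F (κ₁ → F)) :
    ((((sumSwap Q)⁻¹ : ↥(Cfsg.isometryGroup F ⇑(sumForm Q Q))) :
      Matrix.GeneralLinearGroup (κ₁ ⊕ κ₁) F) :
      Matrix (κ₁ ⊕ κ₁) (κ₁ ⊕ κ₁) F) = Matrix.fromBlocks 0 1 1 0 := rfl

open scoped commutatorElement in
/-- `diag(g, g)` lies in the commutator subgroup of the isometry group of `Q ⊕ Q`. -/
theorem diag_mem_omega [Fintype F] (Q : QuadraticForm F (κ₁ → F))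
    (hQ : (QuadraticMap.polarBilin Q).Nondegenerate)
    (h : Fintype.card F ≠ 2 ∨ Fintype.card (κ₁ ⊕ κ₁) ≠ 4) (i₀ : κ₁)
    (g : ↥(Cfsg.isometryGroup F ⇑Q)) :
    ∃ x : ↥(Cfsg.isometryGroup F ⇑(sumForm Q Q)),
      x ∈ commutator ↥(Cfsg.isometryGroup F ⇑(sumForm Q Q)) ∧
      ((x : Matrix.GeneralLinearGroup (κ₁ ⊕ κ₁) F) : Matrix (κ₁ ⊕ κ₁) (κ₁ ⊕ κ₁) F)
        = Matrix.fromBlocks ((g : Matrix.GeneralLinearGroup κ₁ F) : Matrix κ₁ κ₁ F) 0 0
          ((g : Matrix.GeneralLinearGroup κ₁ F) : Matrix κ₁ κ₁ F) := by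
  have hN : (commutator ↥(Cfsg.isometryGroup F ⇑(sumForm Q Q))).Normal := inferInstance
  obtain ⟨a, ha⟩ : ∃ a, a = sumInl Q Q g := ⟨_, rfl⟩
  obtain ⟨σ, hσ⟩ : ∃ σ, σ = sumSwap Q := ⟨_, rfl⟩
  refine ⟨a * (σ * a * σ⁻¹), ?_, ?_⟩
  · have e : a * (σ * a * σ⁻¹) = ⁅a, σ⁆ * (σ * (a * a) * σ⁻¹) := by
      rw [commutatorElement_def]
      group
    rw [e]
    exact Subgroup.mul_mem _
      (Subgroup.commutator_mem_commutator (Subgroup.mem_top a) (Subgroup.mem_top σ))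
      (hN.conj_mem _ (sq_mem_omega (sumForm Q Q) (sumForm_nondeg Q Q hQ hQ) h
        (Sum.inl i₀) (Sum.inr i₀) (by simp) a) σ)
  · rw [Subgroup.coe_mul, Units.val_mul, Subgroup.coe_mul, Units.val_mul, Subgroup.coe_mul,
      Units.val_mul, ha, hσ, sumInl_coe, sumSwap_coe, sumSwap_inv_coe]
    simp only [Matrix.fromBlocks_multiply, Matrix.mul_zero, Matrix.zero_mul, Matrix.mul_one,
      Matrix.one_mul, add_zero, zero_add]

end

end Cfsg.Agent.Helper5
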