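import Mathlib
import Cfsg.Agent.Helper5.SumForm

/-!
For an orthogonal direct sum `Q₁ ⊕ Q₂`, the isometry `diag(g, 1)` lies in the commutator subgroup
of the isometry group of the sum exactly when `g` lies in that of `Q₁`.
-/

set_option autoImplicit false

namespace Cfsg.Agent.Helper5

theorem map_comm_le {G H : Type*} [Group G] [Group H] (f : G →* H) (g : G)
    (hg : g ∈ commutator G) : f g ∈ commutator H := by
  have h1 : (commutator G).map f ≤ commutator H := by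
    rw [commutator_def, commutator_def, Subgroup.map_commutator]
    exact Subgroup.commutator_mono le_top le_top
  exact h1 (Subgroup.mem_map_of_mem f hg)

theorem mat_eq_one_of_small {F : Type*} [Field F] {k : ℕ} (hk : k ≤ 1)
    (A : Matrix (Fin k) (Fin k) F) (hA : A.det = 1) : A = 1 := by
  interval_cases k
  · exact Subsingleton.elim _ _
  · rw [Matrix.det_fin_one] at hA
    ext i j
    fin_cases i
    fin_cases j
    simpa using hA

section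

variable {F : Type*} [Field F] [Fintype F] {κ₁ κ₂ : Type} [Fintype κ₁] [DecidableEq κ₁]
  [Fintype κ₂] [DecidableEq κ₂]

omit [Fintype F] [Fintype κ₁] [DecidableEq κ₁] [Fintype κ₂] [DecidableEq κ₂] in
theorem sumForm_elim_zero (Q₁ : QuadraticForm F (κ₁ → F)) (Q₂ : QuadraticForm F (κ₂ → F))
    (w : κ₁ → F) : sumForm Q₁ Q₂ (Sum.elim w 0) = Q₁ w := by
  rw [sumForm_apply, Sum.elim_comp_inl, Sum.elim_comp_inr, map_zero, add_zero]

theorem dick2_sumInl (h2 : (2 : F) = 0) (Q₁ : QuadraticForm F (κ₁ → F))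
    (Q₂ : QuadraticForm F (κ₂ → F)) (h₁ : (QuadraticMap.polarBilin Q₁).Nondegenerate)
    (h₂ : (QuadraticMap.polarBilin Q₂).Nondegenerate)
    (h : Fintype.card F ≠ 2 ∨ Fintype.card κ₁ ≠ 4) (g : ↥(Cfsg.isometryGroup F ⇑Q₁)) :
    dick2 h2 (sumForm Q₁ Q₂) (sumForm_nondeg Q₁ Q₂ h₁ h₂) (sumInl Q₁ Q₂ g)
      = dick2 h2 Q₁ h₁ g := by
  refine refl_induction2 h2 Q₁ h₁ h
    (fun g => dick2 h2 (sumForm Q₁ Q₂) (sumForm_nondeg Q₁ Q₂ h₁ h₂) (sumInl Q₁ Q₂ g)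
      = dick2 h2 Q₁ h₁ g) ?_ ?_ ?_ g
  · rw [map_one, map_one, map_one]
  · intro a b ha hb
    rw [map_mul, map_mul, map_mul, ha, hb]
  · intro r w hw hr
    rw [dick2_refl h2 Q₁ h₁ r w hw hr,
      dick2_refl h2 (sumForm Q₁ Q₂) (sumForm_nondeg Q₁ Q₂ h₁ h₂) _ (Sum.elim w 0)
        (by rw [sumForm_elim_zero]; exact hw) (sumInl_refl Q₁ Q₂ r w hr)]

theorem chi_sumInl (h2 : (2 : F) ≠ 0) (Q₁ : QuadraticForm F (κ₁ → F))
    (Q₂ : QuadraticForm F (κ₂ → F)) (h₁ : (QuadraticMap.polarBilin Q₁).Nondegenerate)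
    (g : ↥(Cfsg.isometryGroup F ⇑Q₁)) :
    chi (sumForm Q₁ Q₂) 1 (sumInl Q₁ Q₂ g) = chi Q₁ 1 g := by
  refine refl_induction h2 Q₁ h₁
    (fun g => chi (sumForm Q₁ Q₂) 1 (sumInl Q₁ Q₂ g) = chi Q₁ 1 g) ?_ ?_ ?_ g
  · rw [map_one, map_one, map_one]
  · intro a b ha hb
    rw [map_mul, map_mul, map_mul, ha, hb]
  · intro r w hw hr
    have hc1 := chi_refl h2 Q₁ 1 one_ne_zero w hw r hr
    have hc2 := chi_refl h2 (sumForm Q₁ Q₂) 1 one_ne_zero (Sum.elim w 0)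
      (by rw [sumForm_elim_zero]; exact hw) (sumInl Q₁ Q₂ r) (sumInl_refl Q₁ Q₂ r w hr)
    rw [sumForm_elim_zero] at hc2
    by_cases hc : ∃ t, t * t * Q₁ w = 1
    · rw [hc1.1 hc, hc2.1 hc]
    · rw [hc1.2 hc, hc2.2 hc]

omit [Fintype F] in
theorem det_sumInl (Q₁ : QuadraticForm F (κ₁ → F)) (Q₂ : QuadraticForm F (κ₂ → F))
    (g : ↥(Cfsg.isometryGroup F ⇑Q₁)) :
    ((sumInl Q₁ Q₂ g : Matrix.GeneralLinearGroup (κ₁ ⊕ κ₂) F) :
      Matrix (κ₁ ⊕ κ₂) (κ₁ ⊕ κ₂) F).det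
      = ((g : Matrix.GeneralLinearGroup κ₁ F) : Matrix κ₁ κ₁ F).det := by
  rw [sumInl_coe, Matrix.det_fromBlocks_zero₁₂, Matrix.det_one, mul_one]

omit [Fintype F] in
theorem comm_det_one (Qf : (κ₁ → F) → F) (g : ↥(Cfsg.isometryGroup F Qf))
    (hg : g ∈ commutator ↥(Cfsg.isometryGroup F Qf)) :
    ((g : Matrix.GeneralLinearGroup κ₁ F) : Matrix κ₁ κ₁ F).det = 1 :=
  (mem_SO_iff Qf g).1 (Abelianization.commutator_subset_ker
    (Matrix.GeneralLinearGroup.det.comp (Cfsg.isometryGroup F Qf).subtype) hg)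

theorem sumInl_mem_omega_iff {k l : ℕ}
    (h : Fintype.card F ≠ 2 ∨ (k ≠ 4 ∧ k + l ≠ 4))
    (Q₁ : QuadraticForm F (Fin k → F)) (Q₂ : QuadraticForm F (Fin l → F))
    (h₁ : (QuadraticMap.polarBilin Q₁).Nondegenerate)
    (h₂ : (QuadraticMap.polarBilin Q₂).Nondegenerate) (g₁ : ↥(Cfsg.isometryGroup F ⇑Q₁)) :
    sumInl Q₁ Q₂ g₁ ∈ commutator ↥(Cfsg.isometryGroup F ⇑(sumForm Q₁ Q₂)) ↔
      g₁ ∈ commutator ↥(Cfsg.isometryGroup F ⇑Q₁) := by
  refine ⟨fun hg => ?_, fun hg => map_comm_le (sumInl Q₁ Q₂) g₁ hg⟩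
  have hk : Fintype.card F ≠ 2 ∨ Fintype.card (Fin k) ≠ 4 := by
    rw [Fintype.card_fin]
    rcases h with h | h
    · exact Or.inl h
    · exact Or.inr h.1
  have hkl : Fintype.card F ≠ 2 ∨ Fintype.card (Fin k ⊕ Fin l) ≠ 4 := by
    rw [Fintype.card_sum, Fintype.card_fin, Fintype.card_fin]
    rcases h with h | h
    · exact Or.inl h
    · exact Or.inr h.2
  by_cases h2 : (2 : F) = 0
  · rw [omega2_iff h2 (sumForm Q₁ Q₂) (sumForm_nondeg Q₁ Q₂ h₁ h₂) hkl,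
      dick2_sumInl h2 Q₁ Q₂ h₁ h₂ hk] at hg
    exact (omega2_iff h2 Q₁ h₁ hk g₁).2 hg
  · have hchi : chi Q₁ 1 g₁ = 1 := by
      rw [← chi_sumInl h2 Q₁ Q₂ h₁ g₁]
      exact MonoidHom.mem_ker.1 (Abelianization.commutator_subset_ker _ hg)
    have hdet : ((g₁ : Matrix.GeneralLinearGroup (Fin k) F) : Matrix (Fin k) (Fin k) F).det
        = 1 := by
      rw [← det_sumInl Q₁ Q₂ g₁]
      exact comm_det_one _ _ hg
    by_cases hk2 : 2 ≤ k
    · exact (omega_mem_iff h2 (⟨0, by omega⟩ : Fin k) ⟨1, by omega⟩ (by simp [Fin.ext_iff])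
        Q₁ h₁ g₁).2 ⟨hchi, hdet⟩
    · have hg1 : g₁ = 1 := by
        apply Subtype.ext
        apply Units.ext
        exact mat_eq_one_of_small (by omega) _ hdet
      rw [hg1]
      exact Subgroup.one_mem _

end

end Cfsg.Agent.Helper5
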