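import Mathlib
import Cfsg.Agent.Helper15.SymOrth
import Cfsg.Agent.Helper15.SympBasis
import Cfsg.Agent.Helper15.Realize

set_option autoImplicit false

namespace Cfsg.Agent.Helper5

open Cfsg.Agent.Helper15

theorem symBeta_eq {ι : Type*} [Fintype ι] (v w : ι → ZMod 2) :
    ∑ a, v a * w a + (∑ a, v a) * (∑ a, w a) = ∑ x, symL ι v x * symL ι w x := by
  rw [Fintype.sum_option, Fintype.sum_option]
  show _ = (0 : ZMod 2) * 0 + ((∑ a, v a) * (∑ a, w a) + ∑ a, v a * w a)
  ring

theorem sum_shift_zmod2 {X : Type*} [Fintype X] (V W : X → ZMod 2) (c d : ZMod 2)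
    (hV : ∑ x, V x = 0) (hW : ∑ x, W x = 0) (hX : Even (Fintype.card X)) :
    ∑ x, (V x + c) * (W x + d) = ∑ x, V x * W x := by
  have hexp : ∀ x, (V x + c) * (W x + d) = V x * W x + d * V x + c * W x + c * d :=
    fun x => by ring
  simp only [hexp, Finset.sum_add_distrib, ← Finset.mul_sum, hV, hW, Finset.sum_const,
    Finset.card_univ]
  obtain ⟨r, hr⟩ := hX
  rw [hr, add_nsmul, CharTwo.add_self_eq_zero]
  ring

theorem symAct_beta {ι : Type*} [Fintype ι] (hι : Even (Fintype.card ι))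
    (π : Equiv.Perm (Option (Option ι))) (v w : ι → ZMod 2) :
    ∑ x, symL ι (symAct ι π v) x * symL ι (symAct ι π w) x
      = ∑ x, symL ι v x * symL ι w x := by
  rw [symAct_apply, symAct_apply, symL_symR hι _ (symL_perm_sum π.symm v),
    symL_symR hι _ (symL_perm_sum π.symm w)]
  have hX : Even (Fintype.card (Option (Option ι))) := by
    obtain ⟨r, hr⟩ := hι
    rw [Fintype.card_option, Fintype.card_option, hr]
    exact ⟨r + 1, by ring⟩
  have h1 := sum_shift_zmod2 (fun x => symL ι v (π.symm x)) (fun x => symL ι w (π.symm x))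
    (symL ι v (π.symm none)) (symL ι w (π.symm none)) (symL_perm_sum π.symm v)
    (symL_perm_sum π.symm w) hX
  have h2 : ∑ x, symL ι v (π.symm x) * symL ι w (π.symm x)
      = ∑ x, symL ι v x * symL ι w x :=
    Equiv.sum_comp π.symm (fun x => symL ι v x * symL ι w x)
  rw [← h2, ← h1]
  rfl

theorem exists_symRho' (ι : Type*) [Fintype ι] [DecidableEq ι] (hι : Even (Fintype.card ι))
    (h5 : 5 ≤ Fintype.card (Option (Option ι))) :
    ∃ ρ : Equiv.Perm (Option (Option ι)) →* Matrix ι ι (ZMod 2), Function.Injective ρ ∧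
      ∀ π u, (ρ π).mulVec u = symAct ι π u := by
  classical
  let ρ : Equiv.Perm (Option (Option ι)) →* Matrix ι ι (ZMod 2) :=
    { toFun := fun π => LinearMap.toMatrix' (symAct ι π)
      map_one' := by rw [symAct_one, LinearMap.toMatrix'_id]
      map_mul' := fun π σ => by rw [symAct_mul hι, LinearMap.toMatrix'_comp] }
  refine ⟨ρ, ?_, ?_⟩
  · rw [injective_iff_map_eq_one]
    intro π hπ
    apply symAct_inj hι h5
    intro u
    have h1 : LinearMap.toMatrix' (symAct ι π) = 1 := hπ
    rw [← LinearMap.toMatrix'_id] at h1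
    rw [LinearMap.toMatrix'.injective h1]
    rfl
  · intro π u
    exact LinearMap.toMatrix'_mulVec _ _

/-- `Sym(2n)` embeds in `Sp_{2n-2}(2)`. -/
theorem sym_sp_embed (n : ℕ) (hn : 3 ≤ n) :
    ∃ f : Equiv.Perm (Fin (2 * n)) →* Matrix.symplecticGroup (Fin (n - 1)) (ZMod 2),
      Function.Injective f := by
  classical
  have hcard : Fintype.card (Fin (2 * (n - 1))) = 2 * (n - 1) := Fintype.card_fin _
  have hcard2 : Fintype.card (Option (Option (Fin (2 * (n - 1))))) = 2 * n := by
    rw [Fintype.card_option, Fintype.card_option, hcard]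
    omega
  have hev : Even (Fintype.card (Fin (2 * (n - 1)))) := by
    rw [hcard]
    exact ⟨n - 1, by ring⟩
  obtain ⟨ρ, hρi, hρ⟩ := exists_symRho' (Fin (2 * (n - 1))) hev (by
    rw [hcard2]
    omega)
  obtain ⟨Q, hQ, hnd⟩ := exists_symQuad (Fin (2 * (n - 1))) hev
  have hω : ∀ v w, QuadraticMap.polarBilin Q v w
      = ∑ x, symL (Fin (2 * (n - 1))) v x * symL (Fin (2 * (n - 1))) w x := by
    intro v w
    rw [QuadraticMap.polarBilin_apply_apply, QuadraticMap.polar, hQ, hQ, hQ, symq_add,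
      ← symBeta_eq]
    ring
  obtain ⟨e, he⟩ := exists_symp_equiv (n := n - 1) (QuadraticMap.polarBilin Q) (fun x => by
      rw [QuadraticMap.polarBilin_apply_apply, QuadraticMap.polar_self, two_nsmul,
        CharTwo.add_self_eq_zero]) hnd.1 (by rw [Module.finrank_fin_fun])
  obtain ⟨φ, hφ⟩ := embed_symplectic ρ hρi e (fun h v w => by
      rw [← he, ← he, hρ, hρ, hω, hω, symAct_beta hev])
  have e0 : Fin (2 * n) ≃ Option (Option (Fin (2 * (n - 1)))) :=
    Fintype.equivOfCardEq (by rw [hcard2, Fintype.card_fin])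
  exact ⟨φ.comp (Equiv.permCongrHom e0).toMonoidHom,
    hφ.comp (Equiv.permCongrHom e0).injective⟩

end Cfsg.Agent.Helper5
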