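import Mathlib
import Cfsg.Prelude.Def_Classical
import Cfsg.Agent.Helper15.SymOrth
import Cfsg.Agent.Helper15.QuadStd
import Cfsg.Agent.Helper15.Realize
import Cfsg.Agent.Helper5.SymSp

set_option autoImplicit false

namespace Cfsg.Agent.Helper5

open Cfsg.Agent.Helper15

/-- Extension of permutations to `Option α` fixing `none`, as a homomorphism. -/
def optPermHom (α : Type*) : Equiv.Perm α →* Equiv.Perm (Option α) where
  toFun π := Equiv.optionCongr π
  map_one' := Equiv.optionCongr_refl
  map_mul' π σ := by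
    refine Equiv.ext (fun x => ?_)
    cases x <;> rfl

theorem symAct_fix_none {ι : Type*} [Fintype ι] (hι : Even (Fintype.card ι))
    (π : Equiv.Perm (Option (Option ι))) (hπ : π none = none) (u : ι → ZMod 2) :
    f2half (symL ι (symAct ι π u)) = f2half (symL ι u) := by
  have hπ' : π.symm none = none := by
    rw [Equiv.symm_apply_eq]
    exact hπ.symm
  rw [symAct_apply, symL_symR hι _ (symL_perm_sum π.symm u)]
  have h1 : ((fun x => symL ι u (π.symm x)) + fun _ => symL ι u (π.symm none))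
      = fun x => symL ι u (π.symm x) := by
    funext x
    show symL ι u (π.symm x) + symL ι u (π.symm none) = symL ι u (π.symm x)
    rw [hπ']
    show symL ι u (π.symm x) + 0 = _
    rw [add_zero]
  rw [h1]
  unfold f2half
  rw [f2wt_perm π.symm (symL ι u)]

/-- `Sym(5)` embeds in `O⁻_4(2)`. -/
theorem sym5_orth_embed :
    ∃ φ : Equiv.Perm (Fin 5) →*
        ↥(Cfsg.isometryGroup (ZMod 2) (Cfsg.quadFormMinus 1 (ZMod 2) 1 1)),
      Function.Injective φ := by
  classical
  have hcard : Fintype.card (Fin 4) = 4 := Fintype.card_fin _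
  have hev : Even (Fintype.card (Fin 4)) := by
    rw [hcard]
    exact ⟨2, rfl⟩
  obtain ⟨ρ, hρi, hρ⟩ := exists_symRho' (Fin 4) hev (by
    rw [Fintype.card_option, Fintype.card_option, hcard]
    norm_num)
  obtain ⟨Q, hQ, hnd⟩ := exists_symQuad (Fin 4) hev
  have hpol : ∀ v w : Fin 4 → ZMod 2, QuadraticMap.polar ⇑Q v w
      = ∑ a, v a * w a + (∑ a, v a) * (∑ a, w a) := by
    intro v w
    rw [QuadraticMap.polar, hQ, hQ, hQ, symq_add]
    ring
  obtain ⟨g, hg⟩ := minus_of_family (k := 1) Q (by rw [Module.finrank_fin_fun])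
    (fun _ => ![1, 1, 1, 0]) (fun _ => ![1, 1, 0, 1]) ![1, 0, 0, 0] ![1, 1, 0, 0] 1 1
    (by decide)
    (fun i => ⟨by rw [hQ]; decide, by rw [hQ]; decide⟩)
    (fun i j => by rw [hpol, if_pos (Subsingleton.elim i j)]; decide)
    (fun i j => ⟨by rw [hpol]; decide, by rw [hpol]; decide⟩)
    (fun i => ⟨by rw [hpol]; decide, by rw [hpol]; decide, by rw [hpol]; decide,
      by rw [hpol]; decide⟩)
    (by rw [hQ]; decide) (by rw [hpol]; decide) (by rw [hQ]; decide)
  have e1 : Fin 5 ≃ Option (Fin 4) :=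
    Fintype.equivOfCardEq (by rw [Fintype.card_option, Fintype.card_fin, Fintype.card_fin])
  obtain ⟨φ, hφ⟩ := embed_isometry (ρ.comp (optPermHom (Option (Fin 4))))
    (hρi.comp Equiv.optionCongr_injective) g (Cfsg.quadFormMinus 1 (ZMod 2) 1 1)
    (fun h v => by
      rw [hg, hg, hQ, hQ]
      show f2half (symL (Fin 4) ((ρ (Equiv.optionCongr h)).mulVec v)) = _
      rw [hρ]
      exact symAct_fix_none hev _ rfl v)
  exact ⟨φ.comp (Equiv.permCongrHom e1).toMonoidHom,
    hφ.comp (Equiv.permCongrHom e1).injective⟩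

end Cfsg.Agent.Helper5
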