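import Mathlib

set_option autoImplicit false

namespace Cfsg.Agent.Helper5

open Polynomial

section ZModFun

variable (p : ℕ) (K : Type*) [Field K]

/-- evaluation of polynomials at the points of `ZMod p` -/
noncomputable def zev : K[X] →ₗ[K] (ZMod p → K) where
  toFun P := fun j => P.eval (ZMod.cast j : K)
  map_add' P Q := by funext j; simp
  map_smul' c P := by funext j; simp

/-- backward difference operator -/
def zD : Module.End K (ZMod p → K) where
  toFun f := fun j => f (j - 1) - f j
  map_add' f g := by funext j; simp only [Pi.add_apply]; ring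
  map_smul' c f := by
    funext j; simp only [Pi.smul_apply, smul_eq_mul, RingHom.id_apply]; ring

/-- polynomial functions of degree `< r` -/
noncomputable def zM (r : ℕ) : Submodule K (ZMod p → K) := (degreeLT K r).map (zev p K)

variable {p K}

theorem zev_apply (P : K[X]) (j : ZMod p) : zev p K P j = P.eval (ZMod.cast j : K) := rfl

theorem zD_apply (f : ZMod p → K) (j : ZMod p) : zD p K f j = f (j - 1) - f j := rfl

theorem mem_zM {r : ℕ} {f : ZMod p → K} :
    f ∈ zM p K r ↔ ∃ P : K[X], P.degree < r ∧ ∀ j : ZMod p, f j = P.eval (ZMod.cast j : K) := by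
  show f ∈ (degreeLT K r).map (zev p K) ↔ _
  rw [Submodule.mem_map]
  constructor
  · rintro ⟨P, hP, rfl⟩
    exact ⟨P, mem_degreeLT.1 hP, fun j => rfl⟩
  · rintro ⟨P, hP, h⟩
    exact ⟨P, mem_degreeLT.2 hP, funext fun j => (h j).symm⟩

theorem zev_mem_zM {r : ℕ} {P : K[X]} (hP : P.degree < r) : zev p K P ∈ zM p K r :=
  mem_zM.2 ⟨P, hP, fun _ => rfl⟩

theorem zM_mono {r s : ℕ} (h : r ≤ s) : zM p K r ≤ zM p K s :=
  Submodule.map_mono (degreeLT_mono h)

variable [Fact p.Prime] [CharP K p]

theorem zcast_sub_one (j : ZMod p) : (ZMod.cast (j - 1) : K) = (ZMod.cast j : K) - 1 := by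
  rw [ZMod.cast_sub (dvd_refl p), ZMod.cast_one (dvd_refl p)]

omit [Fact p.Prime] in
theorem zcast_injective : Function.Injective (ZMod.cast : ZMod p → K) := by
  have h := ZMod.castHom_injective (n := p) K
  intro a b hab
  apply h
  rw [ZMod.castHom_apply, ZMod.castHom_apply]
  exact hab

theorem zD_zev (P : K[X]) : zD p K (zev p K P) = zev p K (P.comp (X - C 1) - P) := by
  funext j
  rw [zD_apply, zev_apply, zev_apply, zev_apply, zcast_sub_one]
  simp

omit [Fact p.Prime] [CharP K p] in
theorem degree_delta_lt {P : K[X]} {r : ℕ} (h : P.degree < ((r + 1 : ℕ) : WithBot ℕ)) :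
    (P.comp (X - C 1) - P).degree < ((r : ℕ) : WithBot ℕ) := by
  by_cases hP : P = 0
  · subst hP
    simp
  · have hQ : (X - C (1 : K)).natDegree = 1 := natDegree_X_sub_C 1
    have hlc : (P.comp (X - C 1)).leadingCoeff = P.leadingCoeff := by
      rw [leadingCoeff_comp (by rw [hQ]; exact one_ne_zero), leadingCoeff_X_sub_C, one_pow,
        mul_one]
    have hne : P.comp (X - C 1) ≠ 0 := by
      intro h0
      rw [h0, leadingCoeff_zero] at hlc
      exact hP (leadingCoeff_eq_zero.1 hlc.symm)
    have hnd : (P.comp (X - C 1)).natDegree = P.natDegree := by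
      rw [natDegree_comp, hQ, mul_one]
    have h1 : (P.comp (X - C 1)).degree = P.degree := by
      rw [degree_eq_natDegree hne, degree_eq_natDegree hP, hnd]
    have h3 : (P.comp (X - C 1) - P).degree < P.degree := by
      have := degree_sub_lt_left h1 hne hlc
      rwa [h1] at this
    rw [degree_eq_natDegree hP] at h h3
    have h4 : P.natDegree < r + 1 := by exact_mod_cast h
    exact lt_of_lt_of_le h3 (by exact_mod_cast Nat.lt_succ_iff.1 h4)

theorem zD_mem_zM {r : ℕ} {f : ZMod p → K} (hf : f ∈ zM p K (r + 1)) :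
    zD p K f ∈ zM p K r := by
  obtain ⟨P, hP, hfP⟩ := mem_zM.1 hf
  have hf' : f = zev p K P := funext hfP
  rw [hf', zD_zev]
  exact zev_mem_zM (degree_delta_lt hP)

theorem zD_pow_zM (r : ℕ) : ∀ f ∈ zM p K r, (zD p K ^ r) f = 0 := by
  induction r with
  | zero =>
    intro f hf
    obtain ⟨P, hP, hfP⟩ := mem_zM.1 hf
    have hP0 : P = 0 := by
      by_contra hne
      rw [degree_eq_natDegree hne] at hP
      exact Nat.not_lt_zero _ (by exact_mod_cast hP)
    have hf' : f = 0 := by
      funext j
      rw [hfP j, hP0]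
      simp
    rw [hf', map_zero]
  | succ r ih =>
    intro f hf
    rw [pow_succ, Module.End.mul_apply]
    exact ih _ (zD_mem_zM hf)

theorem zev_eq_zero {P : K[X]} (hP : P.degree < ((p : ℕ) : WithBot ℕ)) (h : zev p K P = 0) :
    P = 0 := by
  by_contra hne
  have hnd : P.natDegree < p := (natDegree_lt_iff_degree_lt hne).2 hP
  refine hne (eq_zero_of_natDegree_lt_card_of_eval_eq_zero P
    (f := (ZMod.cast : ZMod p → K)) zcast_injective (fun j => ?_) ?_)
  · exact congrFun h j
  · rw [ZMod.card]; exact hnd

theorem zev_inj {P Q : K[X]} (hP : P.degree < ((p : ℕ) : WithBot ℕ))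
    (hQ : Q.degree < ((p : ℕ) : WithBot ℕ)) (h : zev p K P = zev p K Q) : P = Q := by
  have hd : (P - Q).degree < ((p : ℕ) : WithBot ℕ) :=
    lt_of_le_of_lt (degree_sub_le P Q) (max_lt hP hQ)
  have := zev_eq_zero hd (by rw [map_sub, h, sub_self])
  exact sub_eq_zero.1 this

theorem finrank_zM {r : ℕ} (hr : r ≤ p) : Module.finrank K (zM p K r) = r := by
  have hinj : Function.Injective ((zev p K).domRestrict (degreeLT K r)) := by
    rw [injective_iff_map_eq_zero]
    intro x hx
    apply Subtype.ext
    exact zev_eq_zero (lt_of_lt_of_le (mem_degreeLT.1 x.2) (by exact_mod_cast hr)) hx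
  have h1 := LinearMap.finrank_range_of_inj hinj
  rw [LinearMap.range_domRestrict] at h1
  have h2 : Module.finrank K (degreeLT K r) = r := by
    rw [(degreeLTEquiv K r).finrank_eq, Module.finrank_fin_fun]
  show Module.finrank K ((degreeLT K r).map (zev p K)) = r
  rw [h1, h2]

omit [CharP K p] in
theorem finrank_zfun : Module.finrank K (ZMod p → K) = p := by
  rw [Module.finrank_fintype_fun_eq_card, ZMod.card]

theorem zM_top : zM p K p = ⊤ := by
  apply Submodule.eq_top_of_finrank_eq
  rw [finrank_zM le_rfl, finrank_zfun]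

theorem zD_pow_p : zD p K ^ p = 0 :=
  LinearMap.ext fun f => by
    rw [LinearMap.zero_apply]
    exact zD_pow_zM p f (by rw [zM_top]; exact Submodule.mem_top)

omit [CharP K p] in
theorem finrank_ker_zD : Module.finrank K (LinearMap.ker (zD p K)) ≤ 1 := by
  have hle : LinearMap.ker (zD p K) ≤ Submodule.span K {(fun _ => 1 : ZMod p → K)} := by
    intro f hf
    rw [LinearMap.mem_ker] at hf
    have h1 : ∀ j : ZMod p, f (j - 1) = f j := fun j => by
      have := congrFun hf j
      rw [zD_apply] at this
      exact sub_eq_zero.1 this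
    have h2 : ∀ n : ℕ, f (n : ZMod p) = f 0 := by
      intro n
      induction n with
      | zero => simp
      | succ n ih =>
        calc f ((n + 1 : ℕ) : ZMod p) = f (((n + 1 : ℕ) : ZMod p) - 1) := (h1 _).symm
          _ = f (n : ZMod p) := by congr 1; push_cast; ring
          _ = f 0 := ih
    rw [Submodule.mem_span_singleton]
    refine ⟨f 0, funext fun j => ?_⟩
    have := h2 j.val
    rw [ZMod.natCast_zmod_val] at this
    rw [this]
    simp
  calc Module.finrank K (LinearMap.ker (zD p K))
      ≤ Module.finrank K (Submodule.span K {(fun _ => 1 : ZMod p → K)}) :=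
        Submodule.finrank_mono hle
    _ ≤ 1 := by
      have := finrank_span_le_card (R := K) ({(fun _ => 1 : ZMod p → K)} : Set (ZMod p → K))
      simpa using this

omit [CharP K p] in
theorem finrank_ker_zD_pow (k : ℕ) : Module.finrank K (LinearMap.ker (zD p K ^ k)) ≤ k := by
  induction k with
  | zero =>
    have : LinearMap.ker (zD p K ^ 0) = ⊥ := by
      rw [pow_zero]; exact LinearMap.ker_id
    rw [this]; simp
  | succ k ih =>
    let g : ↥(LinearMap.ker (zD p K ^ (k + 1))) →ₗ[K] (ZMod p → K) :=
      (zD p K).domRestrict (LinearMap.ker (zD p K ^ (k + 1)))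
    have hrange : LinearMap.range g ≤ LinearMap.ker (zD p K ^ k) := by
      rintro _ ⟨x, rfl⟩
      rw [LinearMap.mem_ker]
      have hx : (zD p K ^ k * zD p K) (x : ZMod p → K) = 0 := by
        rw [← pow_succ]; exact x.2
      rw [Module.End.mul_apply] at hx
      exact hx
    have hker : Module.finrank K (LinearMap.ker g)
        ≤ Module.finrank K (LinearMap.ker (zD p K)) := by
      have h1 : (LinearMap.ker g).map (LinearMap.ker (zD p K ^ (k + 1))).subtype
          ≤ LinearMap.ker (zD p K) := by
        rintro _ ⟨x, hx, rfl⟩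
        exact LinearMap.mem_ker.1 hx
      rw [← Submodule.finrank_map_subtype_eq]
      exact Submodule.finrank_mono h1
    have hrn : Module.finrank K (LinearMap.range g) + Module.finrank K (LinearMap.ker g)
        = Module.finrank K (LinearMap.ker (zD p K ^ (k + 1))) :=
      LinearMap.finrank_range_add_finrank_ker g
    have h2 : Module.finrank K (LinearMap.range g)
        ≤ Module.finrank K (LinearMap.ker (zD p K ^ k)) := Submodule.finrank_mono hrange
    have h3 := finrank_ker_zD (p := p) (K := K)
    omega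

theorem le_ker_pow_finrank (W : Submodule K (ZMod p → K)) (hW : ∀ f ∈ W, zD p K f ∈ W) :
    W ≤ LinearMap.ker (zD p K ^ Module.finrank K W) := by
  have h1 : ((zD p K).restrict hW) ^ p = 0 := by
    rw [Module.End.pow_restrict p hW]
    apply LinearMap.ext
    intro x
    apply Subtype.ext
    rw [LinearMap.coe_restrict_apply, zD_pow_p]
    rfl
  have h2 := Module.End.ker_pow_le_ker_pow_finrank ((zD p K).restrict hW) p
  rw [h1] at h2
  intro f hf
  have h3 : (⟨f, hf⟩ : W) ∈ LinearMap.ker (((zD p K).restrict hW) ^ Module.finrank K W) :=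
    h2 (by rw [LinearMap.mem_ker]; rfl)
  rw [LinearMap.mem_ker, Module.End.pow_restrict _ hW] at h3
  rw [LinearMap.mem_ker]
  exact congrArg Subtype.val h3

/-- the translation-invariant subspaces of the functions on `ZMod p` are the `zM p K r` -/
theorem shift_invariant_classification (W : Submodule K (ZMod p → K))
    (hW : ∀ f ∈ W, (fun j => f (j - 1)) ∈ W) :
    Module.finrank K W ≤ p ∧ W = zM p K (Module.finrank K W) := by
  have hD : ∀ f ∈ W, zD p K f ∈ W := fun f hf => W.sub_mem (hW f hf) hf
  have hr : Module.finrank K W ≤ p := by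
    have := Submodule.finrank_le W
    rwa [finrank_zfun] at this
  refine ⟨hr, ?_⟩
  have h1 : W ≤ LinearMap.ker (zD p K ^ Module.finrank K W) := le_ker_pow_finrank W hD
  have h2 : W = LinearMap.ker (zD p K ^ Module.finrank K W) :=
    Submodule.eq_of_le_of_finrank_le h1 (finrank_ker_zD_pow _)
  have h3 : zM p K (Module.finrank K W) ≤ LinearMap.ker (zD p K ^ Module.finrank K W) :=
    fun f hf => LinearMap.mem_ker.2 (zD_pow_zM _ f hf)
  have h4 : zM p K (Module.finrank K W) = LinearMap.ker (zD p K ^ Module.finrank K W) :=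
    Submodule.eq_of_le_of_finrank_le h3 (by rw [finrank_zM hr]; exact finrank_ker_zD_pow _)
  exact h2.trans h4.symm

end ZModFun

end Cfsg.Agent.Helper5
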