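import Mathlib
import Cfsg.Agent.Helper5.ZModFun

set_option autoImplicit false

namespace Cfsg.Agent.Helper5

open Polynomial

section ZModFun2

variable {p : ℕ} {K : Type*} [Field K] [Fact p.Prime]

/-- the sum-zero functions on `ZMod p` -/
def zS (p : ℕ) (K : Type*) [Field K] [Fact p.Prime] : Submodule K (ZMod p → K) where
  carrier := {f | ∑ j, f j = 0}
  add_mem' := by
    intro f g hf hg
    show ∑ j, (f + g) j = 0
    simp only [Pi.add_apply, Finset.sum_add_distrib]
    rw [show ∑ j, f j = 0 from hf, show ∑ j, g j = 0 from hg, add_zero]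
  zero_mem' := by
    show ∑ j : ZMod p, (0 : ZMod p → K) j = 0
    simp
  smul_mem' := by
    intro c f hf
    show ∑ j, (c • f) j = 0
    simp only [Pi.smul_apply, smul_eq_mul, ← Finset.mul_sum]
    rw [show ∑ j, f j = 0 from hf, mul_zero]

theorem mem_zS {f : ZMod p → K} : f ∈ zS p K ↔ ∑ j, f j = 0 := Iff.rfl

theorem zS_comp_equiv (σ : Equiv.Perm (ZMod p)) {f : ZMod p → K} (hf : f ∈ zS p K) :
    (f ∘ σ) ∈ zS p K := by
  rw [mem_zS] at hf ⊢
  rw [← hf]
  exact Equiv.sum_comp σ f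

theorem zS_ne_top : zS p K ≠ ⊤ := by
  intro h
  have : (Pi.single (0 : ZMod p) (1 : K)) ∈ zS p K := by rw [h]; exact Submodule.mem_top
  simp [mem_zS, Finset.sum_pi_single'] at this

variable [CharP K p]

omit [CharP K p] in
theorem range_zD_le_zS : LinearMap.range (zD p K) ≤ zS p K := by
  rintro _ ⟨f, rfl⟩
  rw [mem_zS]
  simp only [zD_apply, Finset.sum_sub_distrib]
  rw [sub_eq_zero]
  have := Equiv.sum_comp (Equiv.subRight (1 : ZMod p)) f
  simpa using this

theorem zM_pred_eq_zS : zM p K (p - 1) = zS p K := by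
  have hp : p - 1 + 1 = p := Nat.sub_add_cancel (Fact.out : p.Prime).pos
  have hrM : LinearMap.range (zD p K) ≤ zM p K (p - 1) := by
    rintro _ ⟨f, rfl⟩
    apply zD_mem_zM
    rw [hp, zM_top]; exact Submodule.mem_top
  have hrn := LinearMap.finrank_range_add_finrank_ker (zD p K)
  rw [finrank_zfun] at hrn
  have hk := finrank_ker_zD (p := p) (K := K)
  have hM := finrank_zM (K := K) (p := p) (r := p - 1) (Nat.sub_le p 1)
  have h1 : LinearMap.range (zD p K) = zM p K (p - 1) :=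
    Submodule.eq_of_le_of_finrank_le hrM (by omega)
  have h2 : zM p K (p - 1) ≤ zS p K := h1 ▸ range_zD_le_zS
  have h3 : Module.finrank K (zS p K) < p := by
    have := Submodule.finrank_lt (zS_ne_top (p := p) (K := K))
    rwa [finrank_zfun] at this
  exact Submodule.eq_of_le_of_finrank_le h2 (by omega)

theorem zev_mem_zS_iff {Q : K[X]} (hQ : Q.degree < ((p : ℕ) : WithBot ℕ)) :
    zev p K Q ∈ zS p K ↔ Q.degree < ((p - 1 : ℕ) : WithBot ℕ) := by
  rw [← zM_pred_eq_zS]
  constructor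
  · intro h
    obtain ⟨Q', hQ', hh⟩ := mem_zM.1 h
    have : Q = Q' :=
      zev_inj hQ (lt_of_lt_of_le hQ' (by exact_mod_cast Nat.sub_le p 1)) (funext hh)
    rw [this]; exact hQ'
  · intro h
    exact zev_mem_zM h

omit [Fact p.Prime] [CharP K p] in
theorem zev_mul (P Q : K[X]) : zev p K (P * Q) = zev p K P * zev p K Q := by
  funext j; simp [zev_apply]

/-- the orthogonal complement for the form `∑ f m` -/
def zperp (W : Submodule K (ZMod p → K)) : Submodule K (ZMod p → K) where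
  carrier := {f | ∀ m ∈ W, f * m ∈ zS p K}
  add_mem' := by
    intro f g hf hg m hm
    rw [add_mul]; exact (zS p K).add_mem (hf m hm) (hg m hm)
  zero_mem' := by
    intro m hm
    rw [zero_mul]; exact (zS p K).zero_mem
  smul_mem' := by
    intro c f hf m hm
    rw [smul_mul_assoc]; exact (zS p K).smul_mem c (hf m hm)

omit [CharP K p] in
theorem zperp_comp (W : Submodule K (ZMod p → K)) (σ : Equiv.Perm (ZMod p))
    (hW : ∀ m ∈ W, m ∘ σ.symm ∈ W) {f : ZMod p → K} (hf : f ∈ zperp W) :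
    f ∘ σ ∈ zperp W := by
  intro m hm
  have h1 := zS_comp_equiv σ (hf _ (hW m hm))
  have h2 : (f * (m ∘ σ.symm)) ∘ σ = (f ∘ σ) * m := by
    funext j; simp
  rw [h2] at h1; exact h1

theorem zperp_zM {r : ℕ} (hr1 : 1 ≤ r) (hr2 : r ≤ p) :
    zperp (zM p K r) = zM p K (p - r) := by
  apply le_antisymm
  · intro f hf
    have hfp : f ∈ zM p K p := by rw [zM_top]; exact Submodule.mem_top
    obtain ⟨F, hF, hfF⟩ := mem_zM.1 hfp
    have hf' : f = zev p K F := funext hfF
    rw [hf']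
    apply zev_mem_zM
    by_cases hF0 : F = 0
    · rw [hF0, degree_zero]; exact WithBot.bot_lt_coe _
    · rw [← natDegree_lt_iff_degree_lt hF0]
      by_contra hk
      push Not at hk
      have hkp : F.natDegree < p := (natDegree_lt_iff_degree_lt hF0).2 hF
      have hm : zev p K (X ^ (p - 1 - F.natDegree)) ∈ zM p K r := by
        apply zev_mem_zM
        rw [degree_X_pow]
        exact_mod_cast (by omega : p - 1 - F.natDegree < r)
      have h1 := hf _ hm
      rw [hf', ← zev_mul] at h1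
      have hnd : (F * X ^ (p - 1 - F.natDegree)).natDegree = p - 1 := by
        rw [natDegree_mul_X_pow _ hF0]; omega
      have hne : F * X ^ (p - 1 - F.natDegree) ≠ 0 :=
        mul_ne_zero hF0 (pow_ne_zero _ X_ne_zero)
      have hdeg : (F * X ^ (p - 1 - F.natDegree)).degree < ((p : ℕ) : WithBot ℕ) := by
        rw [← natDegree_lt_iff_degree_lt hne, hnd]
        have := (Fact.out : p.Prime).pos
        omega
      have h2 := (zev_mem_zS_iff hdeg).1 h1
      rw [← natDegree_lt_iff_degree_lt hne, hnd] at h2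
      exact lt_irrefl _ h2
  · intro f hf m hm
    obtain ⟨F, hF, hfF⟩ := mem_zM.1 hf
    obtain ⟨Q, hQ, hmQ⟩ := mem_zM.1 hm
    have hf' : f = zev p K F := funext hfF
    have hm' : m = zev p K Q := funext hmQ
    rw [hf', hm', ← zev_mul, ← zM_pred_eq_zS]
    apply zev_mem_zM
    by_cases h0 : F * Q = 0
    · rw [h0, degree_zero]; exact WithBot.bot_lt_coe _
    · have hF0 : F ≠ 0 := left_ne_zero_of_mul h0
      have hQ0 : Q ≠ 0 := right_ne_zero_of_mul h0
      rw [← natDegree_lt_iff_degree_lt h0, natDegree_mul hF0 hQ0]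
      have h1 := (natDegree_lt_iff_degree_lt hF0).2 hF
      have h2 := (natDegree_lt_iff_degree_lt hQ0).2 hQ
      omega

theorem arith_k {d r n : ℕ} (hd2 : 2 ≤ d) (hdr : d < r) (hrp : 2 * r ≤ n) :
    ∃ k, k < r ∧ r ≤ k * d ∧ k * d < n := by
  have hq1 : d * ((r - 1) / d) ≤ r - 1 := Nat.mul_div_le _ _
  have hq2 : r - 1 < d * ((r - 1) / d + 1) := Nat.lt_mul_div_succ _ (by omega)
  have hq3 : 2 * ((r - 1) / d) ≤ d * ((r - 1) / d) := Nat.mul_le_mul_right _ hd2
  have hq4 : ((r - 1) / d + 1) * d = d * ((r - 1) / d) + d := by ring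
  have hq5 : d * ((r - 1) / d + 1) = d * ((r - 1) / d) + d := by ring
  rw [hq5] at hq2
  refine ⟨(r - 1) / d + 1, ?_, ?_, ?_⟩
  · omega
  · rw [hq4]; omega
  · rw [hq4]; omega

omit [Fact p.Prime] [CharP K p] in
theorem affine_of_mem_zM_two (σ : ZMod p → ZMod p) (h : (zev p K X) ∘ σ ∈ zM p K 2) :
    ∃ a b : K, ∀ j, (ZMod.cast (σ j) : K) = a * ZMod.cast j + b := by
  obtain ⟨H, hH, hHσ⟩ := mem_zM.1 h
  have hd : H.natDegree ≤ 1 := by
    by_cases hH0 : H = 0
    · rw [hH0]; simp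
    · have := (natDegree_lt_iff_degree_lt hH0).2 hH
      omega
  have hH' := eq_X_add_C_of_natDegree_le_one hd
  refine ⟨H.coeff 1, H.coeff 0, fun j => ?_⟩
  have h1 : (ZMod.cast (σ j) : K) = H.eval (ZMod.cast j : K) := by
    have := hHσ j
    simpa [zev_apply] using this
  calc (ZMod.cast (σ j) : K) = H.eval (ZMod.cast j : K) := h1
    _ = (C (H.coeff 1) * X + C (H.coeff 0)).eval (ZMod.cast j : K) := by rw [← hH']
    _ = H.coeff 1 * ZMod.cast j + H.coeff 0 := by simp

theorem affine_of_small {r : ℕ} (hr2 : 2 ≤ r) (hrp : 2 * r ≤ p) (σ : ZMod p → ZMod p)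
    (hσ : ∀ f ∈ zM p K r, f ∘ σ ∈ zM p K r) :
    ∃ a b : K, ∀ j, (ZMod.cast (σ j) : K) = a * ZMod.cast j + b := by
  have hι : zev p K X ∈ zM p K r := zev_mem_zM (by rw [degree_X]; exact_mod_cast hr2)
  obtain ⟨H, hH, hHσ⟩ := mem_zM.1 (hσ _ hι)
  have hHσ' : ∀ j, (ZMod.cast (σ j) : K) = H.eval (ZMod.cast j : K) := by
    intro j
    have := hHσ j
    simpa [zev_apply] using this
  apply affine_of_mem_zM_two
  refine mem_zM.2 ⟨H, ?_, hHσ⟩
  by_cases hH0 : H = 0
  · rw [hH0, degree_zero]; exact WithBot.bot_lt_coe _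
  rw [← natDegree_lt_iff_degree_lt hH0]
  by_contra hcon
  push Not at hcon
  have hdr : H.natDegree < r := (natDegree_lt_iff_degree_lt hH0).2 hH
  obtain ⟨k, hk1, hk3, hk2⟩ := arith_k hcon hdr hrp
  have hxk : zev p K (X ^ k) ∈ zM p K r :=
    zev_mem_zM (by rw [degree_X_pow]; exact_mod_cast hk1)
  obtain ⟨Q, hQ, hQσ⟩ := mem_zM.1 (hσ _ hxk)
  have hev : zev p K (H ^ k) = zev p K Q := by
    funext j
    have := hQσ j
    simp only [Function.comp_apply, zev_apply, eval_pow, eval_X] at this ⊢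
    rw [← this, hHσ']
  have hnd : (H ^ k).natDegree = k * H.natDegree := natDegree_pow H k
  have hne : H ^ k ≠ 0 := pow_ne_zero _ hH0
  have hdeg : (H ^ k).degree < ((p : ℕ) : WithBot ℕ) := by
    rw [← natDegree_lt_iff_degree_lt hne, hnd]; exact hk2
  have hQp : Q.degree < ((p : ℕ) : WithBot ℕ) :=
    lt_of_lt_of_le hQ (by exact_mod_cast (by omega : r ≤ p))
  have heq := zev_inj hdeg hQp hev
  rw [← heq, ← natDegree_lt_iff_degree_lt hne, hnd] at hQ
  omega

theorem affine_of_invariant {r : ℕ} (hr2 : 2 ≤ r) (hrp : r + 2 ≤ p)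
    (σ : Equiv.Perm (ZMod p))
    (hσ : ∀ f ∈ zM p K r, f ∘ σ ∈ zM p K r) (hσ' : ∀ f ∈ zM p K r, f ∘ σ.symm ∈ zM p K r) :
    ∃ a b : K, ∀ j, (ZMod.cast (σ j) : K) = a * ZMod.cast j + b := by
  by_cases h : 2 * r ≤ p
  · exact affine_of_small hr2 h σ hσ
  · have hperp := zperp_zM (K := K) (p := p) (r := r) (by omega) (by omega)
    apply affine_of_small (r := p - r) (by omega) (by omega) σ
    intro f hf
    rw [← hperp] at hf ⊢
    exact zperp_comp _ σ hσ' hf

theorem isSolvable_of_affine {Γ : Type*} [Group Γ] (ρ : Γ →* Equiv.Perm (ZMod p))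
    (hρ : Function.Injective ρ)
    (haff : ∀ γ : Γ, ∃ a b : K, ∀ j, (ZMod.cast (ρ γ j) : K) = a * ZMod.cast j + b) :
    Group.IsSolvable Γ := by
  have h0 : (ZMod.cast (0 : ZMod p) : K) = 0 := ZMod.cast_zero
  have h1 : (ZMod.cast (1 : ZMod p) : K) = 1 := ZMod.cast_one (dvd_refl p)
  have hAB : ∀ γ j, (ZMod.cast (ρ γ j) : K)
      = ((ZMod.cast (ρ γ 1) : K) - ZMod.cast (ρ γ 0)) * ZMod.cast j + ZMod.cast (ρ γ 0) := by
    intro γ j
    obtain ⟨a, b, h⟩ := haff γ
    have e0 := h 0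
    have e1 := h 1
    rw [h0, mul_zero, zero_add] at e0
    rw [h1, mul_one] at e1
    rw [h j, e1, e0]; ring
  let ψ : Γ →* K :=
    { toFun := fun γ => (ZMod.cast (ρ γ 1) : K) - ZMod.cast (ρ γ 0)
      map_one' := by
        show (ZMod.cast (ρ 1 1) : K) - ZMod.cast (ρ 1 0) = 1
        rw [ρ.map_one, Equiv.Perm.one_apply, Equiv.Perm.one_apply, h0, h1, sub_zero]
      map_mul' := by
        intro γ δ
        show (ZMod.cast (ρ (γ * δ) 1) : K) - ZMod.cast (ρ (γ * δ) 0)
          = ((ZMod.cast (ρ γ 1) : K) - ZMod.cast (ρ γ 0))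
            * ((ZMod.cast (ρ δ 1) : K) - ZMod.cast (ρ δ 0))
        rw [ρ.map_mul, Equiv.Perm.mul_apply, Equiv.Perm.mul_apply, hAB γ (ρ δ 1),
          hAB γ (ρ δ 0)]
        ring }
  have hker : ∀ a : ψ.toHomUnits.ker,
      (ZMod.cast (ρ a.1 1) : K) - ZMod.cast (ρ a.1 0) = 1 := by
    intro a
    have h2 := a.2
    rw [MonoidHom.mem_ker] at h2
    have h3 : ((ψ.toHomUnits a.1 : Kˣ) : K) = 1 := by rw [h2]; rfl
    exact h3
  have hcomm : ∀ a b : ψ.toHomUnits.ker, a * b = b * a := by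
    intro a b
    apply Subtype.ext
    apply hρ
    ext j
    apply zcast_injective (K := K)
    show (ZMod.cast (ρ (a.1 * b.1) j) : K) = ZMod.cast (ρ (b.1 * a.1) j)
    rw [ρ.map_mul, ρ.map_mul, Equiv.Perm.mul_apply, Equiv.Perm.mul_apply,
      hAB a.1 (ρ b.1 j), hAB b.1 (ρ a.1 j), hAB a.1 j, hAB b.1 j, hker a, hker b]
    ring
  have : Group.IsSolvable ψ.toHomUnits.ker := Group.isSolvable_of_comm hcomm
  exact Group.isSolvable_of_ker_le_range ψ.toHomUnits.ker.subtype ψ.toHomUnits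
    (Subgroup.range_subtype _).ge

end ZModFun2

section Transport

variable {α : Type*} [Fintype α] [DecidableEq α] {p : ℕ} [Fact p.Prime]

/-- a permutation of prime order `p` on `p` points is conjugate to the translation of `ZMod p` -/
theorem exists_equiv_zmod (hα : Fintype.card α = p) (σ : Equiv.Perm α) (hσ : orderOf σ = p) :
    ∃ e : α ≃ ZMod p, ∀ x, e (σ x) = e x + 1 := by
  have hp : p.Prime := Fact.out
  have hcyc : σ.IsCycle :=
    Equiv.Perm.isCycle_of_prime_order'' (hα ▸ hp) (hσ.trans hα.symm)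
  have hsupp : σ.support = Finset.univ :=
    Finset.eq_univ_of_card σ.support (hcyc.orderOf.symm.trans (hσ.trans hα.symm))
  have hfix : ∀ x, σ x ≠ x := by
    intro x
    rw [← Equiv.Perm.mem_support, hsupp]
    exact Finset.mem_univ x
  have hne : Nonempty α := by
    rw [← Fintype.card_pos_iff, hα]; exact hp.pos
  obtain ⟨x₀⟩ := hne
  let φ : ZMod p → α := fun j => (σ ^ j.val) x₀
  have hφ1 : ∀ j, φ (j + 1) = σ (φ j) := by
    intro j
    show (σ ^ (j + 1).val) x₀ = σ ((σ ^ j.val) x₀)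
    have h1 : σ ^ (j + 1).val = σ ^ (j.val + 1) := by
      rw [pow_eq_pow_iff_modEq, hσ, ZMod.val_add, ZMod.val_one]
      exact Nat.mod_modEq _ _
    rw [h1, pow_succ', Equiv.Perm.mul_apply]
  have hkey : ∀ a b : ℕ, a ≤ b → b < p → (σ ^ a) x₀ = (σ ^ b) x₀ → a = b := by
    intro a b hab hb h
    by_contra hne
    have hk : 0 < b - a := by omega
    have hkp : b - a < p := by omega
    have h1 : (σ ^ (b - a)) ((σ ^ a) x₀) = (σ ^ a) x₀ := by
      rw [← Equiv.Perm.mul_apply, ← pow_add, Nat.sub_add_cancel hab, ← h]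
    have hcop : (b - a).Coprime (orderOf σ) := by
      rw [hσ]
      exact ((Nat.Prime.coprime_iff_not_dvd hp).2
        (Nat.not_dvd_of_pos_of_lt hk hkp)).symm
    obtain ⟨m, hm⟩ := exists_pow_eq_self_of_coprime hcop
    have h2 : ((σ ^ (b - a)) ^ m) ((σ ^ a) x₀) = (σ ^ a) x₀ :=
      Equiv.Perm.pow_apply_eq_self_of_apply_eq_self h1 m
    rw [hm] at h2
    exact hfix _ h2
  have hφinj : Function.Injective φ := by
    intro j j' h
    apply ZMod.val_injective p
    rcases le_total j.val j'.val with hle | hle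
    · exact hkey _ _ hle (ZMod.val_lt j') h
    · exact (hkey _ _ hle (ZMod.val_lt j) h.symm).symm
  have hbij : Function.Bijective φ :=
    (Fintype.bijective_iff_injective_and_card φ).2 ⟨hφinj, by rw [ZMod.card, hα]⟩
  refine ⟨(Equiv.ofBijective φ hbij).symm, fun x => ?_⟩
  apply (Equiv.ofBijective φ hbij).injective
  rw [Equiv.apply_symm_apply]
  show σ x = φ ((Equiv.ofBijective φ hbij).symm x + 1)
  rw [hφ1]
  congr 1
  exact ((Equiv.ofBijective φ hbij).apply_symm_apply x).symm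

/-- transport of a permutation group on `α` to `ZMod p` along a bijection -/
def zrho (e : α ≃ ZMod p) (G : Subgroup (Equiv.Perm α)) : G →* Equiv.Perm (ZMod p) :=
  (e.permCongrHom.toMonoidHom).comp G.subtype

omit [Fintype α] [DecidableEq α] [Fact p.Prime] in
theorem zrho_apply (e : α ≃ ZMod p) (G : Subgroup (Equiv.Perm α)) (g : G) (j : ZMod p) :
    zrho e G g j = e ((g : Equiv.Perm α) (e.symm j)) := rfl

omit [Fintype α] [DecidableEq α] [Fact p.Prime] in
theorem zrho_injective (e : α ≃ ZMod p) (G : Subgroup (Equiv.Perm α)) :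
    Function.Injective (zrho e G) :=
  fun _ _ h => Subtype.ext (e.permCongrHom.injective h)

end Transport

end Cfsg.Agent.Helper5
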